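import Mathlib
import Cfsg.Prelude

set_option autoImplicit false

namespace Cfsg.Agent.Helper22

theorem card_sup_le_mul {V : Type*} [Group V] [Finite V] (A B : Subgroup V) [B.Normal] :
    Nat.card (A ⊔ B : Subgroup V) ≤ Nat.card A * Nat.card B := by
  rw [← Nat.card_prod]
  apply Nat.card_le_card_of_surjective
    (fun x : A × B => (⟨(x.1 : V) * (x.2 : V), Subgroup.mul_mem_sup x.1.2 x.2.2⟩ : ↥(A ⊔ B)))
  rintro ⟨z, hz⟩
  obtain ⟨a, ha, b, hb, e⟩ := Subgroup.mem_sup_of_normal_right.mp hz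
  exact ⟨(⟨a, ha⟩, ⟨b, hb⟩), Subtype.ext e⟩

/-- A finite commutative group of exponent `p` generated by `S` has at most `p ^ |S|` elements. -/
theorem card_closure_le_pow {V : Type*} [Group V] [Finite V] (p : ℕ) (hp : 0 < p)
    (hcomm : ∀ a b : V, a * b = b * a) (hexp : ∀ v : V, v ^ p = 1) (S : Finset V) :
    Nat.card (Subgroup.closure (S : Set V)) ≤ p ^ S.card := by
  classical
  induction S using Finset.induction_on with
  | empty => simp
  | insert s S' hs ih =>
    rw [Finset.coe_insert, Set.insert_eq, Subgroup.closure_union, Finset.card_insert_of_notMem hs]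
    haveI : (Subgroup.closure (S' : Set V)).Normal := by
      constructor
      intro n hn g
      rw [hcomm g n, mul_inv_cancel_right]; exact hn
    refine le_trans (card_sup_le_mul _ _) ?_
    rw [pow_succ, mul_comm]
    apply Nat.mul_le_mul ih
    rw [← Subgroup.zpowers_eq_closure, Nat.card_zpowers]
    exact Nat.le_of_dvd hp (orderOf_dvd_of_pow_eq_one (hexp s))

/-- `Ω₁` of an abelian `p`-group has order at most `p ^ rank`. -/
theorem exists_omega_le_rank {G : Type*} [Group G] (P : Subgroup G) [Finite P]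
    (hab : IsMulCommutative P) (p : ℕ) [Fact p.Prime] :
    ∃ Ω : Subgroup G, (∀ x, x ∈ Ω ↔ x ∈ P ∧ x ^ p = 1) ∧ Nat.card Ω ≤ p ^ Group.rank P := by
  have hp : p.Prime := Fact.out
  have hcomm : ∀ a b : P, a * b = b * a := fun a b => mul_comm' a b
  let π : ↥P →* ↥P := MonoidHom.mk' (fun x => x ^ p) (fun x y => (show Commute x y from hcomm x y).mul_pow p)
  have hπ : ∀ x : P, π x = x ^ p := fun x => rfl
  haveI hrn : π.range.Normal := by
    constructor
    intro n hn g
    rw [hcomm g n, mul_inv_cancel_right]; exact hn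
  refine ⟨π.ker.map P.subtype, ?_, ?_⟩
  · intro x
    constructor
    · rintro ⟨y, hy, rfl⟩
      refine ⟨y.2, ?_⟩
      have : y ^ p = 1 := hy
      exact congrArg Subtype.val this
    · rintro ⟨hx, hxp⟩
      exact ⟨⟨x, hx⟩, Subtype.ext hxp, rfl⟩
  · rw [Subgroup.card_map_of_injective (Subgroup.subtype_injective _)]
    have h1 := Subgroup.card_mul_index π.ker
    have h2 := Subgroup.card_mul_index π.range
    rw [Subgroup.index_ker] at h1
    have h3 : Nat.card π.ker = π.range.index := by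
      have hpos : 0 < Nat.card π.range := Nat.card_pos
      apply Nat.eq_of_mul_eq_mul_right hpos
      rw [h1, mul_comm, h2]
    rw [h3]
    obtain ⟨S, hS, hSgen⟩ := Group.rank_spec (G := ↥P)
    have hexp : ∀ v : ↥P ⧸ π.range, v ^ p = 1 := by
      intro v
      obtain ⟨y, rfl⟩ := QuotientGroup.mk_surjective v
      rw [← QuotientGroup.mk_pow, QuotientGroup.eq_one_iff]
      exact ⟨y, rfl⟩
    have hcommV : ∀ a b : ↥P ⧸ π.range, a * b = b * a := by
      intro a b
      obtain ⟨x, rfl⟩ := QuotientGroup.mk_surjective a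
      obtain ⟨y, rfl⟩ := QuotientGroup.mk_surjective b
      rw [← QuotientGroup.mk_mul, ← QuotientGroup.mk_mul, hcomm]
    classical
    have hgen : Subgroup.closure ((S.image (QuotientGroup.mk' π.range) : Finset (↥P ⧸ π.range)) :
        Set (↥P ⧸ π.range)) = ⊤ := by
      rw [Finset.coe_image, ← MonoidHom.map_closure, hSgen]
      exact Subgroup.map_top_of_surjective _ (QuotientGroup.mk'_surjective _)
    have h4 := card_closure_le_pow p hp.pos hcommV hexp (S.image (QuotientGroup.mk' π.range))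
    rw [hgen, Subgroup.card_top] at h4
    have h5 : π.range.index = Nat.card (↥P ⧸ π.range) := rfl
    rw [h5]
    refine le_trans h4 ?_
    rw [← hS]
    exact Nat.pow_le_pow_right hp.pos Finset.card_image_le

/-- Fixed points of conjugation by `b` on a subgroup `Ω`, when `b ^ q` centralizes `Ω`. -/
theorem card_modEq_card_fixed {G : Type*} [Group G] (q : ℕ) [Fact q.Prime] (Ω : Subgroup G)
    [Finite Ω] (b : G) (hb : ∀ x ∈ Ω, b * x * b⁻¹ ∈ Ω) (hbq : ∀ x ∈ Ω, b ^ q * x = x * b ^ q) :
    Nat.card Ω ≡ Nat.card ↥(Ω ⊓ Subgroup.centralizer ({b} : Set G)) [MOD q] := by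
  classical
  have := Fintype.ofFinite Ω
  let f : Function.End ↥Ω := fun x => ⟨b * (x : G) * b⁻¹, hb x x.2⟩
  have hfk : ∀ k : ℕ, ∀ x : ↥Ω, (((f ^ k) x : ↥Ω) : G) = b ^ k * (x : G) * (b ^ k)⁻¹ := by
    intro k
    induction k with
    | zero =>
      intro x
      rw [pow_zero, pow_zero, one_mul, inv_one, mul_one]; rfl
    | succ k ih =>
      intro x
      have e0 : (f ^ (k + 1)) x = f ((f ^ k) x) := by rw [pow_succ']; rfl
      rw [e0]
      show b * (((f ^ k) x : ↥Ω) : G) * b⁻¹ = _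
      rw [ih, pow_succ']; group
  have hf : f ^ q ^ 1 = 1 := by
    rw [pow_one]
    funext x
    apply Subtype.ext
    rw [hfk, hbq x x.2]
    show (x : G) * b ^ q * (b ^ q)⁻¹ = (x : G)
    group
  have h1 := Equiv.Perm.card_fixedPoints_modEq (p := q) (n := 1) hf
  rw [Nat.card_eq_fintype_card]
  refine h1.trans ?_
  rw [← Nat.card_eq_fintype_card]
  have e : Nat.card (Function.fixedPoints f) =
      Nat.card ↥(Ω ⊓ Subgroup.centralizer ({b} : Set G)) := by
    apply Nat.card_congr
    refine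
      { toFun := fun x => ⟨(x.1 : G), Subgroup.mem_inf.mpr ⟨x.1.2, ?_⟩⟩
        invFun := fun y => ⟨⟨(y : G), (Subgroup.mem_inf.mp y.2).1⟩, ?_⟩
        left_inv := fun x => rfl
        right_inv := fun y => rfl }
    · rw [Subgroup.mem_centralizer_iff]
      intro z hz
      rw [Set.mem_singleton_iff] at hz
      have h2 : f x.1 = x.1 := x.2
      have h3 : b * (x.1 : G) * b⁻¹ = (x.1 : G) := congrArg Subtype.val h2
      rw [hz]
      have e1 : b * (x.1 : G) = b * (x.1 : G) * b⁻¹ * b := by group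
      rw [e1, h3]
    · have h2 := (Subgroup.mem_inf.mp y.2).2
      rw [Subgroup.mem_centralizer_iff] at h2
      have h3 := h2 b (Set.mem_singleton b)
      show f _ = _
      apply Subtype.ext
      show b * (y : G) * b⁻¹ = (y : G)
      rw [h3]; group
  rw [e]

/-- If `b` normalizes the abelian `p`-group `P`, `b ^ q` centralizes `P` with `q` prime to `p`, and
`b` centralizes all elements of order dividing `p`, then `b` centralizes `P`. -/
theorem centralizes_of_centralizes_omega {G : Type*} [Group G] (P : Subgroup G)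
    (hcomm : ∀ x ∈ P, ∀ y ∈ P, x * y = y * x) (p q : ℕ) (hpq : Nat.Coprime p q) (b : G)
    (hbN : ∀ x ∈ P, b * x * b⁻¹ ∈ P) (hbq : ∀ x ∈ P, b ^ q * x = x * b ^ q)
    (hΩ : ∀ x ∈ P, x ^ p = 1 → b * x = x * b) :
    ∀ k : ℕ, ∀ x ∈ P, x ^ (p ^ k) = 1 → b * x = x * b := by
  intro k
  induction k with
  | zero =>
    intro x _ hx
    rw [pow_zero, pow_one] at hx
    rw [hx, mul_one, one_mul]
  | succ k ih =>
    intro x hx hxk
    have hxp : x ^ p ∈ P := P.pow_mem hx p
    have h1 : b * x ^ p = x ^ p * b := ih (x ^ p) hxp (by rw [← pow_mul, ← pow_succ']; exact hxk)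
    -- z = b x b⁻¹ x⁻¹
    have hzP : b * x * b⁻¹ * x⁻¹ ∈ P := P.mul_mem (hbN x hx) (P.inv_mem hx)
    have hzp : (b * x * b⁻¹ * x⁻¹) ^ p = 1 := by
      have hc : Commute (b * x * b⁻¹) x⁻¹ := hcomm _ (hbN x hx) _ (P.inv_mem hx)
      rw [hc.mul_pow, conj_pow, inv_pow, h1]; group
    have hzb : b * (b * x * b⁻¹ * x⁻¹) = (b * x * b⁻¹ * x⁻¹) * b := hΩ _ hzP hzp
    have hj : ∀ j : ℕ, b ^ j * x * (b ^ j)⁻¹ = (b * x * b⁻¹ * x⁻¹) ^ j * x := by
      intro j
      induction j with
      | zero => simp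
      | succ j ihj =>
        have e1 : b ^ (j + 1) * x * (b ^ (j + 1))⁻¹ = b * (b ^ j * x * (b ^ j)⁻¹) * b⁻¹ := by
          rw [pow_succ']; group
        rw [e1, ihj]
        have hcz : Commute b ((b * x * b⁻¹ * x⁻¹) ^ j) := (show Commute b _ from hzb).pow_right j
        have e2 : b * ((b * x * b⁻¹ * x⁻¹) ^ j * x) * b⁻¹ =
            (b * (b * x * b⁻¹ * x⁻¹) ^ j) * x * b⁻¹ := by group
        rw [e2, hcz.eq, pow_succ]
        group
    have h2 := hj q
    rw [hbq x hx] at h2
    have h3 : (b * x * b⁻¹ * x⁻¹) ^ q = 1 := by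
      have e3 : x * b ^ q * (b ^ q)⁻¹ = x := by group
      rw [e3] at h2
      have := congrArg (fun w => w * x⁻¹) h2
      simp only [mul_inv_cancel, mul_inv_cancel_right] at this
      exact this.symm
    have h4 := pow_gcd_eq_one.mpr ⟨hzp, h3⟩
    rw [hpq.gcd_eq_one, pow_one] at h4
    have e4 : b * x = (b * x * b⁻¹ * x⁻¹) * (x * b) := by group
    rw [e4, h4, one_mul]

end Cfsg.Agent.Helper22
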