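import Mathlib
import Cfsg.Prelude
import Cfsg.Agent.Helper22.AbelianSylow
import Cfsg.Agent.Helper22.PGroupNorm

set_option autoImplicit false

namespace Cfsg.Agent.Helper22

/-- If an abelian Sylow `p`-subgroup is not central in its normalizer, some prime `q ≠ p` dividing
`|G|` divides `p ^ i - 1` with `1 ≤ i ≤ rank P`. -/
theorem exists_prime_dvd_of_normalizer_ne_centralizer {G : Type*} [Group G] [Finite G] (p : ℕ)
    [Fact p.Prime] (P : Sylow p G) (hab : IsMulCommutative (P : Subgroup G))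
    (hne : ¬ Subgroup.normalizer ((P : Subgroup G) : Set G) ≤
      Subgroup.centralizer ((P : Subgroup G) : Set G)) :
    ∃ q i : ℕ, q.Prime ∧ q ≠ p ∧ q ∣ Nat.card G ∧ 1 ≤ i ∧ i ≤ Group.rank (P : Subgroup G) ∧
      q ∣ p ^ i - 1 := by
  have hp : p.Prime := Fact.out
  have hcomm : ∀ x ∈ (P : Subgroup G), ∀ y ∈ (P : Subgroup G), x * y = y * x := by
    intro x hx y hy
    have := mul_comm' (⟨x, hx⟩ : (P : Subgroup G)) ⟨y, hy⟩
    exact congrArg Subtype.val this
  have hPC : (P : Subgroup G) ≤ Subgroup.centralizer ((P : Subgroup G) : Set G) := by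
    intro x hx
    rw [Subgroup.mem_centralizer_iff]
    intro y hy
    exact hcomm y hy x hx
  obtain ⟨r, hr⟩ : ∃ r, r = (Subgroup.centralizer ((P : Subgroup G) : Set G)).relIndex
      (Subgroup.normalizer ((P : Subgroup G) : Set G)) := ⟨_, rfl⟩
  have hr1 : r ≠ 1 := by
    rw [hr]
    intro h
    exact hne (Subgroup.relIndex_eq_one.mp h)
  obtain ⟨q, hq, hqr⟩ := Nat.exists_prime_and_dvd hr1
  haveI : Fact q.Prime := ⟨hq⟩
  have hcardQ : Nat.card (↥(Subgroup.normalizer ((P : Subgroup G) : Set G)) ⧸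
      (P : Subgroup G).normalizerMonoidHom.ker) = r := by
    rw [hr, Subgroup.normalizerMonoidHom_ker]; rfl
  obtain ⟨xq, hxq⟩ := exists_prime_orderOf_dvd_card' q (by rw [hcardQ]; exact hqr)
  obtain ⟨b', rfl⟩ := QuotientGroup.mk_surjective xq
  have hbN : (b' : G) ∈ Subgroup.normalizer ((P : Subgroup G) : Set G) := b'.2
  have hbC : (b' : G) ∉ Subgroup.centralizer ((P : Subgroup G) : Set G) := by
    intro h
    have h1 : b' ∈ (P : Subgroup G).normalizerMonoidHom.ker := by
      rw [Subgroup.normalizerMonoidHom_ker, Subgroup.mem_subgroupOf]; exact h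
    have h2 := (QuotientGroup.eq_one_iff b').mpr h1
    rw [h2, orderOf_one] at hxq
    exact hq.one_lt.ne hxq
  have hbq : (b' : G) ^ q ∈ Subgroup.centralizer ((P : Subgroup G) : Set G) := by
    have h1 := pow_orderOf_eq_one ((b' : ↥(Subgroup.normalizer ((P : Subgroup G) : Set G))) :
      ↥(Subgroup.normalizer ((P : Subgroup G) : Set G)) ⧸ (P : Subgroup G).normalizerMonoidHom.ker)
    rw [hxq, ← QuotientGroup.mk_pow, QuotientGroup.eq_one_iff, Subgroup.normalizerMonoidHom_ker,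
      Subgroup.mem_subgroupOf] at h1
    exact h1
  generalize (b' : G) = b at hbN hbC hbq
  have hqG : q ∣ Nat.card G := by
    refine hqr.trans ?_
    rw [hr]
    exact (Subgroup.relIndex_dvd_card _ _).trans (Subgroup.card_subgroup_dvd_card _)
  have hqp : q ≠ p := by
    rintro rfl
    apply P.not_dvd_index
    refine hqr.trans ?_
    rw [hr]
    exact (Subgroup.relIndex_dvd_of_le_left _ hPC).trans
      (Subgroup.relIndex_dvd_index_of_le Subgroup.le_normalizer)
  have hpq : Nat.Coprime p q := (Nat.coprime_primes hp hq).mpr (Ne.symm hqp)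
  obtain ⟨Ω, hΩ, hΩcard⟩ := exists_omega_le_rank (P : Subgroup G) hab p
  have hΩP : Ω ≤ (P : Subgroup G) := fun x hx => ((hΩ x).mp hx).1
  have hbP : ∀ x ∈ (P : Subgroup G), b * x * b⁻¹ ∈ (P : Subgroup G) :=
    fun x hx => conj_mem_of_mem_normalizer hbN hx
  have hbΩ : ∀ x ∈ Ω, b * x * b⁻¹ ∈ Ω := by
    intro x hx
    obtain ⟨hx1, hx2⟩ := (hΩ x).mp hx
    rw [hΩ]
    refine ⟨hbP x hx1, ?_⟩
    rw [conj_pow, hx2]; group
  have hbqP : ∀ x ∈ (P : Subgroup G), b ^ q * x = x * b ^ q := by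
    intro x hx
    exact ((Subgroup.mem_centralizer_iff.mp hbq) x hx).symm
  have hmod := card_modEq_card_fixed q Ω b hbΩ (fun x hx => hbqP x (hΩP hx))
  have hΩp : IsPGroup p Ω := P.isPGroup'.to_le hΩP
  have hFp : IsPGroup p ↥(Ω ⊓ Subgroup.centralizer ({b} : Set G)) := hΩp.to_le inf_le_left
  obtain ⟨e, he⟩ := IsPGroup.iff_card.mp hΩp
  obtain ⟨f, hf⟩ := IsPGroup.iff_card.mp hFp
  have hFlt : Ω ⊓ Subgroup.centralizer ({b} : Set G) < Ω := by
    refine lt_of_le_of_ne inf_le_left ?_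
    intro heq
    apply hbC
    have hΩc : ∀ x ∈ (P : Subgroup G), x ^ p = 1 → b * x = x * b := by
      intro x hx hxp
      have h1 : x ∈ Ω ⊓ Subgroup.centralizer ({b} : Set G) := by
        rw [heq, hΩ]; exact ⟨hx, hxp⟩
      have h2 := (Subgroup.mem_inf.mp h1).2
      rw [Subgroup.mem_centralizer_iff] at h2
      exact h2 b (Set.mem_singleton b)
    have hall := centralizes_of_centralizes_omega (P : Subgroup G) hcomm p q hpq b hbP hbqP hΩc
    rw [Subgroup.mem_centralizer_iff]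
    intro x hx
    obtain ⟨k, hk⟩ := P.isPGroup' ⟨x, hx⟩
    have hk' : x ^ (p ^ k) = 1 := congrArg Subtype.val hk
    exact (hall k x hx hk').symm
  have hlt : p ^ f < p ^ e := by
    rw [← he, ← hf]
    have hidx : (Ω ⊓ Subgroup.centralizer ({b} : Set G)).relIndex Ω ≠ 1 := by
      intro h
      exact (not_le_of_gt hFlt) (Subgroup.relIndex_eq_one.mp h)
    have h1 := Subgroup.relIndex_mul_relIndex ⊥ (Ω ⊓ Subgroup.centralizer ({b} : Set G)) Ω
      bot_le inf_le_left
    rw [Subgroup.relIndex_bot_left, Subgroup.relIndex_bot_left] at h1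
    have hpos : 0 < Nat.card ↥(Ω ⊓ Subgroup.centralizer ({b} : Set G)) := Nat.card_pos
    have hpos2 : 0 < (Ω ⊓ Subgroup.centralizer ({b} : Set G)).relIndex Ω := by
      rcases Nat.eq_zero_or_pos ((Ω ⊓ Subgroup.centralizer ({b} : Set G)).relIndex Ω) with h | h
      · rw [h, mul_zero] at h1
        have : 0 < Nat.card Ω := Nat.card_pos
        omega
      · exact h
    have h2 : 2 ≤ (Ω ⊓ Subgroup.centralizer ({b} : Set G)).relIndex Ω := by omega
    rw [← h1]
    nlinarith
  have hfe : f < e := (Nat.pow_lt_pow_iff_right hp.one_lt).mp hlt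
  rw [he, hf] at hmod
  have hdvd : q ∣ p ^ e - p ^ f := (Nat.modEq_iff_dvd' hlt.le).mp hmod.symm
  have hfact : p ^ e - p ^ f = p ^ f * (p ^ (e - f) - 1) := by
    have : p ^ e = p ^ f * p ^ (e - f) := by rw [← pow_add]; congr 1; omega
    rw [this, Nat.mul_sub, mul_one]
  rw [hfact] at hdvd
  have hdvd2 : q ∣ p ^ (e - f) - 1 :=
    (Nat.Coprime.pow_right f ((Nat.coprime_primes hq hp).mpr hqp)).dvd_of_dvd_mul_left hdvd
  refine ⟨q, e - f, hq, hqp, hqG, by omega, ?_, hdvd2⟩
  have h3 : p ^ e ≤ p ^ Group.rank (P : Subgroup G) := by rw [← he]; exact hΩcard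
  have h4 : e ≤ Group.rank (P : Subgroup G) := (Nat.pow_le_pow_iff_right hp.one_lt).mp h3
  omega

end Cfsg.Agent.Helper22
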