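import Mathlib
import Cfsg.Prelude
import Cfsg.Agent.Helper22.AbelianSylow2

set_option autoImplicit false

namespace Cfsg.Agent.Helper22

/-- A finite `p`-group of rank at least 2 has order divisible by `p²`. -/
theorem sq_dvd_card_of_two_le_rank {P : Type*} [Group P] [Finite P] (p : ℕ) [Fact p.Prime]
    (hP : IsPGroup p P) (hr : 2 ≤ Group.rank P) : p ^ 2 ∣ Nat.card P := by
  have hp : p.Prime := Fact.out
  obtain ⟨k, hk⟩ := IsPGroup.iff_card.mp hP
  by_contra hnd
  have hk2 : k < 2 := by
    by_contra hk2
    push Not at hk2
    exact hnd (hk ▸ pow_dvd_pow p hk2)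
  interval_cases k
  · have : Subsingleton P := (Nat.card_eq_one_iff_unique.mp (by simpa using hk)).1
    have := Group.rank_eq_zero P
    omega
  · have hcyc : IsCyclic P := isCyclic_of_prime_card (p := p) (by simpa using hk)
    obtain ⟨g, hg⟩ := hcyc.exists_generator
    have hcl : Subgroup.closure (({g} : Finset P) : Set P) = ⊤ := by
      rw [Finset.coe_singleton, ← Subgroup.zpowers_eq_closure]
      exact (Subgroup.eq_top_iff' _).mpr hg
    have := Group.rank_le hcl
    simp at this
    omega

/-- If `p` is the smallest prime divisor of `|G|`, the Sylow `p`-subgroup is abelian of rank at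
most two and `12 ∤ |G|`, then `G` has a normal `p`-complement. -/
theorem hasNormalPComplement_minFac {G : Type*} [Group G] [Finite G] (p : ℕ) [Fact p.Prime]
    (hmin : ∀ q : ℕ, q.Prime → q ∣ Nat.card G → p ≤ q)
    (P : Sylow p G) (hab : IsMulCommutative (P : Subgroup G))
    (hrk : Group.rank (P : Subgroup G) ≤ 2)
    (h12 : ¬ 12 ∣ Nat.card G) : Cfsg.HasNormalPComplement p G := by
  have hp : p.Prime := Fact.out
  by_cases h : Subgroup.normalizer ((P : Subgroup G) : Set G) ≤
      Subgroup.centralizer ((P : Subgroup G) : Set G)
  · exact ⟨P, (MonoidHom.transferSylow P h).ker, inferInstance,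
      MonoidHom.ker_transferSylow_isComplement' P h⟩
  · exfalso
    obtain ⟨q, i, hq, hqp, hqG, hi1, hi2, hqd⟩ :=
      exists_prime_dvd_of_normalizer_ne_centralizer p P hab h
    have hpq : p < q := lt_of_le_of_ne (hmin q hq hqG) (Ne.symm hqp)
    have hp2 := hp.two_le
    have hi : i = 1 ∨ i = 2 := by omega
    rcases hi with rfl | rfl
    · rw [pow_one] at hqd
      have := Nat.le_of_dvd (by omega) hqd
      omega
    · obtain ⟨m, rfl⟩ : ∃ m, p = m + 1 := ⟨p - 1, by omega⟩
      have h2 : (m + 1) ^ 2 - 1 = m * (m + 2) := by
        have : (m + 1) ^ 2 = m * (m + 2) + 1 := by ring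
        omega
      rw [h2] at hqd
      rcases (Nat.Prime.dvd_mul hq).mp hqd with h3 | h3
      · have := Nat.le_of_dvd (by omega) h3
        omega
      · have h4 := Nat.le_of_dvd (by omega) h3
        have hqe : q = m + 2 := by omega
        subst hqe
        -- `m + 1` and `m + 2` both prime, so `m = 1`
        have hm : m = 1 := by
          rcases Nat.even_or_odd m with he | ho
          · -- m + 2 even prime
            have : 2 ∣ m + 2 := by
              obtain ⟨c, hc⟩ := he
              exact ⟨c + 1, by omega⟩
            have := (Nat.prime_dvd_prime_iff_eq Nat.prime_two hq).mp this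
            omega
          · have : 2 ∣ m + 1 := by
              obtain ⟨c, hc⟩ := ho
              exact ⟨c + 1, by omega⟩
            have := (Nat.prime_dvd_prime_iff_eq Nat.prime_two hp).mp this
            omega
        subst hm
        have h5 : (1 + 1) ^ 2 ∣ Nat.card (P : Subgroup G) :=
          sq_dvd_card_of_two_le_rank (1 + 1) P.isPGroup' (by omega)
        have h6 : 4 ∣ Nat.card G := by
          have := h5.trans (Subgroup.card_subgroup_dvd_card (P : Subgroup G))
          simpa using this
        have h7 : 3 ∣ Nat.card G := hqG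
        exact h12 (Nat.Coprime.mul_dvd_of_dvd_of_dvd (by norm_num : Nat.Coprime 4 3) h6 h7)

universe u

/-- Induction for the solvability of groups with small abelian Sylow subgroups. -/
theorem solvable_of_small_abelian_sylows : ∀ (n : ℕ) (G : Type u) [Group G] [Finite G],
    Nat.card G = n →
    (∀ p : ℕ, p.Prime → p ∣ Nat.card G → (∃ q : ℕ, q.Prime ∧ q ∣ Nat.card G ∧ p < q) →
      ∀ P : Sylow p G, IsMulCommutative (P : Subgroup G) ∧ Group.rank (P : Subgroup G) ≤ 2) →
    ¬ 12 ∣ Nat.card G → Group.IsSolvable G := by
  intro n
  induction n using Nat.strong_induction_on with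
  | _ n ih =>
    intro G _ _ hn h h12
    by_cases h1 : n = 1
    · have : Subsingleton G := (Nat.card_eq_one_iff_unique.mp (hn.trans h1)).1
      exact Group.isSolvable_of_comm (fun a b => Subsingleton.elim _ _)
    have hn0 : n ≠ 0 := by rw [← hn]; exact Nat.card_pos.ne'
    obtain ⟨p, hp_def⟩ : ∃ p, p = n.minFac := ⟨_, rfl⟩
    have hp : p.Prime := hp_def ▸ Nat.minFac_prime h1
    haveI : Fact p.Prime := ⟨hp⟩
    have hpn : p ∣ Nat.card G := hn ▸ hp_def ▸ Nat.minFac_dvd n
    have hmin : ∀ q : ℕ, q.Prime → q ∣ Nat.card G → p ≤ q := fun q hq hqd =>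
      hp_def ▸ Nat.minFac_le_of_dvd hq.two_le (hn ▸ hqd)
    by_cases hex : ∃ q : ℕ, q.Prime ∧ q ∣ Nat.card G ∧ p < q
    · obtain ⟨P⟩ : Nonempty (Sylow p G) := inferInstance
      obtain ⟨hab, hrk⟩ := h p hp hpn hex P
      obtain ⟨P', K, hKn, hKc⟩ := hasNormalPComplement_minFac p hmin P hab hrk h12
      have hcard : Nat.card K * Nat.card (P' : Subgroup G) = Nat.card G := hKc.card_mul_card
      obtain ⟨f, hf⟩ : ∃ f, f = (Nat.card G).factorization p := ⟨_, rfl⟩
      have hP'card : Nat.card (P' : Subgroup G) = p ^ f :=
        hf ▸ P'.card_eq_multiplicity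
      have hfpos : 0 < f :=
        hf ▸ hp.factorization_pos_of_dvd Nat.card_pos.ne' hpn
      have hP'1 : 1 < Nat.card (P' : Subgroup G) := by
        rw [hP'card]
        exact Nat.one_lt_pow hfpos.ne' hp.one_lt
      have hKpos : 0 < Nat.card K := Nat.card_pos
      have hKlt : Nat.card K < n := by
        rw [← hn, ← hcard]
        nlinarith
      have hKG : Nat.card K ∣ Nat.card G := Subgroup.card_subgroup_dvd_card K
      haveI : Group.IsSolvable K := by
        apply ih (Nat.card K) hKlt K rfl
        · rintro r hr hrK ⟨q, hq, hqK, hrq⟩ R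
          haveI : Fact r.Prime := ⟨hr⟩
          have hrp : r ≠ p := by
            rintro rfl
            have : r ^ (f + 1) ∣ Nat.card G := by
              rw [← hcard, hP'card, pow_succ, mul_comm]
              exact mul_dvd_mul hrK dvd_rfl
            rw [hf] at this
            exact Nat.pow_succ_factorization_not_dvd Nat.card_pos.ne' hr this
          have hRcard : Nat.card (R : Subgroup K) = r ^ (Nat.card K).factorization r :=
            R.card_eq_multiplicity
          have hfac : (Nat.card K).factorization r = (Nat.card G).factorization r := by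
            rw [← hcard, Nat.factorization_mul hKpos.ne' (by omega), hP'card,
              Nat.factorization_pow]
            simp [Nat.factorization_eq_zero_of_not_dvd, hp.factorization,
              Finsupp.single_eq_of_ne hrp]
          have hc : Nat.card ((R : Subgroup K).map K.subtype) =
              r ^ (Nat.card G).factorization r := by
            rw [Subgroup.card_map_of_injective K.subtype_injective, hRcard, hfac]
          obtain ⟨hab', hrk'⟩ := h r hr (hrK.trans hKG) ⟨q, hq, hqK.trans hKG, hrq⟩
            (Sylow.ofCard ((R : Subgroup K).map K.subtype) hc)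
          have hab'' : IsMulCommutative ↥((R : Subgroup K).map K.subtype) := hab'
          have hrk'' : Group.rank ↥((R : Subgroup K).map K.subtype) ≤ 2 := hrk'
          have e : (R : Subgroup K) ≃* ((R : Subgroup K).map K.subtype) :=
            Subgroup.equivMapOfInjective _ _ K.subtype_injective
          constructor
          · refine ⟨⟨fun a b => ?_⟩⟩
            apply e.injective
            rw [map_mul, map_mul]
            exact mul_comm' _ _
          · rw [Group.rank_congr e]; exact hrk''
        · exact fun h => h12 (h.trans hKG)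
      haveI : Group.IsSolvable (G ⧸ K) := by
        have hq : IsPGroup p (G ⧸ K) := by
          apply IsPGroup.of_card (n := f)
          rw [← hP'card, ← hKc.symm.index_eq_card, Subgroup.index_eq_card]
        haveI := hq.isNilpotent
        infer_instance
      exact Group.isSolvable_of_ker_le_range K.subtype (QuotientGroup.mk' K) (by simp)
    · have huniq : ∀ {d : ℕ}, d.Prime → d ∣ n → d = p := by
        intro d hd hdn
        by_contra hne
        exact hex ⟨d, hd, hn ▸ hdn, lt_of_le_of_ne (hmin d hd (hn ▸ hdn)) (Ne.symm hne)⟩
      have hpow := Nat.eq_prime_pow_of_unique_prime_dvd hn0 huniq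
      have hq : IsPGroup p G := IsPGroup.of_card (hn.trans hpow)
      haveI := hq.isNilpotent
      infer_instance

end Cfsg.Agent.Helper22
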