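import Mathlib
import Cfsg.Prelude.Def_KGroupFacts

set_option autoImplicit false

namespace Cfsg.Agent.Helper22

open Subgroup
open scoped commutatorElement

variable {Γ : Type*} [Group Γ]

/-- if conjugation by `g` sends `c` to a power of `c` both ways, then `g` normalizes `zpowers c` -/
theorem mem_normalizer_zpowers (g c : Γ) (e : ℤ) (h1 : g * c * g⁻¹ = c ^ e) (h2 : g⁻¹ * c * g = c ^ e) :
    g ∈ normalizer ((zpowers c : Subgroup Γ) : Set Γ) := by
  rw [mem_normalizer_iff]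
  intro h
  constructor
  · rintro ⟨j, rfl⟩
    refine ⟨e * j, ?_⟩
    show c ^ (e * j) = g * c ^ j * g⁻¹
    have : g * c ^ j * g⁻¹ = (g * c * g⁻¹) ^ j := by
      simpa using (map_zpow (MulAut.conj g) c j)
    rw [this, h1, zpow_mul]
  · rintro ⟨j, hj⟩
    refine ⟨e * j, ?_⟩
    show c ^ (e * j) = h
    have hj' : c ^ j = g * h * g⁻¹ := hj
    have : h = g⁻¹ * (g * h * g⁻¹) * g := by group
    rw [this, ← hj']
    have h3 : g⁻¹ * c ^ j * g = (g⁻¹ * c * g) ^ j := by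
      simpa using (map_zpow (MulAut.conj g⁻¹) c j)
    rw [h3, h2, zpow_mul]

/-- Core lemma on central extensions of "dihedral type": if `K` is central, lies in the commutator
subgroup, `Γ` is generated by `α`, `ξ` and `K`, and `ξ` inverts `α` modulo `K`, then every element of `K`
is a power of `c = ξ α ξ⁻¹ α⁻¹` and squares to `1`. -/
theorem stem_dihedral_core (K : Subgroup Γ) (hKc : K ≤ center Γ) (hKd : K ≤ commutator Γ)
    (α ξ : Γ) (hgen : closure {α, ξ} ⊔ K = ⊤) (hinv : ξ * α * ξ⁻¹ * α ∈ K) :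
    ∀ k ∈ K, k ∈ zpowers (ξ * α * ξ⁻¹ * α⁻¹) ∧ k * k = 1 := by
  set k1 := ξ * α * ξ⁻¹ * α with hk1
  set c := ξ * α * ξ⁻¹ * α⁻¹ with hc
  clear_value k1 c
  have hk1c : ∀ x : Γ, x * k1 = k1 * x := fun x => mem_center_iff.mp (hKc hinv) x
  have f2 : c = k1 * α⁻¹ * α⁻¹ := by rw [hc, hk1]; group
  have f3 : α * c * α⁻¹ = c := by
    rw [f2]
    calc α * (k1 * α⁻¹ * α⁻¹) * α⁻¹ = (α * k1) * α⁻¹ * α⁻¹ * α⁻¹ := by group
      _ = (k1 * α) * α⁻¹ * α⁻¹ * α⁻¹ := by rw [hk1c α]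
      _ = k1 * α⁻¹ * α⁻¹ := by group
  have f3' : α⁻¹ * c * α = c := by
    calc α⁻¹ * c * α = α⁻¹ * (α * c * α⁻¹) * α := by rw [f3]
      _ = c := by group
  have f4 : ξ * c * ξ⁻¹ = c⁻¹ := by
    have e1 : ξ * α⁻¹ * ξ⁻¹ = α * k1⁻¹ := by
      have : ξ * α * ξ⁻¹ = k1 * α⁻¹ := by rw [hk1]; group
      have h2 : ξ * α⁻¹ * ξ⁻¹ = (ξ * α * ξ⁻¹)⁻¹ := by group
      rw [h2, this]; group
    have hk1c' : ∀ x : Γ, x * k1⁻¹ = k1⁻¹ * x := by
      intro x
      have := hk1c x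
      calc x * k1⁻¹ = k1⁻¹ * (k1 * x) * k1⁻¹ := by group
        _ = k1⁻¹ * (x * k1) * k1⁻¹ := by rw [this]
        _ = k1⁻¹ * x := by group
    calc ξ * c * ξ⁻¹ = ξ * (k1 * α⁻¹ * α⁻¹) * ξ⁻¹ := by rw [f2]
      _ = (ξ * k1) * (ξ⁻¹ * ξ) * α⁻¹ * (ξ⁻¹ * ξ) * α⁻¹ * ξ⁻¹ := by group
      _ = (k1 * ξ) * (ξ⁻¹ * ξ) * α⁻¹ * (ξ⁻¹ * ξ) * α⁻¹ * ξ⁻¹ := by rw [hk1c ξ]
      _ = k1 * (ξ * α⁻¹ * ξ⁻¹) * (ξ * α⁻¹ * ξ⁻¹) := by group
      _ = k1 * (α * k1⁻¹) * (α * k1⁻¹) := by rw [e1]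
      _ = k1 * (α * k1⁻¹) * (k1⁻¹ * α) := by rw [hk1c' α]
      _ = k1 * ((α * k1⁻¹) * k1⁻¹) * α := by group
      _ = k1 * (k1⁻¹ * (α * k1⁻¹)) * α := by rw [hk1c' (α * k1⁻¹)]
      _ = α * (k1⁻¹ * α) := by group
      _ = α * (α * k1⁻¹) := by rw [hk1c' α]
      _ = (k1 * α⁻¹ * α⁻¹)⁻¹ := by rw [mul_inv_rev, mul_inv_rev, inv_inv]
      _ = c⁻¹ := by rw [f2]
  have f4' : ξ⁻¹ * c * ξ = c⁻¹ := by
    have : c = ξ⁻¹ * c⁻¹ * ξ := by
      calc c = ξ⁻¹ * (ξ * c * ξ⁻¹) * ξ := by group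
        _ = ξ⁻¹ * c⁻¹ * ξ := by rw [f4]
    calc ξ⁻¹ * c * ξ = (ξ⁻¹ * c⁻¹ * ξ)⁻¹ := by group
      _ = c⁻¹ := by rw [← this]
  -- N = zpowers c is normal
  have hNn : (zpowers c).Normal := by
    rw [← normalizer_eq_top_iff, ← top_le_iff, ← hgen]
    apply sup_le
    · rw [closure_le]
      rintro x (rfl | rfl)
      · exact mem_normalizer_zpowers x c 1 (by rw [f3, zpow_one]) (by rw [f3', zpow_one])
      · exact mem_normalizer_zpowers x c (-1) (by rw [f4, zpow_neg_one]) (by rw [f4', zpow_neg_one])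
    · exact hKc.trans (center_le_normalizer _)
  -- Γ ⧸ N is commutative
  have hcomm : commutator Γ ≤ zpowers c := by
    let π := QuotientGroup.mk' (zpowers c)
    have hπc : ∀ x y : Γ ⧸ zpowers c, x * y = y * x := by
      let S : Set (Γ ⧸ zpowers c) := π '' ({α, ξ} ∪ (K : Set Γ))
      have hS : closure S = ⊤ := by
        rw [← MonoidHom.map_closure, Subgroup.closure_union, closure_eq, hgen, ← MonoidHom.range_eq_map,
          MonoidHom.range_eq_top]
        exact QuotientGroup.mk'_surjective _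
      have hpair : ∀ x ∈ S, ∀ y ∈ S, x * y = y * x := by
        have hαξ : π α * π ξ = π ξ * π α := by
          rw [← map_mul, ← map_mul]
          apply (QuotientGroup.eq).mpr
          show (α * ξ)⁻¹ * (ξ * α) ∈ zpowers c
          -- (α ξ)⁻¹ ξ α = ξ⁻¹ α⁻¹ ξ α = ξ⁻¹ (α⁻¹ ξ α ξ⁻¹) ξ
          have h1 : (α * ξ)⁻¹ * (ξ * α) = ξ⁻¹ * (α⁻¹ * (ξ * α * ξ⁻¹ * α⁻¹) * α) * ξ := by group
          rw [h1, ← hc, f3', f4']
          exact inv_mem (mem_zpowers c)
        have hKπ : ∀ k ∈ K, ∀ y : Γ ⧸ zpowers c, π k * y = y * π k := by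
          intro k hk y
          obtain ⟨y, rfl⟩ := QuotientGroup.mk'_surjective _ y
          rw [← map_mul, ← map_mul, mem_center_iff.mp (hKc hk) y]
        rintro x ⟨x, hx, rfl⟩ y ⟨y, hy, rfl⟩
        rcases hx with (rfl | rfl) | hx
        · rcases hy with (rfl | rfl) | hy
          · rfl
          · exact hαξ
          · exact (hKπ y hy _).symm
        · rcases hy with (rfl | rfl) | hy
          · exact hαξ.symm
          · rfl
          · exact (hKπ y hy _).symm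
        · exact hKπ x hx _
      have h1 : S ⊆ centralizer S := fun x hx => by
        show x ∈ centralizer S
        rw [mem_centralizer_iff]
        intro y hy
        exact hpair y hy x hx
      have h2 : (⊤ : Subgroup (Γ ⧸ zpowers c)) ≤ centralizer S := by
        rw [← hS, closure_le]; exact h1
      have h3 : centralizer S = centralizer ((closure S : Subgroup _) : Set _) := (centralizer_closure S).symm
      intro x y
      have hx : x ∈ centralizer ((closure S : Subgroup _) : Set (Γ ⧸ zpowers c)) := by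
        rw [← h3]; exact h2 (mem_top x)
      rw [mem_centralizer_iff] at hx
      have hy : y ∈ ((closure S : Subgroup _) : Set (Γ ⧸ zpowers c)) := by
        rw [hS]; exact mem_top y
      exact (hx y hy).symm
    rw [commutator_eq_closure, closure_le]
    rintro _ ⟨x, y, rfl⟩
    have : π ⁅x, y⁆ = 1 := by
      rw [commutatorElement_def, map_mul, map_mul, map_mul, map_inv, map_inv, hπc (π x) (π y)]
      group
    exact (QuotientGroup.eq_one_iff _).mp this
  intro k hk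
  have hkN : k ∈ zpowers c := hcomm (hKd hk)
  refine ⟨hkN, ?_⟩
  obtain ⟨j, hj⟩ := mem_zpowers_iff.mp hkN
  subst hj
  have h5 : ξ * c ^ j * ξ⁻¹ = (c ^ j)⁻¹ := by
    have : ξ * c ^ j * ξ⁻¹ = (ξ * c * ξ⁻¹) ^ j := by
      simpa using (map_zpow (MulAut.conj ξ) c j)
    rw [this, f4, inv_zpow]
  have h6 : ξ * c ^ j * ξ⁻¹ = c ^ j := by
    have := mem_center_iff.mp (hKc hk) ξ
    calc ξ * c ^ j * ξ⁻¹ = c ^ j * ξ * ξ⁻¹ := by rw [this]
      _ = c ^ j := by group
  rw [h6] at h5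
  calc c ^ j * c ^ j = c ^ j * (c ^ j)⁻¹ := by rw [← h5]
    _ = 1 := mul_inv_cancel _

/-- In the situation of `stem_dihedral_core` with `Γ` finite, `K` has at most two elements. -/
theorem stem_dihedral_card_le_two [Finite Γ] (K : Subgroup Γ) (hKc : K ≤ center Γ) (hKd : K ≤ commutator Γ)
    (α ξ : Γ) (hgen : closure {α, ξ} ⊔ K = ⊤) (hinv : ξ * α * ξ⁻¹ * α ∈ K) :
    Nat.card K ≤ 2 := by
  classical
  have hcore := stem_dihedral_core K hKc hKd α ξ hgen hinv
  set c := ξ * α * ξ⁻¹ * α⁻¹ with hc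
  clear_value c
  have : Fintype (zpowers c) := Fintype.ofFinite _
  have hle : (Finset.univ.filter (fun a : zpowers c => a ^ 2 = 1)).card ≤ 2 :=
    IsCyclic.card_pow_eq_one_le (by norm_num)
  let f : K → {a : zpowers c // a ^ 2 = 1} := fun k =>
    ⟨⟨k.1, (hcore k.1 k.2).1⟩, by
      apply Subtype.ext
      simp only [Subgroup.coe_one, pow_two]
      exact (hcore k.1 k.2).2⟩
  have hf : Function.Injective f := by
    intro x y hxy
    apply Subtype.ext
    have := congrArg (fun z : {a : zpowers c // a ^ 2 = 1} => (z.1.1 : Γ)) hxy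
    exact this
  calc Nat.card K ≤ Nat.card {a : zpowers c // a ^ 2 = 1} := Nat.card_le_card_of_injective f hf
    _ = (Finset.univ.filter (fun a : zpowers c => a ^ 2 = 1)).card := by
        rw [Nat.card_eq_fintype_card, Fintype.card_subtype]
    _ ≤ 2 := hle

/-- In the situation of `stem_dihedral_core`, if moreover `ξ` commutes with `α ^ N` and the only powers of
`c` lying in `K` are the `c ^ j` with `N ∣ j`, then `K` is trivial. -/
theorem stem_dihedral_trivial (K : Subgroup Γ) (hKc : K ≤ center Γ) (hKd : K ≤ commutator Γ)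
    (α ξ : Γ) (hgen : closure {α, ξ} ⊔ K = ⊤) (hinv : ξ * α * ξ⁻¹ * α ∈ K)
    (N : ℕ) (hN : ξ * α ^ N = α ^ N * ξ)
    (hdiv : ∀ j : ℤ, (ξ * α * ξ⁻¹ * α⁻¹) ^ j ∈ K → (N : ℤ) ∣ j) : K = ⊥ := by
  have hcore := stem_dihedral_core K hKc hKd α ξ hgen hinv
  set k1 := ξ * α * ξ⁻¹ * α with hk1
  set c := ξ * α * ξ⁻¹ * α⁻¹ with hc
  clear_value k1 c
  have hk1c : ∀ x : Γ, x * k1 = k1 * x := fun x => mem_center_iff.mp (hKc hinv) x
  have e0 : ξ * α * ξ⁻¹ = k1 * α⁻¹ := by rw [hk1]; group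
  have hcm : Commute k1 α⁻¹ := (hk1c α⁻¹).symm
  have e1 : ξ * α ^ N * ξ⁻¹ = k1 ^ N * (α⁻¹) ^ N := by
    have : ξ * α ^ N * ξ⁻¹ = (ξ * α * ξ⁻¹) ^ N := by
      simpa using (map_pow (MulAut.conj ξ) α N)
    rw [this, e0, hcm.mul_pow]
  have e2 : ξ * α ^ N * ξ⁻¹ = α ^ N := by
    rw [hN]; group
  have e3 : α ^ N = k1 ^ N * (α⁻¹) ^ N := by rw [← e2, e1]
  have hcN : c ^ N = 1 := by
    have f2 : c = k1 * (α⁻¹ * α⁻¹) := by rw [hc, hk1]; group
    have hcm2 : Commute k1 (α⁻¹ * α⁻¹) := (hk1c (α⁻¹ * α⁻¹)).symm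
    rw [f2, hcm2.mul_pow, (Commute.refl α⁻¹).mul_pow, ← mul_assoc, ← e3]
    rw [inv_pow]; exact mul_inv_cancel _
  rw [eq_bot_iff]
  intro k hk
  obtain ⟨hkz, _⟩ := hcore k hk
  obtain ⟨j, hj⟩ := mem_zpowers_iff.mp hkz
  subst hj
  obtain ⟨d, rfl⟩ := hdiv j hk
  rw [mem_bot, zpow_mul, zpow_natCast, hcN, one_zpow]

/-- ℕ-exponent version of `stem_dihedral_trivial` for finite groups. -/
theorem stem_dihedral_trivial' [Finite Γ] (K : Subgroup Γ) (hKc : K ≤ center Γ) (hKd : K ≤ commutator Γ)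
    (α ξ : Γ) (hgen : closure {α, ξ} ⊔ K = ⊤) (hinv : ξ * α * ξ⁻¹ * α ∈ K)
    (N : ℕ) (hN : ξ * α ^ N = α ^ N * ξ)
    (hdiv : ∀ j : ℕ, (ξ * α * ξ⁻¹ * α⁻¹) ^ j ∈ K → N ∣ j) : K = ⊥ := by
  apply stem_dihedral_trivial K hKc hKd α ξ hgen hinv N hN
  intro j hj
  set c := ξ * α * ξ⁻¹ * α⁻¹ with hc
  clear_value c
  have hfin : IsOfFinOrder c := isOfFinOrder_of_finite c
  have hmem : c ^ j ∈ Submonoid.powers c := hfin.mem_powers_iff_mem_zpowers.mpr ⟨j, rfl⟩
  obtain ⟨i, hi⟩ := hmem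
  have hi' : c ^ i = c ^ j := hi
  have h1 : N ∣ i := hdiv i (by rw [hi']; exact hj)
  -- c ^ N = 1 follows as before
  have h2 : c ^ (j - i) = 1 := by
    rw [zpow_sub, zpow_natCast, hi']; exact mul_inv_cancel _
  have h3 : (c ^ (j - i)) ∈ K := by rw [h2]; exact K.one_mem
  -- use powers again on `c ^ (j - i) = 1`: the order of `c` divides `j - i` and `N` divides the order
  have h4 : (orderOf c : ℤ) ∣ j - i := orderOf_dvd_iff_zpow_eq_one.mpr h2
  have h5 : N ∣ orderOf c := hdiv (orderOf c) (by rw [pow_orderOf_eq_one]; exact K.one_mem)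
  have h6 : (N : ℤ) ∣ j - i := (Int.natCast_dvd_natCast.mpr h5).trans h4
  have h7 : (N : ℤ) ∣ (i : ℤ) := Int.natCast_dvd_natCast.mpr h1
  have := dvd_add h6 h7
  simpa using this

/-- If `Γ` is generated by a set `S` whose elements commute pairwise modulo the normal subgroup `N`,
then the commutator subgroup lies in `N`. -/
theorem commutator_le_of_pairwise (N : Subgroup Γ) [N.Normal] (S : Set Γ) (hS : closure S = ⊤)
    (h : ∀ x ∈ S, ∀ y ∈ S, x * y * x⁻¹ * y⁻¹ ∈ N) : commutator Γ ≤ N := by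
  let π := QuotientGroup.mk' N
  have hπc : ∀ x y : Γ ⧸ N, x * y = y * x := by
    let T : Set (Γ ⧸ N) := π '' S
    have hT : closure T = ⊤ := by
      rw [← MonoidHom.map_closure, hS, ← MonoidHom.range_eq_map, MonoidHom.range_eq_top]
      exact QuotientGroup.mk'_surjective _
    have hpair : ∀ x ∈ T, ∀ y ∈ T, x * y = y * x := by
      rintro _ ⟨x, hx, rfl⟩ _ ⟨y, hy, rfl⟩
      have h1 : π (x * y * x⁻¹ * y⁻¹) = 1 := (QuotientGroup.eq_one_iff _).mpr (h x hx y hy)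
      rw [map_mul, map_mul, map_mul, map_inv, map_inv] at h1
      have h2 := mul_inv_eq_one.mp h1
      exact mul_inv_eq_iff_eq_mul.mp h2
    have h1 : T ⊆ centralizer T := fun x hx => by
      show x ∈ centralizer T
      rw [mem_centralizer_iff]
      intro y hy
      exact hpair y hy x hx
    have h2 : (⊤ : Subgroup (Γ ⧸ N)) ≤ centralizer T := by
      rw [← hT, closure_le]; exact h1
    have h3 : centralizer T = centralizer ((closure T : Subgroup _) : Set _) := (centralizer_closure T).symm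
    intro x y
    have hx : x ∈ centralizer ((closure T : Subgroup _) : Set (Γ ⧸ N)) := by
      rw [← h3]; exact h2 (mem_top x)
    rw [mem_centralizer_iff] at hx
    have hy : y ∈ ((closure T : Subgroup _) : Set (Γ ⧸ N)) := by
      rw [hT]; exact mem_top y
    exact (hx y hy).symm
  rw [commutator_eq_closure, closure_le]
  rintro _ ⟨x, y, rfl⟩
  have : π ⁅x, y⁆ = 1 := by
    rw [commutatorElement_def, map_mul, map_mul, map_mul, map_inv, map_inv, hπc (π x) (π y)]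
    group
  exact (QuotientGroup.eq_one_iff _).mp this

/-- a subgroup contained in the cyclic group generated by one of its elements `c` with `c ^ n = 1`
is a homomorphic image of `ZMod n` -/
theorem exists_surj_zmod (K : Subgroup Γ) (c : Γ) (hc : c ∈ K) (n : ℕ) (hcn : c ^ n = 1)
    (hK : K ≤ zpowers c) : ∃ π : Multiplicative (ZMod n) →* K, Function.Surjective π := by
  let g : K := ⟨c, hc⟩
  have hgn : g ^ n = 1 := by
    apply Subtype.ext
    simp [g, hcn]
  let f : ℤ →+ Additive K := zmultiplesHom (Additive K) (Additive.ofMul g)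
  have hf : f n = 0 := by
    simp only [f, zmultiplesHom_apply, natCast_zsmul]
    rw [← ofMul_pow, hgn]; rfl
  let F : ZMod n →+ Additive K := ZMod.lift n ⟨f, hf⟩
  refine ⟨AddMonoidHom.toMultiplicativeLeft F, ?_⟩
  intro k
  obtain ⟨j, hj⟩ := mem_zpowers_iff.mp (hK k.2)
  refine ⟨Multiplicative.ofAdd ((j : ℤ) : ZMod n), ?_⟩
  show Additive.toMul (F ((j : ℤ) : ZMod n)) = k
  have : F ((j : ℤ) : ZMod n) = f j := ZMod.lift_coe n ⟨f, hf⟩ j
  rw [this]
  simp only [f, zmultiplesHom_apply]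
  apply Subtype.ext
  rw [← ofMul_zpow]
  simp [g, hj]

/-- trivial multiplier from triviality of the kernels of all finite stem extensions -/
theorem hasCyclicSchurMultiplier_one_of.{u} {G : Type u} [Group G] [Finite G]
    (h : ∀ (Γ : Type u) [Group Γ] [Finite Γ] (σ : Γ →* G), Cfsg.IsStemExtension σ → σ.ker = ⊥) :
    Cfsg.HasCyclicSchurMultiplier G 1 := by
  refine ⟨⟨G, inferInstance, inferInstance, MonoidHom.id G, ⟨Function.surjective_id, ?_, ?_⟩, ?_⟩, ?_⟩
  · rw [MonoidHom.ker_id]; exact bot_le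
  · rw [MonoidHom.ker_id]; exact bot_le
  · have hsub : Subsingleton (MonoidHom.id G).ker := by
      rw [MonoidHom.ker_id]; infer_instance
    have : Unique (MonoidHom.id G).ker := ⟨⟨1⟩, fun a => Subsingleton.elim _ _⟩
    exact ⟨MulEquiv.ofUnique⟩
  · intro Γ _ _ σ hσ
    have hker := h Γ σ hσ
    refine ⟨1, ?_⟩
    intro x
    refine ⟨1, ?_⟩
    apply Subtype.ext
    have hx : (x : Γ) ∈ (⊥ : Subgroup Γ) := by rw [← hker]; exact x.2
    rw [mem_bot] at hx
    simp [hx]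

/-- the generators and the kernel of a surjection generate -/
theorem closure_sup_ker_eq_top {G : Type*} [Group G] (σ : Γ →* G) (S : Set Γ)
    (h : closure (σ '' S) = ⊤) : closure S ⊔ σ.ker = ⊤ := by
  rw [← comap_map_eq, MonoidHom.map_closure, h, comap_top]

end Cfsg.Agent.Helper22
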