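import Mathlib
import Cfsg.Agent.Helper22.StemDihedral

set_option autoImplicit false

namespace Cfsg.Agent.Helper22

open Subgroup

theorem dihedral_closure (n : ℕ) [NeZero n] :
    closure ({DihedralGroup.r 1, DihedralGroup.sr 0} : Set (DihedralGroup n)) = ⊤ := by
  rw [eq_top_iff]
  have hr : ∀ i : ZMod n, DihedralGroup.r i ∈ closure ({DihedralGroup.r 1, DihedralGroup.sr 0} : Set (DihedralGroup n)) := by
    intro i
    have h1 : (DihedralGroup.r 1 : DihedralGroup n) ^ i.val = DihedralGroup.r i := by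
      rw [DihedralGroup.r_one_pow, ZMod.natCast_zmod_val]
    rw [← h1]
    exact pow_mem (subset_closure (by simp)) _
  rintro (i | i) _
  · exact hr i
  · have h1 : (DihedralGroup.sr i : DihedralGroup n) = DihedralGroup.sr 0 * DihedralGroup.r i := by
      rw [DihedralGroup.sr_mul_r, zero_add]
    rw [h1]
    exact mul_mem (subset_closure (by simp)) (hr i)

theorem dihedral_stem_setup {n : ℕ} [NeZero n] {Γ : Type*} [Group Γ] (σ : Γ →* DihedralGroup n)
    (hs : Function.Surjective σ) :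
    ∃ α ξ : Γ, σ α = DihedralGroup.r 1 ∧ σ ξ = DihedralGroup.sr 0 ∧ closure {α, ξ} ⊔ σ.ker = ⊤ ∧
      ξ * α * ξ⁻¹ * α ∈ σ.ker := by
  obtain ⟨α, hα⟩ := hs (DihedralGroup.r 1)
  obtain ⟨ξ, hξ⟩ := hs (DihedralGroup.sr 0)
  refine ⟨α, ξ, hα, hξ, ?_, ?_⟩
  · apply closure_sup_ker_eq_top
    rw [Set.image_pair, hα, hξ]
    exact dihedral_closure n
  · rw [MonoidHom.mem_ker, map_mul, map_mul, map_mul, map_inv, hα, hξ, DihedralGroup.inv_sr,
      DihedralGroup.sr_mul_r, DihedralGroup.sr_mul_sr, DihedralGroup.r_mul_r]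
    have : ((0 : ZMod n) - (0 + 1) + 1) = 0 := by ring
    rw [this, DihedralGroup.r_zero]

theorem quaternion_a_pow {n : ℕ} (i : ZMod (2 * n)) (k : ℕ) :
    (QuaternionGroup.a i : QuaternionGroup n) ^ k = QuaternionGroup.a ((k : ZMod (2 * n)) * i) := by
  induction k with
  | zero => rw [pow_zero, Nat.cast_zero, zero_mul, QuaternionGroup.a_zero]
  | succ k ih =>
    rw [pow_succ, ih, QuaternionGroup.a_mul_a]
    congr 1
    push_cast; ring

theorem quaternion_closure (n : ℕ) [NeZero n] :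
    closure ({QuaternionGroup.a 1, QuaternionGroup.xa 0} : Set (QuaternionGroup n)) = ⊤ := by
  rw [eq_top_iff]
  have hr : ∀ i : ZMod (2 * n), QuaternionGroup.a i ∈ closure ({QuaternionGroup.a 1, QuaternionGroup.xa 0} : Set (QuaternionGroup n)) := by
    intro i
    have h1 : (QuaternionGroup.a 1 : QuaternionGroup n) ^ i.val = QuaternionGroup.a i := by
      rw [QuaternionGroup.a_one_pow, ZMod.natCast_zmod_val]
    rw [← h1]
    exact pow_mem (subset_closure (by simp)) _
  rintro (i | i) _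
  · exact hr i
  · have h1 : (QuaternionGroup.xa i : QuaternionGroup n) = QuaternionGroup.xa 0 * QuaternionGroup.a i := by
      rw [QuaternionGroup.xa_mul_a, zero_add]
    rw [h1]
    exact mul_mem (subset_closure (by simp)) (hr i)

theorem quaternion_two_n (n : ℕ) : ((n : ZMod (2 * n)) + (n : ZMod (2 * n))) = 0 := by
  rw [← two_mul]
  have := ZMod.natCast_self (2 * n)
  push_cast at this
  exact this

theorem quaternion_inv_xa {n : ℕ} (i : ZMod (2 * n)) :
    (QuaternionGroup.xa i : QuaternionGroup n)⁻¹ = QuaternionGroup.xa ((n : ZMod (2 * n)) + i) := rfl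

theorem quaternion_inv_a {n : ℕ} (i : ZMod (2 * n)) :
    (QuaternionGroup.a i : QuaternionGroup n)⁻¹ = QuaternionGroup.a (-i) := rfl

theorem quaternion_stem_setup {n : ℕ} [NeZero n] {Γ : Type*} [Group Γ] (σ : Γ →* QuaternionGroup n)
    (hs : Function.Surjective σ) :
    ∃ α ξ : Γ, σ α = QuaternionGroup.a 1 ∧ σ ξ = QuaternionGroup.xa 0 ∧ closure {α, ξ} ⊔ σ.ker = ⊤ ∧
      ξ * α * ξ⁻¹ * α ∈ σ.ker := by
  obtain ⟨α, hα⟩ := hs (QuaternionGroup.a 1)
  obtain ⟨ξ, hξ⟩ := hs (QuaternionGroup.xa 0)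
  refine ⟨α, ξ, hα, hξ, ?_, ?_⟩
  · apply closure_sup_ker_eq_top
    rw [Set.image_pair, hα, hξ]
    exact quaternion_closure n
  · rw [MonoidHom.mem_ker, map_mul, map_mul, map_mul, map_inv, hα, hξ, quaternion_inv_xa]
    simp only [QuaternionGroup.xa_mul_a, QuaternionGroup.xa_mul_xa, QuaternionGroup.a_mul_a,
      QuaternionGroup.one_def]
    congr 1
    linear_combination quaternion_two_n n

end Cfsg.Agent.Helper22
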