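import Mathlib
import Cfsg.Prelude
import Cfsg.Agent.Helper1.CharBasic
import Cfsg.Agent.Helper1.CharBurnside
import Cfsg.Agent.S0138

set_option autoImplicit false

namespace Cfsg.Agent.Helper22

open Module

section

variable {G : Type*} [Group G] {V : Type*} [AddCommGroup V] [Module ℂ V]

theorem eq_one_of_rho_eq_one (ρ : Representation ℂ G V)
    (hf : ∀ g : G, ρ.character g = ρ.character 1 → g = 1) (g : G) (h : ρ g = 1) : g = 1 := by
  apply hf
  show LinearMap.trace ℂ V (ρ g) = LinearMap.trace ℂ V (ρ 1)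
  rw [h, map_one ρ]

theorem commute_of_rho_commute (ρ : Representation ℂ G V)
    (hf : ∀ g : G, ρ.character g = ρ.character 1 → g = 1) (a b : G)
    (h : ρ a * ρ b = ρ b * ρ a) : a * b = b * a := by
  have h1 : ρ (a * b * a⁻¹ * b⁻¹) = 1 := by
    rw [map_mul, map_mul, map_mul, h, mul_assoc (ρ b), ← map_mul ρ a, mul_inv_cancel, map_one,
      mul_one, ← map_mul, mul_inv_cancel, map_one]
  have h2 := eq_one_of_rho_eq_one ρ hf _ h1
  calc a * b = (a * b * a⁻¹ * b⁻¹) * (b * a) := by group
    _ = b * a := by rw [h2, one_mul]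

theorem char_eq_zero_of_coprime_of_center_bot [Finite G] [FiniteDimensional ℂ V]
    (ρ : Representation ℂ G V) [ρ.IsIrreducible]
    (hf : ∀ g : G, ρ.character g = ρ.character 1 → g = 1) (hZ : Subgroup.center G = ⊥)
    (x : G) (hx : x ≠ 1)
    (hcop : Nat.Coprime (finrank ℂ V) (Subgroup.centralizer ({x} : Set G)).index) :
    ρ.character x = 0 := by
  haveI := Fintype.ofFinite G
  rcases Cfsg.Agent.Helper1.char_eq_zero_or_norm_eq_of_coprime ρ x hcop with h | h
  · exact h
  · exfalso
    obtain ⟨ω, hω⟩ := (Cfsg.Agent.S0138.result ρ x).mp h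
    apply hx
    have : x ∈ Subgroup.center G := by
      rw [Subgroup.mem_center_iff]
      intro g
      apply commute_of_rho_commute ρ hf
      rw [hω]
      ext v
      simp [Module.End.mul_apply]
    rw [hZ, Subgroup.mem_bot] at this
    exact this

theorem card_dvd_finrank_of_vanishing [Finite G] [FiniteDimensional ℂ V]
    (ρ : Representation ℂ G V) (A : Subgroup G)
    (hA : ∀ a ∈ A, a ≠ 1 → ρ.character a = 0) : Nat.card A ∣ finrank ℂ V := by
  haveI := Fintype.ofFinite A
  let σ : Representation ℂ A V := ρ.comp A.subtype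
  have hA0 : (Nat.card A : ℂ) ≠ 0 := by exact_mod_cast (Nat.card_pos (α := A)).ne'
  haveI : Invertible (Nat.card A : ℂ) := invertibleOfNonzero hA0
  have h1 := Representation.card_inv_mul_sum_char_eq_finrank σ
  have h2 : ∑ a : A, σ.character a = (finrank ℂ V : ℂ) := by
    rw [Finset.sum_eq_single (1 : A)]
    · exact Representation.char_one σ
    · intro a _ ha
      have : ρ.character (a : G) = 0 := hA a a.2 (fun h => ha (Subtype.ext h))
      exact this
    · intro h; exact absurd (Finset.mem_univ _) h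
  rw [h2] at h1
  refine ⟨finrank ℂ (Representation.invariants σ), ?_⟩
  have h3 : (finrank ℂ V : ℂ) =
      (Nat.card A : ℂ) * (finrank ℂ (Representation.invariants σ) : ℂ) := by
    rw [← h1, ← mul_assoc, mul_inv_cancel₀ hA0, one_mul]
  exact_mod_cast h3

theorem commute_of_distinct_eigen [Finite G] [FiniteDimensional ℂ V]
    (ρ : Representation ℂ G V) (z : G)
    (hzn : z ^ finrank ℂ V = 1)
    (hvan : ∀ k, 0 < k → k < finrank ℂ V → ρ.character (z ^ k) = 0)
    (T T' : Module.End ℂ V) (hT : T * ρ z = ρ z * T) (hT' : T' * ρ z = ρ z * T') :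
    T * T' = T' * T := by
  obtain ⟨b, μ, -, -, hb, -, -, -⟩ := Cfsg.Agent.Helper1.exists_eigenbasis ρ z
  obtain ⟨n, hn⟩ : ∃ n, n = finrank ℂ V := ⟨_, rfl⟩
  have hpow : ∀ k i, ρ (z ^ k) (b i) = μ i ^ k • b i := by
    intro k i
    rw [map_pow]
    exact Cfsg.Agent.Helper1.pow_apply_of_apply_eq_smul (ρ z) (b i) (μ i) (hb i) k
  have hμn : ∀ i, μ i ^ finrank ℂ V = 1 := by
    intro i
    have h1 := hpow (finrank ℂ V) i
    rw [hzn, map_one, Module.End.one_apply] at h1
    have h2 : (μ i ^ finrank ℂ V - 1) • b i = 0 := by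
      rw [sub_smul, one_smul, ← h1, sub_self]
    rcases smul_eq_zero.mp h2 with h3 | h3
    · exact sub_eq_zero.mp h3
    · exact absurd h3 (b.ne_zero i)
  have htr : ∀ k, ρ.character (z ^ k) = ∑ i, μ i ^ k := fun k =>
    Cfsg.Agent.Helper1.trace_eq_sum_of_eigenbasis b (ρ (z ^ k)) (fun i => μ i ^ k) (hpow k)
  have hinj : Function.Injective μ := by
    intro a c hac
    by_contra hne
    obtain ⟨ζ, hζ⟩ : ∃ ζ, ζ = μ a := ⟨_, rfl⟩
    have hnpos : 0 < finrank ℂ V := a.pos
    have hζn : ζ ^ finrank ℂ V = 1 := by rw [hζ]; exact hμn a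
    have hζ0 : ζ ≠ 0 := by
      rintro rfl
      rw [zero_pow hnpos.ne'] at hζn
      exact zero_ne_one hζn
    have hS1 : ∑ k ∈ Finset.range (finrank ℂ V), ζ⁻¹ ^ k * ρ.character (z ^ k) =
        (finrank ℂ V : ℂ) := by
      rw [Finset.sum_eq_single 0]
      · rw [pow_zero, pow_zero, one_mul]; exact Representation.char_one ρ
      · intro k hk hk0
        rw [hvan k (Nat.pos_of_ne_zero hk0) (Finset.mem_range.mp hk), mul_zero]
      · intro h; exact absurd (Finset.mem_range.mpr hnpos) h
    have hS2 : ∑ k ∈ Finset.range (finrank ℂ V), ζ⁻¹ ^ k * ρ.character (z ^ k) =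
        ∑ i, ∑ k ∈ Finset.range (finrank ℂ V), (μ i * ζ⁻¹) ^ k := by
      rw [Finset.sum_comm]
      apply Finset.sum_congr rfl
      intro k _
      rw [htr k, Finset.mul_sum]
      apply Finset.sum_congr rfl
      intro i _
      rw [mul_pow, mul_comm]
    have hgeom : ∀ i, ∑ k ∈ Finset.range (finrank ℂ V), (μ i * ζ⁻¹) ^ k =
        if μ i = ζ then (finrank ℂ V : ℂ) else 0 := by
      intro i
      split_ifs with h
      · rw [h, mul_inv_cancel₀ hζ0]; simp
      · have hw : μ i * ζ⁻¹ ≠ 1 := by
          intro h1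
          apply h
          have := congrArg (fun t => t * ζ) h1
          simpa [mul_assoc, inv_mul_cancel₀ hζ0] using this
        have hwn : (μ i * ζ⁻¹) ^ finrank ℂ V = 1 := by
          rw [mul_pow, inv_pow, hμn i, hζn, inv_one, mul_one]
        have := mul_geom_sum (μ i * ζ⁻¹) (finrank ℂ V)
        rw [hwn, sub_self] at this
        rcases mul_eq_zero.mp this with h0 | h0
        · exact absurd (sub_eq_zero.mp h0) hw
        · exact h0
    rw [hS2] at hS1
    simp_rw [hgeom] at hS1
    rw [← Finset.sum_filter, Finset.sum_const, nsmul_eq_mul] at hS1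
    have hcard : (Finset.univ.filter (fun i => μ i = ζ)).card = 1 := by
      have hn0 : (finrank ℂ V : ℂ) ≠ 0 := by exact_mod_cast hnpos.ne'
      have := mul_right_cancel₀ hn0 (hS1.trans (one_mul _).symm)
      exact_mod_cast this
    obtain ⟨i₀, hi₀⟩ := Finset.card_eq_one.mp hcard
    have ha : a ∈ Finset.univ.filter (fun i => μ i = ζ) := by simp [hζ]
    have hc : c ∈ Finset.univ.filter (fun i => μ i = ζ) := by simp [hζ, hac]
    rw [hi₀, Finset.mem_singleton] at ha hc
    exact hne (ha.trans hc.symm)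
  have hdiag : ∀ (S : Module.End ℂ V), S * ρ z = ρ z * S → ∀ i, ∃ c : ℂ, S (b i) = c • b i := by
    intro S hS i
    have hcoord : ∀ (v : V) (j), b.repr (ρ z v) j = μ j * b.repr v j := by
      intro v j
      have : (b.coord j) ∘ₗ (ρ z) = μ j • b.coord j := by
        apply b.ext
        intro k
        simp only [LinearMap.comp_apply, LinearMap.smul_apply, hb k, map_smul, Basis.coord_apply,
          Basis.repr_self, smul_eq_mul]
        by_cases hjk : k = j
        · rw [hjk]
        · simp [Finsupp.single_apply, hjk]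
      exact congrArg (fun L => L v) this
    have h1 : ρ z (S (b i)) = μ i • S (b i) := by
      have := congrArg (fun L => L (b i)) hS
      simp only [Module.End.mul_apply] at this
      rw [← this, hb i, map_smul]
    have h2 : ∀ j, j ≠ i → b.repr (S (b i)) j = 0 := by
      intro j hj
      have h3 := hcoord (S (b i)) j
      rw [h1, map_smul, Finsupp.smul_apply, smul_eq_mul] at h3
      have hμ : μ i ≠ μ j := fun h => hj (hinj h).symm
      have h4 : (μ i - μ j) * b.repr (S (b i)) j = 0 := by rw [sub_mul, h3, sub_self]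
      rcases mul_eq_zero.mp h4 with h0 | h0
      · exact absurd (sub_eq_zero.mp h0) hμ
      · exact h0
    refine ⟨b.repr (S (b i)) i, ?_⟩
    conv_lhs => rw [← b.sum_repr (S (b i))]
    rw [Finset.sum_eq_single i]
    · intro j _ hj; rw [h2 j hj, zero_smul]
    · intro h; exact absurd (Finset.mem_univ _) h
  apply b.ext
  intro i
  obtain ⟨c, hc⟩ := hdiag T hT i
  obtain ⟨c', hc'⟩ := hdiag T' hT' i
  rw [Module.End.mul_apply, Module.End.mul_apply, hc', map_smul, hc, map_smul, hc', smul_comm]

/-- An irreducible faithful complex representation of prime degree `p` of a finite group of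
order divisible by `p ^ 2` has nontrivial centre. -/
theorem center_ne_bot_of_faithful_prime_degree [Finite G] [FiniteDimensional ℂ V]
    (ρ : Representation ℂ G V) [ρ.IsIrreducible]
    (p : ℕ) (hp : p.Prime) (hdim : finrank ℂ V = p)
    (hf : ∀ g : G, ρ.character g = ρ.character 1 → g = 1) (hdiv : p ^ 2 ∣ Nat.card G) :
    Subgroup.center G ≠ ⊥ := by
  intro hZ
  haveI : Fact p.Prime := ⟨hp⟩
  obtain ⟨P⟩ : Nonempty (Sylow p G) := inferInstance
  have hP2 : p ^ 2 ∣ Nat.card P := P.pow_dvd_card_of_pow_dvd_card hdiv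
  have hvanP : ∀ x ∈ (P : Subgroup G), (∀ y ∈ (P : Subgroup G), y * x = x * y) → x ≠ 1 →
      ρ.character x = 0 := by
    intro x hxP hxc hx1
    apply char_eq_zero_of_coprime_of_center_bot ρ hf hZ x hx1
    rw [hdim]
    apply (Nat.Prime.coprime_iff_not_dvd hp).mpr
    intro hdvd
    have hle : (P : Subgroup G) ≤ Subgroup.centralizer ({x} : Set G) := by
      intro y hy
      rw [Subgroup.mem_centralizer_singleton_iff]
      exact hxc y hy
    exact P.not_dvd_index (hdvd.trans (Subgroup.index_dvd_of_le hle))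
  haveI : Nontrivial (P : Subgroup G) := by
    rw [← Finite.one_lt_card_iff_nontrivial]
    have h1 : p ^ 2 ≤ Nat.card P := Nat.le_of_dvd Nat.card_pos hP2
    have h2 := hp.two_le
    nlinarith
  have hPp : IsPGroup p (P : Subgroup G) := P.isPGroup'
  haveI : Nontrivial (Subgroup.center (P : Subgroup G)) := hPp.center_nontrivial
  have hcp : IsPGroup p (Subgroup.center (P : Subgroup G)) := hPp.to_subgroup _
  have hpc : p ∣ Nat.card (Subgroup.center (P : Subgroup G)) := by
    obtain ⟨k, hk⟩ := IsPGroup.iff_card.mp hcp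
    rw [hk]
    have : k ≠ 0 := by
      rintro rfl
      rw [pow_zero] at hk
      have := Finite.one_lt_card_iff_nontrivial.mpr
        (inferInstance : Nontrivial (Subgroup.center (P : Subgroup G)))
      omega
    exact dvd_pow_self p this
  obtain ⟨z', hz'⟩ :=
    exists_prime_orderOf_dvd_card' (G := Subgroup.center (P : Subgroup G)) p hpc
  obtain ⟨z, hz⟩ : ∃ z : G, z = ((z' : (P : Subgroup G)) : G) := ⟨_, rfl⟩
  have hzo : orderOf z = p := by
    rw [hz, Subgroup.orderOf_coe, Subgroup.orderOf_coe]; exact hz'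
  have hzP : z ∈ (P : Subgroup G) := by rw [hz]; exact (z' : (P : Subgroup G)).2
  have hzc : ∀ y ∈ (P : Subgroup G), y * z = z * y := by
    intro y hy
    have := Subgroup.mem_center_iff.mp z'.2 ⟨y, hy⟩
    rw [hz]
    exact congrArg Subtype.val this
  have hvan : ∀ k, 0 < k → k < finrank ℂ V → ρ.character (z ^ k) = 0 := by
    intro k hk0 hkp
    rw [hdim] at hkp
    apply hvanP (z ^ k) (Subgroup.pow_mem _ hzP k)
    · intro y hy
      exact ((show Commute y z from hzc y hy).pow_right k).eq
    · intro h1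
      have := orderOf_dvd_of_pow_eq_one h1
      rw [hzo] at this
      exact absurd (Nat.le_of_dvd hk0 this) (by omega)
  have hzn : z ^ finrank ℂ V = 1 := by rw [hdim, ← hzo]; exact pow_orderOf_eq_one z
  have hab : ∀ a ∈ (P : Subgroup G), ∀ c ∈ (P : Subgroup G), a * c = c * a := by
    intro a ha c hc
    apply commute_of_rho_commute ρ hf
    apply commute_of_distinct_eigen ρ z hzn hvan
    · rw [← map_mul, ← map_mul, hzc a ha]
    · rw [← map_mul, ← map_mul, hzc c hc]
  have hdvd := card_dvd_finrank_of_vanishing ρ (P : Subgroup G)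
    (fun a ha ha1 => hvanP a ha (fun y hy => hab y hy a ha) ha1)
  rw [hdim] at hdvd
  have h1 := Nat.le_of_dvd hp.pos (hP2.trans hdvd)
  have h2 := hp.two_le
  nlinarith

end

end Cfsg.Agent.Helper22
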