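import Mathlib
import Cfsg.Agent.Helper1.NormRank2

set_option autoImplicit false

open scoped commutatorElement

namespace Cfsg.Agent.Helper22

/-- If all fibres of `f` have cardinality divisible by `d`, so has the domain. -/
theorem mil_dvd_card_of_fibers {α β : Type*} [Finite α] (f : α → β) (d : ℕ)
    (h : ∀ a, d ∣ Nat.card {a' : α // f a' = f a}) : d ∣ Nat.card α := by
  classical
  have := Fintype.ofFinite α
  have := Fintype.ofFinite (Set.range f)
  rw [← Nat.card_congr (Equiv.sigmaFiberEquiv (Set.rangeFactorization f)), Nat.card_sigma]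
  apply Finset.dvd_sum
  rintro ⟨b, a0, rfl⟩ _
  have e : Nat.card {a : α // Set.rangeFactorization f a = ⟨f a0, a0, rfl⟩} =
      Nat.card {a' : α // f a' = f a0} := by
    apply Nat.card_congr
    apply Equiv.subtypeEquivRight
    intro a
    rw [Subtype.ext_iff]
    rfl
  rw [e]
  exact h a0

/-- Power formula when the commutator is central. -/
theorem mil_pow_formula {G : Type*} [Group G] (x b z : G) (hz : b * x = z * x * b)
    (hzx : Commute z x) (hzb : Commute z b) (n : ℕ) :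
    (x * b) ^ n = z ^ (n.choose 2) * (x ^ n * b ^ n) := by
  have hbn : ∀ k : ℕ, b ^ k * x = z ^ k * x * b ^ k := by
    intro k
    induction k with
    | zero => simp
    | succ k ih =>
      calc b ^ (k + 1) * x = b * (b ^ k * x) := by rw [pow_succ', mul_assoc]
        _ = b * (z ^ k * x * b ^ k) := by rw [ih]
        _ = (b * z ^ k) * x * b ^ k := by simp only [mul_assoc]
        _ = (z ^ k * b) * x * b ^ k := by rw [(hzb.pow_left k).eq]
        _ = z ^ k * (b * x) * b ^ k := by simp only [mul_assoc]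
        _ = z ^ k * (z * x * b) * b ^ k := by rw [hz]
        _ = z ^ (k + 1) * x * b ^ (k + 1) := by
            rw [pow_succ z, pow_succ' b]; simp only [mul_assoc]
  induction n with
  | zero => simp
  | succ n ih =>
    have h5 : x ^ n * z ^ n = z ^ n * x ^ n := ((hzx.pow_left n).pow_right n).eq.symm
    have e : (n + 1).choose 2 = n.choose 2 + n := by
      rw [Nat.choose_succ_succ', Nat.choose_one_right, add_comm]
    calc (x * b) ^ (n + 1) = z ^ (n.choose 2) * (x ^ n * b ^ n) * (x * b) := by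
          rw [pow_succ, ih]
      _ = z ^ (n.choose 2) * (x ^ n * (b ^ n * x) * b) := by simp only [mul_assoc]
      _ = z ^ (n.choose 2) * (x ^ n * (z ^ n * x * b ^ n) * b) := by rw [hbn]
      _ = z ^ (n.choose 2) * (z ^ n * (x ^ n * x * (b ^ n * b))) := by
          congr 1
          calc x ^ n * (z ^ n * x * b ^ n) * b = (x ^ n * z ^ n) * x * b ^ n * b := by
                simp only [mul_assoc]
            _ = (z ^ n * x ^ n) * x * b ^ n * b := by rw [h5]
            _ = z ^ n * (x ^ n * x * (b ^ n * b)) := by simp only [mul_assoc]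
      _ = z ^ ((n + 1).choose 2) * (x ^ (n + 1) * b ^ (n + 1)) := by
          rw [← mul_assoc, ← pow_add, pow_succ x, pow_succ b, e]

/-- In a nilpotent group a subgroup with `[N, G] = N` is trivial. -/
theorem mil_comm_self_eq_bot {Q : Type*} [Group Q] [Group.IsNilpotent Q] (N : Subgroup Q)
    (h : ⁅N, (⊤ : Subgroup Q)⁆ = N) : N = ⊥ := by
  obtain ⟨n, hn⟩ := Subgroup.nilpotent_iff_lowerCentralSeries.mp
    (inferInstance : Group.IsNilpotent Q)
  have key : ∀ k, N ≤ (⊤ : Subgroup Q).lowerCentralSeries k := by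
    intro k
    induction k with
    | zero => rw [Subgroup.lowerCentralSeries_zero]; exact le_top
    | succ k ih =>
      rw [Subgroup.lowerCentralSeries_succ]
      calc N = ⁅N, ⊤⁆ := h.symm
        _ ≤ _ := Subgroup.commutator_mono ih le_rfl
  exact le_bot_iff.mp (hn ▸ key n)

/-- A normal subgroup of order `p²` of a `p`-group has `[B, Q] ≤ Z(Q)`. -/
theorem mil_central {Q : Type*} [Group Q] [Finite Q] (p : ℕ) [Fact p.Prime] (hQ : IsPGroup p Q)
    (B : Subgroup Q) (hBn : B.Normal) (hBcard : Nat.card B = p ^ 2) :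
    ∀ b ∈ B, ∀ x y : Q, Commute ⁅b, x⁆ y := by
  have hp : p.Prime := Fact.out
  haveI := hQ.isNilpotent
  haveI := hBn
  set K : Subgroup Q := ⁅B, ⊤⁆ with hK
  haveI hKn : K.Normal := Subgroup.commutator_normal B ⊤
  have hKB : K ≤ B := (Subgroup.commutator_le_inf B ⊤).trans inf_le_left
  set L : Subgroup Q := ⁅K, ⊤⁆ with hL
  have hLK : L ≤ K := (Subgroup.commutator_le_inf K ⊤).trans inf_le_left
  have hLbot : L = ⊥ := by
    by_contra hne
    have hKne : K ≠ ⊥ := by
      intro h0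
      apply hne
      rw [hL, h0]
      exact Subgroup.commutator_bot_left ⊤
    have hBne : B ≠ ⊥ := by
      intro h0
      apply hKne
      rw [hK, h0]
      exact Subgroup.commutator_bot_left ⊤
    have hKltB : K ≠ B := fun h => hBne (mil_comm_self_eq_bot B h)
    have hLltK : L ≠ K := fun h => hKne (mil_comm_self_eq_bot K h)
    have h1 : Nat.card K ∣ p ^ 2 := hBcard ▸ Subgroup.card_dvd_of_le hKB
    obtain ⟨i, hi, hKi⟩ := (Nat.dvd_prime_pow hp).mp h1
    have h2 : Nat.card L ∣ Nat.card K := Subgroup.card_dvd_of_le hLK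
    rw [hKi] at h2
    obtain ⟨j, hj, hLj⟩ := (Nat.dvd_prime_pow hp).mp h2
    have hj0 : j ≠ 0 := by
      rintro rfl
      rw [pow_zero] at hLj
      exact hne (Subgroup.card_eq_one.mp hLj)
    have hji : j ≠ i := by
      rintro rfl
      exact hLltK (Subgroup.eq_of_le_of_card_ge hLK (by rw [hKi, hLj]))
    have hi2 : i ≠ 2 := by
      rintro rfl
      exact hKltB (Subgroup.eq_of_le_of_card_ge hKB (by rw [hKi, hBcard]))
    omega
  intro b hb x y
  have h1 : ⁅b, x⁆ ∈ K := Subgroup.commutator_mem_commutator hb (Subgroup.mem_top x)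
  have h2 : ⁅⁅b, x⁆, y⁆ ∈ L := Subgroup.commutator_mem_commutator h1 (Subgroup.mem_top y)
  rw [hLbot, Subgroup.mem_bot] at h2
  exact commutatorElement_eq_one_iff_commute.mp h2

/-- `(x b)^p = x^p` for `b` in a normal elementary abelian subgroup of order `p²`, `p` odd. -/
theorem mil_pow_eq {Q : Type*} [Group Q] [Finite Q] (p : ℕ) [Fact p.Prime] (hodd : p ≠ 2)
    (hQ : IsPGroup p Q) (B : Subgroup Q) (hBn : B.Normal) (hBp : ∀ x ∈ B, x ^ p = 1)
    (hBcard : Nat.card B = p ^ 2) (x : Q) (b : Q) (hb : b ∈ B) : (x * b) ^ p = x ^ p := by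
  have hp : p.Prime := Fact.out
  have hcen := mil_central p hQ B hBn hBcard
  have hz : b * x = ⁅b, x⁆ * x * b := by rw [commutatorElement_def]; group
  have hzB : ⁅b, x⁆ ∈ B := by
    rw [commutatorElement_def]
    have e : b * x * b⁻¹ * x⁻¹ = b * (x * b⁻¹ * x⁻¹) := by group
    rw [e]
    exact B.mul_mem hb (hBn.conj_mem _ (B.inv_mem hb) x)
  have hp3 : 2 < p := by
    have := hp.two_le
    omega
  obtain ⟨k, hk⟩ := hp.dvd_choose_self (k := 2) (by norm_num) hp3
  rw [mil_pow_formula x b ⁅b, x⁆ hz (hcen b hb x x) (hcen b hb x b), hBp b hb, mul_one, hk,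
    pow_mul, hBp _ hzB, one_pow, one_mul]

theorem mil_K1 {Q : Type*} [Group Q] [Finite Q] (p : ℕ) (B : Subgroup Q) [B.Normal]
    (hpow : ∀ x b : Q, b ∈ B → (x * b) ^ p = x ^ p) (x y : Q)
    (hy : x⁻¹ * y ∈ Subgroup.zpowers (x ^ p) ⊔ B) :
    ∃ k : ℕ, y ^ p = (x ^ p) ^ (1 + p * k) := by
  obtain ⟨a, ha, b, hb, hab⟩ := Subgroup.mem_sup_of_normal_right.mp hy
  obtain ⟨k, rfl⟩ := (Submonoid.mem_powers_iff _ _).mp
    ((isOfFinOrder_of_finite (x ^ p)).mem_powers_iff_mem_zpowers.mpr ha)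
  refine ⟨k, ?_⟩
  have hyx : y = x * (x ^ p) ^ k * b := by rw [mul_assoc, hab, mul_inv_cancel_left]
  rw [hyx, hpow _ b hb, ← pow_mul x p k, ← pow_succ' x, ← pow_mul, ← pow_mul]
  congr 1
  ring

theorem mil_K2 {Q : Type*} [Group Q] (p : ℕ) [Fact p.Prime] (s' : ℕ) (x y : Q)
    (hx : orderOf x = p ^ (s' + 2)) (k : ℕ) (hk : y ^ p = (x ^ p) ^ (1 + p * k)) :
    orderOf y = p ^ (s' + 2) := by
  have hp : p.Prime := Fact.out
  apply orderOf_eq_prime_pow (n := s' + 1)
  · rw [pow_succ' p, pow_mul, hk, ← pow_mul, ← pow_mul]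
    intro h1
    have h2 := orderOf_dvd_of_pow_eq_one h1
    rw [hx] at h2
    have h3 : p * ((1 + p * k) * p ^ s') = p ^ (s' + 1) * (1 + p * k) := by ring
    have e : p ^ (s' + 2) = p ^ (s' + 1) * p := by ring
    rw [h3, e] at h2
    have h4 := (Nat.mul_dvd_mul_iff_left (pow_pos hp.pos _)).mp h2
    have h5 : p ∣ 1 := (Nat.dvd_add_left (dvd_mul_right p k)).mp h4
    exact hp.one_lt.ne' (Nat.dvd_one.mp h5)
  · rw [pow_succ' p, pow_mul, hk, ← pow_mul, ← pow_mul]
    have h3 : p * ((1 + p * k) * p ^ (s' + 1)) = p ^ (s' + 2) * (1 + p * k) := by ring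
    rw [h3, pow_mul, ← hx, pow_orderOf_eq_one, one_pow]

theorem mil_K3 {Q : Type*} [Group Q] [Finite Q] (p : ℕ) [Fact p.Prime] (s' : ℕ) (x y : Q)
    (hx : orderOf x = p ^ (s' + 2)) (k : ℕ) (hk : y ^ p = (x ^ p) ^ (1 + p * k)) :
    Subgroup.zpowers (y ^ p) = Subgroup.zpowers (x ^ p) := by
  have hp : p.Prime := Fact.out
  apply Subgroup.eq_of_le_of_card_ge
  · rw [hk]
    exact Subgroup.zpowers_le.mpr (Subgroup.pow_mem _ (Subgroup.mem_zpowers _) _)
  · rw [Nat.card_zpowers, Nat.card_zpowers, hk]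
    apply le_of_eq
    symm
    apply Nat.Coprime.orderOf_pow
    have h1 : orderOf (x ^ p) ∣ p ^ (s' + 1) := by
      apply orderOf_dvd_of_pow_eq_one
      have e : p * p ^ (s' + 1) = p ^ (s' + 2) := by ring
      rw [← pow_mul, e, ← hx]
      exact pow_orderOf_eq_one x
    apply Nat.Coprime.coprime_dvd_left h1
    apply Nat.Coprime.pow_left
    rw [Nat.coprime_add_mul_left_right]
    exact Nat.coprime_one_right p

theorem mil_K5 {Q : Type*} [Group Q] [Finite Q] (p : ℕ) [Fact p.Prime] (hQ : IsPGroup p Q)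
    (B : Subgroup Q) (hBp : ∀ x ∈ B, x ^ p = 1) (hBcard : Nat.card B = p ^ 2) (s' : ℕ) (x : Q)
    (hx : orderOf x = p ^ (s' + 2)) :
    p ^ (s' + 2) ∣ Nat.card ↥(Subgroup.zpowers (x ^ p) ⊔ B) := by
  have hp : p.Prime := Fact.out
  obtain ⟨j, hj⟩ := IsPGroup.iff_card.mp (hQ.to_subgroup (Subgroup.zpowers (x ^ p) ⊔ B))
  rw [hj]
  apply pow_dvd_pow
  by_contra hlt
  have hjs : j ≤ s' + 1 := by omega
  have hord : orderOf (x ^ p) = p ^ (s' + 1) := by
    have e : p ^ (s' + 2) = p ^ (s' + 1) * p := by ring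
    rw [orderOf_pow' x hp.ne_zero, hx, Nat.gcd_eq_right (dvd_pow_self p (by omega)), e,
      Nat.mul_div_cancel _ hp.pos]
  have heq : Subgroup.zpowers (x ^ p) = Subgroup.zpowers (x ^ p) ⊔ B := by
    apply Subgroup.eq_of_le_of_card_ge le_sup_left
    rw [hj, Nat.card_zpowers, hord]
    exact Nat.pow_le_pow_right hp.pos hjs
  have hBle : B ≤ Subgroup.zpowers (x ^ p) := by rw [heq]; exact le_sup_right
  haveI : IsCyclic ↥B := Subgroup.isCyclic_of_le hBle
  obtain ⟨g, hg⟩ := IsCyclic.exists_generator (α := ↥B)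
  have h1 : orderOf g = Nat.card B := orderOf_eq_card_of_forall_mem_zpowers hg
  have h2 : g ^ p = 1 := Subtype.ext (by simpa using hBp g.1 g.2)
  have h3 := orderOf_dvd_of_pow_eq_one h2
  rw [h1, hBcard] at h3
  have h4 := Nat.le_of_dvd hp.pos h3
  have h5 : p < p ^ 2 := by nlinarith [hp.one_lt]
  omega

/-- **Miller's theorem**: in a non-cyclic `p`-group, `p` odd, the number of elements of order
`p^s`, `s ≥ 2`, is divisible by `p^s`. -/
theorem mil_pgroup {Q : Type*} [Group Q] [Finite Q] (p : ℕ) [Fact p.Prime] (hodd : p ≠ 2)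
    (hQ : IsPGroup p Q) (hnc : ¬ IsCyclic Q) (s : ℕ) (hs : 1 < s) :
    p ^ s ∣ Nat.card {x : Q // orderOf x = p ^ s} := by
  obtain ⟨B, hBn, -, hBp, hBcard⟩ :=
    Cfsg.Agent.Helper1.exists_normal_elem_abelian_sq hodd hQ hnc
  haveI := hBn
  have hpow : ∀ x b : Q, b ∈ B → (x * b) ^ p = x ^ p :=
    fun x b hb => mil_pow_eq p hodd hQ B hBn hBp hBcard x b hb
  obtain ⟨s', rfl⟩ : ∃ s', s = s' + 2 := ⟨s - 2, by omega⟩
  apply mil_dvd_card_of_fibers (fun x : {x : Q // orderOf x = p ^ (s' + 2)} =>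
    ({y : Q | x.1⁻¹ * y ∈ Subgroup.zpowers (x.1 ^ p) ⊔ B} : Set Q))
  rintro ⟨x, hx⟩
  have hA : ∀ y : Q, x⁻¹ * y ∈ Subgroup.zpowers (x ^ p) ⊔ B →
      orderOf y = p ^ (s' + 2) ∧
        Subgroup.zpowers (y ^ p) ⊔ B = Subgroup.zpowers (x ^ p) ⊔ B := by
    intro y hy
    obtain ⟨k, hk⟩ := mil_K1 p B hpow x y hy
    exact ⟨mil_K2 p s' x y hx k hk, by rw [mil_K3 p s' x y hx k hk]⟩
  have hcard : Nat.card {y : {x : Q // orderOf x = p ^ (s' + 2)} //
      ({z : Q | y.1⁻¹ * z ∈ Subgroup.zpowers (y.1 ^ p) ⊔ B} : Set Q) =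
        {z : Q | x⁻¹ * z ∈ Subgroup.zpowers (x ^ p) ⊔ B}} =
      Nat.card ↥(Subgroup.zpowers (x ^ p) ⊔ B) := by
    apply Nat.card_congr
    refine
      { toFun := fun y => ⟨x⁻¹ * y.1.1, ?_⟩
        invFun := fun a => ⟨⟨x * a.1, ?_⟩, ?_⟩
        left_inv := ?_
        right_inv := ?_ }
    · have h1 : y.1.1 ∈ ({z : Q | y.1.1⁻¹ * z ∈ Subgroup.zpowers (y.1.1 ^ p) ⊔ B} : Set Q) := by
        show y.1.1⁻¹ * y.1.1 ∈ Subgroup.zpowers (y.1.1 ^ p) ⊔ B
        rw [inv_mul_cancel]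
        exact Subgroup.one_mem _
      exact (Set.ext_iff.mp y.2 y.1.1).mp h1
    · exact (hA (x * a.1) (by rw [inv_mul_cancel_left]; exact a.2)).1
    · have h0 : x⁻¹ * (x * a.1) ∈ Subgroup.zpowers (x ^ p) ⊔ B := by
        rw [inv_mul_cancel_left]; exact a.2
      have h2 := (hA (x * a.1) h0).2
      ext z
      show (x * a.1)⁻¹ * z ∈ Subgroup.zpowers ((x * a.1) ^ p) ⊔ B ↔
        x⁻¹ * z ∈ Subgroup.zpowers (x ^ p) ⊔ B
      rw [h2]
      have h3 : (x * a.1)⁻¹ * z = (a.1)⁻¹ * (x⁻¹ * z) := by group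
      rw [h3]
      exact Subgroup.mul_mem_cancel_left _ (Subgroup.inv_mem _ a.2)
    · intro y
      apply Subtype.ext
      apply Subtype.ext
      simp
    · intro a
      apply Subtype.ext
      simp
  have key := mil_K5 p hQ B hBp hBcard s' x hx
  rw [← hcard] at key
  exact key

end Cfsg.Agent.Helper22
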