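import Mathlib
import Cfsg.Agent.Helper22.Mil1

set_option autoImplicit false

namespace Cfsg.Agent.Helper22

theorem mil_card_modEq_fixed {P α : Type*} [Group P] [MulAction P α] (p : ℕ) [Fact p.Prime]
    (hP : IsPGroup p P) (S : Set α) [Finite S] (hS : ∀ g : P, ∀ a ∈ S, g • a ∈ S) :
    Nat.card S ≡ Nat.card {a : α // a ∈ S ∧ ∀ g : P, g • a = a} [MOD p] := by
  let S' : SubMulAction P α := ⟨S, fun g {a} ha => hS g a ha⟩
  haveI : Finite ↥S' := (inferInstance : Finite S)
  have h1 := hP.card_modEq_card_fixedPoints (↥S')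
  have e : Nat.card (MulAction.fixedPoints P ↥S') =
      Nat.card {a : α // a ∈ S ∧ ∀ g : P, g • a = a} := by
    apply Nat.card_congr
    refine
      { toFun := fun a => ⟨a.1.1, a.1.2, fun g => ?_⟩
        invFun := fun a => ⟨⟨a.1, a.2.1⟩, fun g => ?_⟩
        left_inv := fun a => rfl
        right_inv := fun a => rfl }
    · have := a.2 g
      exact congrArg Subtype.val this
    · apply Subtype.ext
      exact a.2.2 g
  rw [e] at h1
  exact h1

theorem mil_card_eq_mul {α β : Type*} [Finite α] [Finite β] (f : α → β) (k : ℕ)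
    (h : ∀ b, Nat.card {a : α // f a = b} = k) : Nat.card α = k * Nat.card β := by
  classical
  have := Fintype.ofFinite β
  rw [← Nat.card_congr (Equiv.sigmaFiberEquiv f), Nat.card_sigma]
  rw [Finset.sum_congr rfl (fun b _ => h b), Finset.sum_const, smul_eq_mul, Finset.card_univ,
    Nat.card_eq_fintype_card, mul_comm]

theorem mil_card_gen {G : Type*} [Group G] [Finite G] (C : Subgroup G) [IsCyclic C] :
    Nat.card {u : G // Subgroup.zpowers u = C} = (Nat.card C).totient := by
  classical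
  have := Fintype.ofFinite ↥C
  have h1 := IsCyclic.card_orderOf_eq_totient (α := ↥C) (d := Nat.card C)
    (by rw [Nat.card_eq_fintype_card])
  rw [← h1, ← Fintype.card_subtype, ← Nat.card_eq_fintype_card]
  apply Nat.card_congr
  refine
    { toFun := fun u => ⟨⟨u.1, (SetLike.ext_iff.mp u.2 u.1).mp (Subgroup.mem_zpowers _)⟩, ?_⟩
      invFun := fun c => ⟨c.1.1, ?_⟩
      left_inv := fun u => rfl
      right_inv := fun c => rfl }
  · rw [Subgroup.orderOf_mk, ← Nat.card_zpowers, u.2]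
  · apply Subgroup.eq_of_le_of_card_ge
    · exact Subgroup.zpowers_le.mpr c.1.2
    · rw [Nat.card_zpowers, Subgroup.orderOf_coe, c.2]

theorem mil_card_cyc {H : Type*} [Group H] [Finite H] (a : ℕ) :
    Nat.card {x : H // orderOf x = a} =
      a.totient * Nat.card {C : Subgroup H // IsCyclic C ∧ Nat.card C = a} := by
  have hf : ∀ x : {x : H // orderOf x = a},
      IsCyclic ↥(Subgroup.zpowers x.1) ∧ Nat.card ↥(Subgroup.zpowers x.1) = a :=
    fun x => ⟨inferInstance, by rw [Nat.card_zpowers]; exact x.2⟩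
  apply mil_card_eq_mul (fun x : {x : H // orderOf x = a} =>
    (⟨Subgroup.zpowers x.1, hf x⟩ : {C : Subgroup H // IsCyclic C ∧ Nat.card C = a}))
  rintro ⟨C, hC, rfl⟩
  haveI := hC
  rw [← mil_card_gen C]
  apply Nat.card_congr
  exact
    { toFun := fun x => ⟨x.1.1, congrArg Subtype.val x.2⟩
      invFun := fun u => ⟨⟨u.1, by rw [← Nat.card_zpowers, u.2]⟩, Subtype.ext u.2⟩
      left_inv := fun x => rfl
      right_inv := fun u => rfl }

theorem mil_mem_map_conj {G : Type*} [Group G] (C : Subgroup G) (g x : G) :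
    x ∈ C.map (MulAut.conj g).toMonoidHom ↔ g⁻¹ * x * g ∈ C := by
  constructor
  · rintro ⟨y, hy, rfl⟩
    have e : g⁻¹ * ((MulAut.conj g).toMonoidHom y) * g = y := by
      show g⁻¹ * (g * y * g⁻¹) * g = y
      group
    rw [e]
    exact hy
  · intro h
    refine ⟨g⁻¹ * x * g, h, ?_⟩
    show g * (g⁻¹ * x * g) * g⁻¹ = x
    group

theorem mil_map_conj_cyc {G : Type*} [Group G] (C : Subgroup G) (g : G) (hC : IsCyclic C) :
    IsCyclic ↥(C.map (MulAut.conj g).toMonoidHom) ∧
      Nat.card ↥(C.map (MulAut.conj g).toMonoidHom) = Nat.card C := by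
  have hinj : Function.Injective (MulAut.conj g).toMonoidHom := (MulAut.conj g).injective
  refine ⟨?_, Subgroup.card_map_of_injective hinj⟩
  haveI := hC
  exact isCyclic_of_surjective (C.equivMapOfInjective _ hinj)
    (C.equivMapOfInjective _ hinj).surjective

theorem mil_commute_conj {G : Type*} [Group G] (g a b : G) (h : Commute a b) :
    Commute (g * a * g⁻¹) (g * b * g⁻¹) := by
  show g * a * g⁻¹ * (g * b * g⁻¹) = g * b * g⁻¹ * (g * a * g⁻¹)
  have e1 : g * a * g⁻¹ * (g * b * g⁻¹) = g * (a * b) * g⁻¹ := by group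
  have e2 : g * b * g⁻¹ * (g * a * g⁻¹) = g * (b * a) * g⁻¹ := by group
  rw [e1, e2, h.eq]

/-- Conjugation action on subgroups through a homomorphism. -/
@[reducible] def milActS {P G : Type*} [Group P] [Group G] (φ : P →* G) :
    MulAction P (Subgroup G) where
  smul q C := C.map (MulAut.conj (φ q)).toMonoidHom
  one_smul C := by
    show C.map (MulAut.conj (φ 1)).toMonoidHom = C
    ext x
    rw [mil_mem_map_conj]
    simp
  mul_smul a b C := by
    show C.map (MulAut.conj (φ (a * b))).toMonoidHom =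
      (C.map (MulAut.conj (φ b)).toMonoidHom).map (MulAut.conj (φ a)).toMonoidHom
    ext x
    rw [mil_mem_map_conj, mil_mem_map_conj, mil_mem_map_conj]
    simp [mul_assoc]

/-- Conjugation action on pairs (subgroup, element) through a homomorphism. -/
@[reducible] def milActP {P G : Type*} [Group P] [Group G] (φ : P →* G) :
    MulAction P (Subgroup G × G) where
  smul q t := (t.1.map (MulAut.conj (φ q)).toMonoidHom, φ q * t.2 * (φ q)⁻¹)
  one_smul t := by
    show (t.1.map (MulAut.conj (φ 1)).toMonoidHom, φ 1 * t.2 * (φ 1)⁻¹) = t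
    refine Prod.ext ?_ ?_
    · show t.1.map (MulAut.conj (φ 1)).toMonoidHom = t.1
      ext x
      rw [mil_mem_map_conj]
      simp
    · show φ 1 * t.2 * (φ 1)⁻¹ = t.2
      simp
  mul_smul a b t := by
    show (t.1.map (MulAut.conj (φ (a * b))).toMonoidHom, φ (a * b) * t.2 * (φ (a * b))⁻¹) =
      ((t.1.map (MulAut.conj (φ b)).toMonoidHom).map (MulAut.conj (φ a)).toMonoidHom,
        φ a * (φ b * t.2 * (φ b)⁻¹) * (φ a)⁻¹)
    refine Prod.ext ?_ ?_
    · show t.1.map (MulAut.conj (φ (a * b))).toMonoidHom =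
        (t.1.map (MulAut.conj (φ b)).toMonoidHom).map (MulAut.conj (φ a)).toMonoidHom
      ext x
      rw [mil_mem_map_conj, mil_mem_map_conj, mil_mem_map_conj]
      simp [mul_assoc]
    · show φ (a * b) * t.2 * (φ (a * b))⁻¹ = φ a * (φ b * t.2 * (φ b)⁻¹) * (φ a)⁻¹
      simp [mul_assoc]

theorem mil_dvd_card_normal_cyc {Q : Type*} [Group Q] [Finite Q] (p : ℕ) [Fact p.Prime]
    (hodd : p ≠ 2) (hQ : IsPGroup p Q) (hnc : ¬ IsCyclic Q) (s : ℕ) (hs : 1 < s) :
    p ∣ Nat.card {C : Subgroup Q // (IsCyclic C ∧ Nat.card C = p ^ s) ∧ C.Normal} := by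
  have hp : p.Prime := Fact.out
  have h1 := mil_pgroup p hodd hQ hnc s hs
  rw [mil_card_cyc (p ^ s), Nat.totient_prime_pow hp (by omega)] at h1
  have h2 : p ∣ Nat.card {C : Subgroup Q // IsCyclic C ∧ Nat.card C = p ^ s} := by
    have e : p ^ s = p ^ (s - 1) * p := by
      rw [← pow_succ]
      congr 1
      omega
    have h1' : p ^ (s - 1) * p ∣ p ^ (s - 1) * ((p - 1) *
        Nat.card {C : Subgroup Q // IsCyclic C ∧ Nat.card C = p ^ s}) := by
      rw [← e, ← mul_assoc]
      exact h1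
    have h3 := (Nat.mul_dvd_mul_iff_left (pow_pos hp.pos _)).mp h1'
    rcases (hp.dvd_mul).mp h3 with h4 | h4
    · exfalso
      have h5 := Nat.le_of_dvd (by have := hp.two_le; omega) h4
      have := hp.two_le
      omega
    · exact h4
  letI : MulAction Q (Subgroup Q) := milActS (MonoidHom.id Q)
  have hinv : ∀ g : Q, ∀ C ∈ {C : Subgroup Q | IsCyclic C ∧ Nat.card C = p ^ s},
      g • C ∈ {C : Subgroup Q | IsCyclic C ∧ Nat.card C = p ^ s} := by
    rintro g C ⟨hC1, hC2⟩
    exact ⟨(mil_map_conj_cyc C g hC1).1, (mil_map_conj_cyc C g hC1).2.trans hC2⟩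
  have h5 := mil_card_modEq_fixed p hQ {C : Subgroup Q | IsCyclic C ∧ Nat.card C = p ^ s} hinv
  have h6 : Nat.card {C : Subgroup Q // C ∈ {C : Subgroup Q | IsCyclic C ∧ Nat.card C = p ^ s} ∧
        ∀ g : Q, g • C = C} =
      Nat.card {C : Subgroup Q // (IsCyclic C ∧ Nat.card C = p ^ s) ∧ C.Normal} := by
    apply Nat.card_congr
    apply Equiv.subtypeEquivRight
    intro C
    refine and_congr Iff.rfl ?_
    constructor
    · intro h
      refine ⟨fun n hn g => ?_⟩
      have h7 : g * n * g⁻¹ ∈ C.map (MulAut.conj g).toMonoidHom := by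
        rw [mil_mem_map_conj]
        have e : g⁻¹ * (g * n * g⁻¹) * g = n := by group
        rw [e]
        exact hn
      have h8 : C.map (MulAut.conj g).toMonoidHom = C := h g
      rwa [h8] at h7
    · intro hN g
      show C.map (MulAut.conj g).toMonoidHom = C
      ext x
      rw [mil_mem_map_conj]
      constructor
      · intro hx
        have h7 := hN.conj_mem _ hx g
        have e : g * (g⁻¹ * x * g) * g⁻¹ = x := by group
        rwa [e] at h7
      · intro hx
        have h7 := hN.conj_mem _ hx g⁻¹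
        rwa [inv_inv] at h7
  rw [h6] at h5
  exact Nat.modEq_zero_iff_dvd.mp (h5.symm.trans (Nat.modEq_zero_iff_dvd.mpr h2))

theorem mil_fix_le {G : Type*} [Group G] [Finite G] (p : ℕ) [Fact p.Prime] (P : Sylow p G)
    (C : Subgroup G) (hCp : IsPGroup p C)
    (hfix : ∀ g ∈ (P : Subgroup G), C.map (MulAut.conj g).toMonoidHom = C) :
    C ≤ (P : Subgroup G) := by
  have hN : (P : Subgroup G) ≤ Subgroup.normalizer (C : Set G) := by
    intro g hg
    rw [Subgroup.mem_normalizer_iff]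
    intro n
    have h1 := hfix g hg
    have h2 := mil_mem_map_conj C g (g * n * g⁻¹)
    rw [h1] at h2
    have e : g⁻¹ * (g * n * g⁻¹) * g = n := by group
    rw [e] at h2
    exact h2.symm
  have h3 := IsPGroup.to_sup_of_normal_right' P.isPGroup' hCp hN
  have h4 := P.is_maximal' h3 le_sup_left
  rw [← h4]
  exact le_sup_right

theorem mil_dvd_card_T {G : Type*} [Group G] [Finite G] (p : ℕ) [Fact p.Prime] (hodd : p ≠ 2)
    (P : Sylow p G) (hP : ¬ IsCyclic ↥(P : Subgroup G)) (s : ℕ) (hs : 1 < s) (m : ℕ) :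
    p ∣ Nat.card {t : Subgroup G × G // (IsCyclic t.1 ∧ Nat.card t.1 = p ^ s) ∧
      orderOf t.2 = m ∧ ∀ c ∈ t.1, Commute c t.2} := by
  have hp : p.Prime := Fact.out
  letI : MulAction ↥(P : Subgroup G) (Subgroup G × G) := milActP (P : Subgroup G).subtype
  have hinv : ∀ g : ↥(P : Subgroup G), ∀ t ∈ {t : Subgroup G × G |
      (IsCyclic t.1 ∧ Nat.card t.1 = p ^ s) ∧ orderOf t.2 = m ∧ ∀ c ∈ t.1, Commute c t.2},
      g • t ∈ {t : Subgroup G × G |
        (IsCyclic t.1 ∧ Nat.card t.1 = p ^ s) ∧ orderOf t.2 = m ∧ ∀ c ∈ t.1, Commute c t.2} := by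
    rintro g ⟨C, h⟩ ⟨⟨hC1, hC2⟩, hm, hcomm⟩
    refine ⟨⟨(mil_map_conj_cyc C g hC1).1, (mil_map_conj_cyc C g hC1).2.trans hC2⟩, ?_, ?_⟩
    · show orderOf ((g : G) * h * (g : G)⁻¹) = m
      rw [← hm]
      exact (MulAut.conj (g : G)).orderOf_eq h
    · intro c hc
      have hc' : c ∈ C.map (MulAut.conj (g : G)).toMonoidHom := hc
      rw [mil_mem_map_conj] at hc'
      have h1 := hcomm _ hc'
      show Commute c ((g : G) * h * (g : G)⁻¹)
      have h2 : c = (g : G) * ((g : G)⁻¹ * c * (g : G)) * (g : G)⁻¹ := by group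
      rw [h2]
      exact mil_commute_conj _ _ _ h1
  have h5 := mil_card_modEq_fixed p P.isPGroup' {t : Subgroup G × G |
      (IsCyclic t.1 ∧ Nat.card t.1 = p ^ s) ∧ orderOf t.2 = m ∧ ∀ c ∈ t.1, Commute c t.2} hinv
  have h6 : p ∣ Nat.card {t : Subgroup G × G // t ∈ {t : Subgroup G × G |
      (IsCyclic t.1 ∧ Nat.card t.1 = p ^ s) ∧ orderOf t.2 = m ∧ ∀ c ∈ t.1, Commute c t.2} ∧
      ∀ g : ↥(P : Subgroup G), g • t = t} := by
    have hNC := mil_dvd_card_normal_cyc (Q := ↥(P : Subgroup G)) p hodd P.isPGroup' hP s hs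
    have hF : ∀ x : {C : Subgroup ↥(P : Subgroup G) //
          (IsCyclic C ∧ Nat.card C = p ^ s) ∧ C.Normal} ×
        {h : G // orderOf h = m ∧ ∀ q ∈ (P : Subgroup G), Commute q h},
        ((x.1.1.map (P : Subgroup G).subtype, x.2.1) : Subgroup G × G) ∈ {t : Subgroup G × G |
          (IsCyclic t.1 ∧ Nat.card t.1 = p ^ s) ∧ orderOf t.2 = m ∧ ∀ c ∈ t.1, Commute c t.2} ∧
        ∀ g : ↥(P : Subgroup G),
          g • ((x.1.1.map (P : Subgroup G).subtype, x.2.1) : Subgroup G × G) =
            (x.1.1.map (P : Subgroup G).subtype, x.2.1) := by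
      rintro ⟨⟨C', ⟨hc1, hc2⟩, hn⟩, ⟨h, hm, hcom⟩⟩
      have hinj : Function.Injective (P : Subgroup G).subtype := Subgroup.subtype_injective _
      refine ⟨⟨⟨?_, ?_⟩, hm, ?_⟩, ?_⟩
      · haveI := hc1
        exact isCyclic_of_surjective (C'.equivMapOfInjective _ hinj)
          (C'.equivMapOfInjective _ hinj).surjective
      · exact (Subgroup.card_map_of_injective hinj).trans hc2
      · rintro c ⟨c', hc', rfl⟩
        exact hcom _ c'.2
      · intro g
        refine Prod.ext ?_ ?_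
        · show (C'.map (P : Subgroup G).subtype).map (MulAut.conj (g : G)).toMonoidHom =
            C'.map (P : Subgroup G).subtype
          ext x
          rw [mil_mem_map_conj]
          constructor
          · rintro ⟨c', hc', hcx⟩
            refine ⟨g * c' * g⁻¹, hn.conj_mem _ hc' g, ?_⟩
            show (g : G) * (c' : G) * (g : G)⁻¹ = x
            have hcx' : (c' : G) = (g : G)⁻¹ * x * (g : G) := hcx
            rw [hcx']
            group
          · rintro ⟨c', hc', rfl⟩
            refine ⟨g⁻¹ * c' * g, ?_, rfl⟩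
            have h7 := hn.conj_mem _ hc' g⁻¹
            rwa [inv_inv] at h7
        · show (g : G) * h * (g : G)⁻¹ = h
          exact mul_inv_eq_iff_eq_mul.mpr (hcom _ g.2).eq
    have e : Nat.card ({C : Subgroup ↥(P : Subgroup G) //
          (IsCyclic C ∧ Nat.card C = p ^ s) ∧ C.Normal} ×
        {h : G // orderOf h = m ∧ ∀ q ∈ (P : Subgroup G), Commute q h}) =
        Nat.card {t : Subgroup G × G // t ∈ {t : Subgroup G × G |
          (IsCyclic t.1 ∧ Nat.card t.1 = p ^ s) ∧ orderOf t.2 = m ∧ ∀ c ∈ t.1, Commute c t.2} ∧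
          ∀ g : ↥(P : Subgroup G), g • t = t} := by
      apply Nat.card_eq_of_bijective (fun x => ⟨(x.1.1.map (P : Subgroup G).subtype, x.2.1), hF x⟩)
      constructor
      · rintro ⟨⟨C1, hC1⟩, ⟨h1, hh1⟩⟩ ⟨⟨C2, hC2⟩, ⟨h2, hh2⟩⟩ hxy
        have h7 := congrArg Subtype.val hxy
        have h8 : C1.map (P : Subgroup G).subtype = C2.map (P : Subgroup G).subtype :=
          congrArg Prod.fst h7
        have h9 : h1 = h2 := congrArg Prod.snd h7
        have h10 : C1 = C2 := Subgroup.map_injective (Subgroup.subtype_injective _) h8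
        subst h9
        subst h10
        rfl
      · rintro ⟨⟨C, h⟩, ⟨⟨hC1, hC2⟩, hm, hcomm⟩, hfix⟩
        have hfix1 : ∀ g ∈ (P : Subgroup G), C.map (MulAut.conj g).toMonoidHom = C :=
          fun g hg => congrArg Prod.fst (hfix ⟨g, hg⟩)
        have hfix2 : ∀ g ∈ (P : Subgroup G), g * h * g⁻¹ = h :=
          fun g hg => congrArg Prod.snd (hfix ⟨g, hg⟩)
        have hCp : IsPGroup p C := IsPGroup.of_card hC2
        have hle : C ≤ (P : Subgroup G) := mil_fix_le p P C hCp hfix1
        have hcyc : IsCyclic ↥(C.subgroupOf (P : Subgroup G)) := by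
          haveI := hC1
          exact isCyclic_of_surjective (Subgroup.subgroupOfEquivOfLe hle).symm
            (Subgroup.subgroupOfEquivOfLe hle).symm.surjective
        have hcard : Nat.card ↥(C.subgroupOf (P : Subgroup G)) = p ^ s :=
          (Nat.card_congr (Subgroup.subgroupOfEquivOfLe hle).toEquiv).trans hC2
        have hnorm : (C.subgroupOf (P : Subgroup G)).Normal := by
          refine ⟨fun n hn g => ?_⟩
          rw [Subgroup.mem_subgroupOf] at hn ⊢
          have h7 : (g : G) * (n : G) * (g : G)⁻¹ ∈ C.map (MulAut.conj (g : G)).toMonoidHom :=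
            ⟨(n : G), hn, rfl⟩
          rw [hfix1 _ g.2] at h7
          exact h7
        refine ⟨(⟨C.subgroupOf (P : Subgroup G), ⟨hcyc, hcard⟩, hnorm⟩,
          ⟨h, hm, fun q hq => ?_⟩), ?_⟩
        · exact mul_inv_eq_iff_eq_mul.mp (hfix2 q hq)
        · apply Subtype.ext
          exact Prod.ext (Subgroup.map_subgroupOf_eq_of_le hle) rfl
    rw [← e, Nat.card_prod]
    exact dvd_mul_of_dvd_left hNC _
  exact Nat.modEq_zero_iff_dvd.mp (h5.trans (Nat.modEq_zero_iff_dvd.mpr h6))

theorem mil_card_pairs_T {G : Type*} [Group G] [Finite G] (a m : ℕ) :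
    Nat.card {x : G × G // Commute x.1 x.2 ∧ orderOf x.1 = a ∧ orderOf x.2 = m} =
      a.totient * Nat.card {t : Subgroup G × G // (IsCyclic t.1 ∧ Nat.card t.1 = a) ∧
        orderOf t.2 = m ∧ ∀ c ∈ t.1, Commute c t.2} := by
  have hf : ∀ x : {x : G × G // Commute x.1 x.2 ∧ orderOf x.1 = a ∧ orderOf x.2 = m},
      (IsCyclic ↥(Subgroup.zpowers x.1.1) ∧ Nat.card ↥(Subgroup.zpowers x.1.1) = a) ∧
        orderOf x.1.2 = m ∧ ∀ c ∈ Subgroup.zpowers x.1.1, Commute c x.1.2 := by
    intro x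
    refine ⟨⟨inferInstance, by rw [Nat.card_zpowers]; exact x.2.2.1⟩, x.2.2.2, ?_⟩
    intro c hc
    obtain ⟨k, rfl⟩ := Subgroup.mem_zpowers_iff.mp hc
    exact x.2.1.zpow_left k
  apply mil_card_eq_mul
    (fun x : {x : G × G // Commute x.1 x.2 ∧ orderOf x.1 = a ∧ orderOf x.2 = m} =>
      (⟨(Subgroup.zpowers x.1.1, x.1.2), hf x⟩ :
        {t : Subgroup G × G // (IsCyclic t.1 ∧ Nat.card t.1 = a) ∧
          orderOf t.2 = m ∧ ∀ c ∈ t.1, Commute c t.2}))
  rintro ⟨⟨C, h⟩, ⟨hC1, rfl⟩, hm, hcomm⟩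
  haveI := hC1
  rw [← mil_card_gen C]
  apply Nat.card_congr
  refine
    { toFun := fun x => ⟨x.1.1.1, congrArg (fun t => t.1.1) x.2⟩
      invFun := fun u => ⟨⟨(u.1, h), ?_, ?_, hm⟩, Subtype.ext (Prod.ext u.2 rfl)⟩
      left_inv := ?_
      right_inv := fun u => rfl }
  · apply hcomm
    show u.1 ∈ C
    exact (SetLike.ext_iff.mp u.2 u.1).mp (Subgroup.mem_zpowers _)
  · rw [← Nat.card_zpowers, u.2]
  · intro x
    have h2 : x.1.1.2 = h := congrArg (fun t => t.1.2) x.2
    apply Subtype.ext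
    apply Subtype.ext
    exact Prod.ext rfl h2.symm

theorem mil_card_pairs {G : Type*} [Group G] [Finite G] (a b : ℕ) (hab : Nat.Coprime a b) :
    Nat.card {g : G // orderOf g = a * b} =
      Nat.card {x : G × G // Commute x.1 x.2 ∧ orderOf x.1 = a ∧ orderOf x.2 = b} := by
  symm
  obtain ⟨e, he1, he2⟩ := Nat.chineseRemainder hab 1 0
  obtain ⟨e', he1', he2'⟩ := Nat.chineseRemainder hab 0 1
  have hF : ∀ x : {x : G × G // Commute x.1 x.2 ∧ orderOf x.1 = a ∧ orderOf x.2 = b},
      orderOf (x.1.1 * x.1.2) = a * b := by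
    rintro ⟨⟨u, h⟩, hc, hu, hh⟩
    show orderOf (u * h) = a * b
    rw [hc.orderOf_mul_eq_mul_orderOf_of_coprime (by rw [hu, hh]; exact hab), hu, hh]
  have hrec : ∀ x : {x : G × G // Commute x.1 x.2 ∧ orderOf x.1 = a ∧ orderOf x.2 = b},
      (x.1.1 * x.1.2) ^ e = x.1.1 ∧ (x.1.1 * x.1.2) ^ e' = x.1.2 := by
    rintro ⟨⟨u, h⟩, hc, hu, hh⟩
    show (u * h) ^ e = u ∧ (u * h) ^ e' = h
    have h1 : u ^ e = u := by
      have := (pow_eq_pow_iff_modEq (x := u) (n := e) (m := 1)).mpr (by rw [hu]; exact he1)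
      rwa [pow_one] at this
    have h2 : h ^ e = 1 := by
      have := (pow_eq_pow_iff_modEq (x := h) (n := e) (m := 0)).mpr (by rw [hh]; exact he2)
      rwa [pow_zero] at this
    have h3 : u ^ e' = 1 := by
      have := (pow_eq_pow_iff_modEq (x := u) (n := e') (m := 0)).mpr (by rw [hu]; exact he1')
      rwa [pow_zero] at this
    have h4 : h ^ e' = h := by
      have := (pow_eq_pow_iff_modEq (x := h) (n := e') (m := 1)).mpr (by rw [hh]; exact he2')
      rwa [pow_one] at this
    rw [hc.mul_pow, hc.mul_pow, h1, h2, h3, h4, mul_one, one_mul]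
    exact ⟨rfl, rfl⟩
  apply Nat.card_eq_of_bijective (fun x => (⟨x.1.1 * x.1.2, hF x⟩ : {g : G // orderOf g = a * b}))
  constructor
  · intro x y hxy
    have h1 : x.1.1 * x.1.2 = y.1.1 * y.1.2 := congrArg Subtype.val hxy
    apply Subtype.ext
    refine Prod.ext ?_ ?_
    · rw [← (hrec x).1, ← (hrec y).1, h1]
    · rw [← (hrec x).2, ← (hrec y).2, h1]
  · rintro ⟨g, hg⟩
    have hpos : 0 < a * b := by rw [← hg]; exact orderOf_pos g
    have ha : 0 < a := Nat.pos_of_ne_zero (fun h => by simp [h] at hpos)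
    have hb : 0 < b := Nat.pos_of_ne_zero (fun h => by simp [h] at hpos)
    have hcomm : Commute (g ^ e) (g ^ e') := (Commute.refl g).pow_pow e e'
    have hmul : g ^ e * g ^ e' = g := by
      rw [← pow_add]
      have h1 : e + e' ≡ 1 [MOD a * b] := by
        apply (Nat.modEq_and_modEq_iff_modEq_mul hab).mp
        exact ⟨by simpa using he1.add he1', by simpa using he2.add he2'⟩
      have := (pow_eq_pow_iff_modEq (x := g) (n := e + e') (m := 1)).mpr (by rw [hg]; exact h1)
      rwa [pow_one] at this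
    have hu : orderOf (g ^ e) ∣ a := by
      apply orderOf_dvd_of_pow_eq_one
      obtain ⟨c, hc⟩ := (Nat.modEq_zero_iff_dvd).mp he2
      rw [← pow_mul, hc, show b * c * a = (a * b) * c by ring, pow_mul, ← hg,
        pow_orderOf_eq_one, one_pow]
    have hh : orderOf (g ^ e') ∣ b := by
      apply orderOf_dvd_of_pow_eq_one
      obtain ⟨c, hc⟩ := (Nat.modEq_zero_iff_dvd).mp he1'
      rw [← pow_mul, hc, show a * c * b = (a * b) * c by ring, pow_mul, ← hg,
        pow_orderOf_eq_one, one_pow]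
    have hcop : (orderOf (g ^ e)).Coprime (orderOf (g ^ e')) :=
      Nat.Coprime.coprime_dvd_left hu (Nat.Coprime.coprime_dvd_right hh hab)
    have hprod : orderOf (g ^ e) * orderOf (g ^ e') = a * b := by
      rw [← hcomm.orderOf_mul_eq_mul_orderOf_of_coprime hcop, hmul, hg]
    have hua : orderOf (g ^ e) = a := by
      apply Nat.dvd_antisymm hu
      apply Nat.dvd_of_mul_dvd_mul_right hb
      rw [← hprod]
      exact Nat.mul_dvd_mul_left _ hh
    have hhb : orderOf (g ^ e') = b := by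
      apply Nat.dvd_antisymm hh
      apply Nat.dvd_of_mul_dvd_mul_left ha
      rw [← hprod]
      exact Nat.mul_dvd_mul_right hu _
    exact ⟨⟨(g ^ e, g ^ e'), hcomm, hua, hhb⟩, Subtype.ext hmul⟩

/-- The number of elements of order `p^s m` is divisible by `p^s` when the Sylow `p`-subgroups
are non-cyclic, `p` odd, `s ≥ 2`. -/
theorem mil_main {G : Type*} [Group G] [Finite G] (p : ℕ) [Fact p.Prime] (hodd : p ≠ 2)
    (P : Sylow p G) (hP : ¬ IsCyclic ↥(P : Subgroup G)) (s m : ℕ) (hs : 1 < s)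
    (hm : Nat.Coprime p m) : p ^ s ∣ Nat.card {g : G // orderOf g = p ^ s * m} := by
  have hp : p.Prime := Fact.out
  rw [mil_card_pairs (p ^ s) m (Nat.Coprime.pow_left s hm), mil_card_pairs_T (p ^ s) m,
    Nat.totient_prime_pow hp (by omega)]
  obtain ⟨k, hk⟩ := mil_dvd_card_T p hodd P hP s hs m
  rw [hk]
  have e : p ^ s = p ^ (s - 1) * p := by
    rw [← pow_succ]
    congr 1
    omega
  rw [e]
  exact ⟨(p - 1) * k, by ring⟩

end Cfsg.Agent.Helper22
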