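import Mathlib

set_option autoImplicit false

namespace Cfsg.Agent.Helper22

section fpf
variable {G : Type*} [Group G] [Finite G]

theorem oc_fpf_surj (N : Subgroup G) (x : G)
    (hx : ∀ n ∈ N, x * n * x⁻¹ ∈ N) (hfpf : ∀ n ∈ N, x * n = n * x → n = 1) :
    ∀ n ∈ N, ∃ m ∈ N, n = m⁻¹ * (x * m * x⁻¹) := by
  classical
  let f : N → N := fun m => ⟨(m:G)⁻¹ * (x * m * x⁻¹), N.mul_mem (N.inv_mem m.2) (hx _ m.2)⟩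
  have hinj : Function.Injective f := by
    intro a b hab
    have h1 : (a:G)⁻¹ * (x * a * x⁻¹) = (b:G)⁻¹ * (x * b * x⁻¹) := congrArg Subtype.val hab
    have h2 : x * ((b:G) * (a:G)⁻¹) = ((b:G) * (a:G)⁻¹) * x := by
      have e1 : (b:G) * ((a:G)⁻¹ * (x * a * x⁻¹)) * x * (a:G)⁻¹ = (b:G) * (a:G)⁻¹ * x := by group
      have e2 : (b:G) * ((b:G)⁻¹ * (x * b * x⁻¹)) * x * (a:G)⁻¹ = x * ((b:G) * (a:G)⁻¹) := by group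
      rw [← e2, ← h1, e1]
    have h3 := hfpf _ (N.mul_mem b.2 (N.inv_mem a.2)) h2
    rw [mul_inv_eq_one] at h3
    exact Subtype.ext h3.symm
  have hsurj : Function.Surjective f := Finite.surjective_of_injective hinj
  intro n hn
  obtain ⟨m, hm⟩ := hsurj ⟨n, hn⟩
  exact ⟨m, m.2, (congrArg Subtype.val hm).symm⟩

theorem oc_fpf_inv (N : Subgroup G) (t : G) (ht : t * t = 1)
    (hx : ∀ n ∈ N, t * n * t⁻¹ ∈ N) (hfpf : ∀ n ∈ N, t * n = n * t → n = 1) :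
    ∀ n ∈ N, t * n * t⁻¹ = n⁻¹ := by
  intro n hn
  obtain ⟨m, hm, rfl⟩ := oc_fpf_surj N t hx hfpf n hn
  have e : t * (m⁻¹ * (t * m * t⁻¹)) * t⁻¹ = t * m⁻¹ * t⁻¹ * (t * t) * m * (t * t)⁻¹ := by group
  rw [e, ht]; group

theorem oc_fpf_three (N : Subgroup G) (x : G) (hx3 : x * x * x = 1)
    (hx : ∀ n ∈ N, x * n * x⁻¹ ∈ N) (hfpf : ∀ n ∈ N, x * n = n * x → n = 1) :
    ∀ n ∈ N, n * (x * n * x⁻¹) * (x⁻¹ * n * x) = 1 := by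
  intro n hn
  obtain ⟨m, hm, rfl⟩ := oc_fpf_surj N x hx hfpf n hn
  have e : (m⁻¹ * (x * m * x⁻¹)) * (x * (m⁻¹ * (x * m * x⁻¹)) * x⁻¹) *
      (x⁻¹ * (m⁻¹ * (x * m * x⁻¹)) * x)
      = m⁻¹ * x * x * m * (x * x * x)⁻¹ * m⁻¹ * x * m := by group
  rw [e, hx3]
  have e2 : m⁻¹ * x * x * m * 1⁻¹ * m⁻¹ * x * m = m⁻¹ * (x * x * x) * m := by group
  rw [e2, hx3]; group

theorem oc_fpf_three_comm (N : Subgroup G) (x : G) (hx3 : x * x * x = 1)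
    (hx : ∀ n ∈ N, x * n * x⁻¹ ∈ N) (hfpf : ∀ n ∈ N, x * n = n * x → n = 1) :
    ∀ n ∈ N, (x * n * x⁻¹) * n = n * (x * n * x⁻¹) := by
  intro n hn
  have h1 := oc_fpf_three N x hx3 hx hfpf n hn
  have h2 := oc_fpf_three N x hx3 hx hfpf n⁻¹ (N.inv_mem hn)
  have h1' : n * (x * n * x⁻¹) = (x⁻¹ * n * x)⁻¹ := eq_inv_of_mul_eq_one_left h1
  have h2' : (x * n * x⁻¹) * n = (x⁻¹ * n * x)⁻¹ := by
    have h3 : (x⁻¹ * n * x) * ((x * n * x⁻¹) * n) = 1 := by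
      have h4 : (x⁻¹ * n * x) * ((x * n * x⁻¹) * n)
          = (n⁻¹ * (x * n⁻¹ * x⁻¹) * (x⁻¹ * n⁻¹ * x))⁻¹ := by
        simp only [mul_inv_rev, inv_inv, mul_assoc]
      rw [h4, h2, inv_one]
    exact eq_inv_of_mul_eq_one_right h3
  rw [h1', h2']

theorem oc_fpf_three_conj_comm (N : Subgroup G) (x : G) (hx3 : x * x * x = 1)
    (hx : ∀ n ∈ N, x * n * x⁻¹ ∈ N) (hfpf : ∀ n ∈ N, x * n = n * x → n = 1) :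
    ∀ n ∈ N, ∀ k ∈ N, Commute n (k * (x * n * x⁻¹) * k⁻¹) := by
  intro n hn k hk
  obtain ⟨m, hm, rfl⟩ := oc_fpf_surj N x hx hfpf k hk
  have h1 := oc_fpf_three_comm N x hx3 hx hfpf (m * n * m⁻¹)
    (N.mul_mem (N.mul_mem hm hn) (N.inv_mem hm))
  unfold Commute SemiconjBy
  have e1 : n * ((m⁻¹ * (x * m * x⁻¹)) * (x * n * x⁻¹) * (m⁻¹ * (x * m * x⁻¹))⁻¹)
      = m⁻¹ * ((m * n * m⁻¹) * (x * (m * n * m⁻¹) * x⁻¹)) * m := by group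
  have e2 : ((m⁻¹ * (x * m * x⁻¹)) * (x * n * x⁻¹) * (m⁻¹ * (x * m * x⁻¹))⁻¹) * n
      = m⁻¹ * ((x * (m * n * m⁻¹) * x⁻¹) * (m * n * m⁻¹)) * m := by group
  rw [e1, e2, h1]

theorem oc_fpf_three_engel (N : Subgroup G) (x : G) (hx3 : x * x * x = 1)
    (hx : ∀ n ∈ N, x * n * x⁻¹ ∈ N) (hfpf : ∀ n ∈ N, x * n = n * x → n = 1) :
    ∀ n ∈ N, ∀ k ∈ N, Commute n (k * n * k⁻¹) := by
  intro n hn k hk
  have hxi3 : x⁻¹ * x⁻¹ * x⁻¹ = 1 := by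
    have e : x⁻¹ * x⁻¹ * x⁻¹ = (x * x * x)⁻¹ := by group
    rw [e, hx3, inv_one]
  have hxi : ∀ n ∈ N, x⁻¹ * n * x⁻¹⁻¹ ∈ N := by
    intro n hn
    have e : x⁻¹ * n * x⁻¹⁻¹ = (x * x * x)⁻¹ * (x * (x * n * x⁻¹) * x⁻¹) * (x * x * x) := by group
    rw [e, hx3, inv_one, one_mul, mul_one]
    exact hx _ (hx _ hn)
  have hfpfi : ∀ n ∈ N, x⁻¹ * n = n * x⁻¹ → n = 1 := by
    intro n hn h
    apply hfpf n hn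
    have e : x * n = x * (n * x⁻¹) * x := by group
    rw [e, ← h]; group
  have h1 := oc_fpf_three_conj_comm N x hx3 hx hfpf n hn k hk
  have h2 := oc_fpf_three_conj_comm N x⁻¹ hxi3 hxi hfpfi n hn k hk
  rw [inv_inv] at h2
  have h3 := oc_fpf_three N x hx3 hx hfpf n hn
  rw [mul_assoc] at h3
  have h4 : (x * n * x⁻¹) * (x⁻¹ * n * x) = n⁻¹ := eq_inv_of_mul_eq_one_right h3
  have h5 : Commute n (k * n⁻¹ * k⁻¹) := by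
    have e : k * n⁻¹ * k⁻¹ = (k * (x * n * x⁻¹) * k⁻¹) * (k * (x⁻¹ * n * x) * k⁻¹) := by
      rw [← h4]; group
    rw [e]; exact h1.mul_right h2
  have e : k * n * k⁻¹ = (k * n⁻¹ * k⁻¹)⁻¹ := by group
  rw [e]; exact h5.inv_right

end fpf

section engel
open scoped commutatorElement
variable {H : Type*} [Group H]

theorem oc_T3 (hcj : ∀ a b c g : H, g * ⁅⁅a,b⁆,c⁆ * g⁻¹ = ⁅⁅a,b⁆,c⁆) (a b c d : H) :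
    ⁅⁅a,b⁆, c * d⁆ = ⁅⁅a,b⁆,c⁆ * ⁅⁅a,b⁆,d⁆ := by
  have e : ⁅⁅a,b⁆, c * d⁆ = ⁅⁅a,b⁆,c⁆ * (c * ⁅⁅a,b⁆,d⁆ * c⁻¹) := by group
  rw [e, hcj]

theorem oc_T12 (hcj : ∀ a b c g : H, g * ⁅⁅a,b⁆,c⁆ * g⁻¹ = ⁅⁅a,b⁆,c⁆) (a b c : H) :
    ⁅⁅b,a⁆,c⁆ = ⁅⁅a,b⁆,c⁆⁻¹ := by
  have e : ⁅⁅b,a⁆,c⁆ = (⁅a,b⁆⁻¹ * ⁅⁅a,b⁆,c⁆ * (⁅a,b⁆⁻¹)⁻¹)⁻¹ := by group
  rw [e, hcj]

theorem oc_T2 (hcj : ∀ a b c g : H, g * ⁅⁅a,b⁆,c⁆ * g⁻¹ = ⁅⁅a,b⁆,c⁆) (a b c d : H) :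
    ⁅⁅a, b * c⁆, d⁆ = ⁅⁅a,b⁆,d⁆ * ⁅⁅a,c⁆,d⁆ := by
  have hc : ∀ a b c g : H, g * ⁅⁅a,b⁆,c⁆ = ⁅⁅a,b⁆,c⁆ * g := by
    intro a b c g
    have := hcj a b c g
    rwa [mul_inv_eq_iff_eq_mul] at this
  have e1 : ⁅a, b * c⁆ = (⁅a,b⁆ * ⁅⁅a,c⁆,b⁆ * ⁅a,b⁆⁻¹)⁻¹ * (⁅a,b⁆ * ⁅a,c⁆) := by group
  rw [hcj a c b ⁅a,b⁆] at e1
  have e2 : ⁅⁅⁅a,c⁆,b⁆⁻¹ * (⁅a,b⁆ * ⁅a,c⁆), d⁆
      = ⁅⁅a,c⁆,b⁆⁻¹ * ((⁅a,b⁆ * ⁅a,c⁆) * d * (⁅a,b⁆ * ⁅a,c⁆)⁻¹ * ⁅⁅a,c⁆,b⁆) * d⁻¹ := by group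
  rw [e1, e2, hc a c b, inv_mul_cancel_left]
  have e3 : ⁅a,b⁆ * ⁅a,c⁆ * d * (⁅a,b⁆ * ⁅a,c⁆)⁻¹ * d⁻¹
      = (⁅a,b⁆ * ⁅⁅a,c⁆,d⁆ * ⁅a,b⁆⁻¹) * ⁅⁅a,b⁆,d⁆ := by group
  rw [e3, hcj a c d ⁅a,b⁆, hc a b d]

theorem oc_engel_step (hcj : ∀ a b c g : H, g * ⁅⁅a,b⁆,c⁆ * g⁻¹ = ⁅⁅a,b⁆,c⁆)
    (hE : ∀ a g : H, Commute a (g * a * g⁻¹)) (a b c : H) :
    ⁅⁅a,b⁆,c⁆ * ⁅⁅a,b⁆,c⁆ * ⁅⁅a,b⁆,c⁆ = 1 := by
  have T3 := oc_T3 hcj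
  have T2 := oc_T2 hcj
  have T12 := oc_T12 hcj
  have hEng : ∀ a g : H, ⁅⁅a,g⁆,g⁆ = 1 := by
    intro a g
    rw [commutatorElement_eq_one_iff_commute]
    have h1 : Commute (a * g * a⁻¹) g := (hE g a).symm
    have h2 : Commute (g⁻¹) g := (Commute.refl g).inv_left
    rw [commutatorElement_def]
    exact h1.mul_left h2
  have T23 : ∀ a b c : H, ⁅⁅a,c⁆,b⁆ = ⁅⁅a,b⁆,c⁆⁻¹ := by
    intro a b c
    have h := hEng a (b * c)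
    rw [T3, T2, T2, hEng, hEng, one_mul, mul_one] at h
    exact eq_inv_of_mul_eq_one_left h
  have I3 : ∀ a b c : H, ⁅⁅a,b⁆,c⁻¹⁆ = ⁅⁅a,b⁆,c⁆⁻¹ := by
    intro a b c
    have h := T3 a b c c⁻¹
    rw [mul_inv_cancel, commutatorElement_one_right] at h
    exact eq_inv_of_mul_eq_one_right h.symm
  have I2 : ∀ a b c : H, ⁅⁅a,b⁻¹⁆,c⁆ = ⁅⁅a,b⁆,c⁆⁻¹ := by
    intro a b c
    have h := T2 a b b⁻¹ c
    rw [mul_inv_cancel, commutatorElement_one_right, commutatorElement_one_left] at h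
    exact eq_inv_of_mul_eq_one_right h.symm
  have I1 : ∀ a b c : H, ⁅⁅a⁻¹,b⁆,c⁆ = ⁅⁅a,b⁆,c⁆⁻¹ := by
    intro a b c
    rw [T12 b a⁻¹ c, I2, T12 a b c, inv_inv]
  have HW : ⁅⁅a,b⁆,c⁆⁻¹ = ⁅⁅c⁻¹,a⁻¹⁆,b⁆ * ⁅⁅b⁻¹,c⁆,a⁻¹⁆ := by
    have e : ⁅⁅a,b⁆,c⁆⁻¹ = (a * c) * ⁅⁅c⁻¹,a⁻¹⁆,b⁆ * (a * c)⁻¹ *
        ((a * b) * ⁅⁅b⁻¹,c⁆,a⁻¹⁆ * (a * b)⁻¹) := by group
    rw [e, hcj, hcj]
  have h1 : ⁅⁅c⁻¹,a⁻¹⁆,b⁆ = ⁅⁅a,b⁆,c⁆ := by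
    rw [I1, I2, inv_inv, T12 a c b, T23 a b c, inv_inv]
  have h2 : ⁅⁅b⁻¹,c⁆,a⁻¹⁆ = ⁅⁅a,b⁆,c⁆ := by
    rw [I3, I1, inv_inv, T23 b a c, T12 a b c, inv_inv]
  rw [h1, h2] at HW
  rw [← HW]; exact inv_mul_cancel _

theorem oc_engel_class_two (H : Type*) [Group H] [Group.IsNilpotent H] :
    IsPGroup 2 H → (∀ a g : H, Commute a (g * a * g⁻¹)) → ∀ a b c : H, ⁅⁅a,b⁆,c⁆ = 1 := by
  refine Group.nilpotent_center_quotient_ind (P := fun H _ _ => IsPGroup 2 H →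
    (∀ a g : H, Commute a (g * a * g⁻¹)) → ∀ a b c : H, ⁅⁅a,b⁆,c⁆ = 1) H ?_ ?_
  · intro H _ _ _ _ a b c; exact Subsingleton.elim _ _
  · intro H _ _ ih h2 hE a b c
    have hq : ∀ a b c : H, ⁅⁅a,b⁆,c⁆ ∈ Subgroup.center H := by
      intro a b c
      have h := ih (h2.to_quotient (Subgroup.center H)) (by
        intro a' g'
        obtain ⟨a', rfl⟩ := QuotientGroup.mk_surjective a'
        obtain ⟨g', rfl⟩ := QuotientGroup.mk_surjective g'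
        have := (hE a' g').map (QuotientGroup.mk' (Subgroup.center H))
        simpa using this) (QuotientGroup.mk a) (QuotientGroup.mk b) (QuotientGroup.mk c)
      have e : (QuotientGroup.mk' (Subgroup.center H)) ⁅⁅a,b⁆,c⁆ = 1 := by
        rw [map_commutatorElement, map_commutatorElement]; exact h
      exact (QuotientGroup.eq_one_iff _).mp e
    have hcj : ∀ a b c g : H, g * ⁅⁅a,b⁆,c⁆ * g⁻¹ = ⁅⁅a,b⁆,c⁆ := by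
      intro a b c g
      have := Subgroup.mem_center_iff.mp (hq a b c) g
      rw [this, mul_inv_cancel_right]
    have h3 := oc_engel_step hcj hE a b c
    obtain ⟨k, hk⟩ := h2 ⁅⁅a,b⁆,c⁆
    have d3 : orderOf ⁅⁅a,b⁆,c⁆ ∣ 3 := orderOf_dvd_of_pow_eq_one (by
      rw [pow_succ, pow_two]; exact h3)
    have d2 : orderOf ⁅⁅a,b⁆,c⁆ ∣ 2 ^ k := orderOf_dvd_of_pow_eq_one hk
    have hg : Nat.gcd 3 (2 ^ k) = 1 := Nat.Coprime.pow_right k (by norm_num)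
    have := Nat.dvd_gcd d3 d2
    rw [hg] at this
    exact orderOf_eq_one_iff.mp (Nat.dvd_one.mp this)

theorem oc_class_le_two (H : Type*) [Group H] [Finite H] (h2 : IsPGroup 2 H)
    (hE : ∀ a g : H, Commute a (g * a * g⁻¹)) : Group.nilpotencyClass H ≤ 2 := by
  haveI : Fact (Nat.Prime 2) := ⟨Nat.prime_two⟩
  haveI : Group.IsNilpotent H := h2.isNilpotent
  have hT := oc_engel_class_two H h2 hE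
  rw [← Subgroup.upperCentralSeries_eq_top_iff_nilpotencyClass_le, eq_top_iff]
  intro x _
  rw [show (2:ℕ) = 1 + 1 from rfl, Subgroup.mem_upperCentralSeries_succ_iff]
  intro y
  rw [Subgroup.upperCentralSeries_one, Subgroup.mem_center_iff]
  intro g
  have := hT x y g
  rw [commutatorElement_eq_one_iff_commute] at this
  exact this.eq.symm

end engel

end Cfsg.Agent.Helper22
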