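import Mathlib

set_option autoImplicit false

namespace Cfsg.Agent.Helper22

section q8
variable {Q : Type*} [Group Q]

theorem oc_q_sq (t : Q)
    (h1 : ∀ q : Q, q * q = 1 → q = 1 ∨ q = t) (h2 : ∀ q : Q, q * q = 1 ∨ q * q = t)
    (a b : Q) (ha : a * a = t) (hb : b ∉ Subgroup.zpowers a) : b * b = t := by
  have hb1 : b ≠ 1 := fun h => hb (h ▸ Subgroup.one_mem _)
  have hbt : b ≠ t := fun h => hb (by
    rw [h, ← ha]
    exact Subgroup.mul_mem _ (Subgroup.mem_zpowers a) (Subgroup.mem_zpowers a))
  rcases h2 b with h | h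
  · rcases h1 b h with h' | h'
    · exact absurd h' hb1
    · exact absurd h' hbt
  · exact h

theorem oc_q_inv (t : Q) (htt : t * t = 1)
    (h1 : ∀ q : Q, q * q = 1 → q = 1 ∨ q = t) (h2 : ∀ q : Q, q * q = 1 ∨ q * q = t)
    (a b : Q) (ha : a * a = t) (hb : b ∉ Subgroup.zpowers a) : b * a * b⁻¹ = a⁻¹ := by
  have hbb : b * b = t := oc_q_sq t h1 h2 a b ha hb
  have hab : (a * b) * (a * b) = t := by
    rcases h2 (a * b) with h | h
    · rcases h1 (a * b) h with h' | h'
      · exfalso; apply hb
        have : b = a⁻¹ := eq_inv_of_mul_eq_one_right h'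
        rw [this]; exact Subgroup.inv_mem _ (Subgroup.mem_zpowers a)
      · exfalso; apply hb
        have : b = a := by
          rw [← ha] at h'
          exact mul_left_cancel h'
        rw [this]; exact Subgroup.mem_zpowers a
    · exact h
  have h3 : b * a * b = a := by
    have : a * (b * a * b) = a * a := by rw [ha, ← hab]; group
    exact mul_left_cancel this
  have hti : t⁻¹ = t := inv_eq_of_mul_eq_one_left htt
  have hai : a⁻¹ = a * t := by
    symm; apply eq_inv_of_mul_eq_one_right
    rw [← mul_assoc, ha, htt]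
  have e : b * a * b⁻¹ = (b * a * b) * (b * b)⁻¹ := by group
  rw [e, h3, hbb, hti, hai]

theorem oc_quat_or_cyclic (t : Q) (ht1 : t ≠ 1) (htt : t * t = 1)
    (h1 : ∀ q : Q, q * q = 1 → q = 1 ∨ q = t) (h2 : ∀ q : Q, q * q = 1 ∨ q * q = t)
    (x : Q) (hx : orderOf x = 4) :
    (IsCyclic Q ∧ Nat.card Q = 4) ∨ Nonempty (Q ≃* QuaternionGroup 2) := by
  have hxx : x * x = t := by
    rcases h2 x with h | h
    · exfalso
      have : orderOf x ∣ 2 := orderOf_dvd_of_pow_eq_one (by rw [pow_two]; exact h)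
      rw [hx] at this
      exact absurd (Nat.le_of_dvd (by norm_num) this) (by norm_num)
    · exact h
  by_cases hall : ∀ q : Q, q ∈ Subgroup.zpowers x
  · left
    refine ⟨isCyclic_iff_exists_zpowers_eq_top.mpr ⟨x, (Subgroup.eq_top_iff' _).mpr hall⟩, ?_⟩
    rw [← hx]; exact (orderOf_eq_card_of_forall_mem_zpowers hall).symm
  · right
    push Not at hall
    obtain ⟨y, hy⟩ := hall
    have hyx : y * x * y⁻¹ = x⁻¹ := oc_q_inv t htt h1 h2 x y hxx hy
    have hyy : y * y = t := oc_q_sq t h1 h2 x y hxx hy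
    have hx' : orderOf x = 2 * 2 := hx
    let e : ZMod (2 * 2) → Q := fun i => x ^ (ZMod.cast i : ℤ)
    have hez : ∀ (m : ℤ) (i : ZMod (2 * 2)), (m : ZMod (2 * 2)) = i → x ^ m = e i := by
      intro m i hmi
      show x ^ m = x ^ (ZMod.cast i : ℤ)
      rw [zpow_eq_zpow_iff_modEq, hx']
      have : ((ZMod.cast i : ℤ) : ZMod (2 * 2)) = (m : ZMod (2 * 2)) := by
        rw [ZMod.intCast_cast, ZMod.cast_id', id, hmi]
      exact ((ZMod.intCast_eq_intCast_iff _ _ _).mp this).symm
    have e_add : ∀ i j, e i * e j = e (i + j) := by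
      intro i j
      show x ^ (ZMod.cast i : ℤ) * x ^ (ZMod.cast j : ℤ) = _
      rw [← zpow_add]
      exact hez _ _ (by simp)
    have e_neg : ∀ i, (e i)⁻¹ = e (-i) := by
      intro i
      show (x ^ (ZMod.cast i : ℤ))⁻¹ = _
      rw [← zpow_neg]
      exact hez _ _ (by simp)
    have e_two : t = e ((2 : ℕ) : ZMod (2 * 2)) := by
      rw [← hxx]
      have : x * x = x ^ (2 : ℤ) := by rw [zpow_ofNat, pow_two]
      rw [this]; exact hez _ _ (by norm_num)
    have hconj : ∀ i, y * e i = (e i)⁻¹ * y := by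
      intro i
      have h : y * x ^ (ZMod.cast i : ℤ) * y⁻¹ = (x ^ (ZMod.cast i : ℤ))⁻¹ := by
        rw [← conj_zpow, hyx, inv_zpow]
      calc y * e i = (y * x ^ (ZMod.cast i : ℤ) * y⁻¹) * y := (inv_mul_cancel_right _ _).symm
        _ = (e i)⁻¹ * y := by rw [h]
    have hconj' : ∀ i, e i * y = y * e (-i) := by
      intro i
      rw [hconj (-i), e_neg, neg_neg]
    let f0 : QuaternionGroup 2 → Q := fun q => match q with
      | .a i => e i
      | .xa i => y * e i
    have hf0 : ∀ p q, f0 (p * q) = f0 p * f0 q := by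
      rintro (i | i) (j | j)
      · show f0 (QuaternionGroup.a i * QuaternionGroup.a j) = e i * e j
        rw [QuaternionGroup.a_mul_a, e_add]
      · show f0 (QuaternionGroup.a i * QuaternionGroup.xa j) = e i * (y * e j)
        rw [QuaternionGroup.a_mul_xa, ← mul_assoc, hconj', mul_assoc, e_add, sub_eq_neg_add]
      · show f0 (QuaternionGroup.xa i * QuaternionGroup.a j) = y * e i * e j
        rw [QuaternionGroup.xa_mul_a, mul_assoc, e_add]
      · show f0 (QuaternionGroup.xa i * QuaternionGroup.xa j) = y * e i * (y * e j)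
        rw [QuaternionGroup.xa_mul_xa]
        have : y * e i * (y * e j) = (y * y) * (e (-i) * e j) := by
          rw [mul_assoc y (e i), ← mul_assoc (e i), hconj', mul_assoc y (e (-i)), ← mul_assoc y y]
        rw [this, hyy, e_two, e_add, e_add]
        show e _ = e _
        congr 1
        ring
    let f : QuaternionGroup 2 →* Q := MonoidHom.mk' f0 hf0
    have hinj : Function.Injective f := by
      rw [injective_iff_map_eq_one]
      rintro (i | i) h
      · have h' : x ^ (ZMod.cast i : ℤ) = 1 := h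
        rw [← orderOf_dvd_iff_zpow_eq_one, hx'] at h'
        have h0 := (ZMod.intCast_zmod_eq_zero_iff_dvd _ _).mpr h'
        rw [ZMod.intCast_cast, ZMod.cast_id', id] at h0
        rw [h0]; rfl
      · exfalso
        have h' : y * x ^ (ZMod.cast i : ℤ) = 1 := h
        apply hy
        have : y = (x ^ (ZMod.cast i : ℤ))⁻¹ := eq_inv_of_mul_eq_one_left h'
        rw [this]
        exact Subgroup.inv_mem _ (Subgroup.zpow_mem_zpowers x _)
    have hsurj : Function.Surjective f := by
      intro z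
      by_cases hz : z ∈ Subgroup.zpowers x
      · obtain ⟨k, rfl⟩ := Subgroup.mem_zpowers_iff.mp hz
        exact ⟨QuaternionGroup.a (k : ZMod (2 * 2)), (hez k _ rfl).symm⟩
      · have hyz : y⁻¹ * z ∈ Subgroup.zpowers x := by
          by_contra hyz
          have hzx := oc_q_inv t htt h1 h2 x z hxx hz
          have hq := oc_q_inv t htt h1 h2 x (y⁻¹ * z) hxx hyz
          have e1 : (y⁻¹ * z) * x * (y⁻¹ * z)⁻¹ = y⁻¹ * (z * x * z⁻¹) * y := by group
          rw [e1, hzx] at hq
          have e2 : y⁻¹ * x⁻¹ * y = x := by rw [← hyx]; group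
          rw [e2] at hq
          have : x * x = 1 := mul_eq_one_iff_eq_inv.mpr hq
          rw [hxx] at this
          exact ht1 this
        obtain ⟨k, hk⟩ := Subgroup.mem_zpowers_iff.mp hyz
        refine ⟨QuaternionGroup.xa (k : ZMod (2 * 2)), ?_⟩
        show y * e (k : ZMod (2 * 2)) = z
        rw [← hez k _ rfl, hk, mul_inv_cancel_left]
    exact ⟨(MulEquiv.ofBijective f ⟨hinj, hsurj⟩).symm⟩

end q8

end Cfsg.Agent.Helper22
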