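import Mathlib
import Cfsg.Agent.Helper22.OC4a
import Cfsg.Agent.Helper22.OC4b

set_option autoImplicit false

namespace Cfsg.Agent.Helper22

section ocA
variable {G : Type*} [Group G] [Finite G]

theorem oc_cases (hord : ∀ g : G, orderOf g ≤ 4) (g : G) :
    g * g * g = 1 ∨ (g ≠ 1 ∧ g * g * g * g = 1) := by
  have h4 := hord g
  have hp := orderOf_pos g
  have hpow := pow_orderOf_eq_one g
  obtain h | h | h | h : orderOf g = 1 ∨ orderOf g = 2 ∨ orderOf g = 3 ∨ orderOf g = 4 := by omega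
  · left
    rw [orderOf_eq_one_iff.mp h]; simp
  · right
    rw [h, pow_two] at hpow
    refine ⟨?_, by rw [hpow, one_mul, hpow]⟩
    intro h1; rw [h1, orderOf_one] at h; norm_num at h
  · left
    rw [h, pow_succ, pow_two] at hpow
    exact hpow
  · right
    rw [h, pow_succ, pow_succ, pow_two] at hpow
    refine ⟨?_, hpow⟩
    intro h1; rw [h1, orderOf_one] at h; norm_num at h

theorem oc_no6 (hord : ∀ g : G, orderOf g ≤ 4) (a b : G) (hab : a * b = b * a)
    (ha3 : a * a * a = 1) (ha1 : a ≠ 1) (hb1 : b ≠ 1) (hb4 : b * b * b * b = 1) : False := by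
  haveI : Fact (Nat.Prime 3) := ⟨Nat.prime_three⟩
  have hoa : orderOf a = 3 := orderOf_eq_prime (by rw [pow_succ, pow_two]; exact ha3) ha1
  have hob : orderOf b ∣ 2 ^ 2 := orderOf_dvd_of_pow_eq_one (by
    rw [show (2:ℕ) ^ 2 = 3 + 1 from rfl, pow_succ, pow_succ, pow_two]; exact hb4)
  obtain ⟨j, hj, hoj⟩ := (Nat.dvd_prime_pow Nat.prime_two).mp hob
  have hj1 : 1 ≤ j := by
    rcases Nat.eq_zero_or_pos j with h0 | h0
    · exfalso; rw [h0, pow_zero] at hoj; exact hb1 (orderOf_eq_one_iff.mp hoj)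
    · exact h0
  have hcop : (orderOf a).Coprime (orderOf b) := by
    rw [hoa, hoj]; exact Nat.Coprime.pow_right j (by norm_num)
  have hmul := Commute.orderOf_mul_eq_mul_orderOf_of_coprime (show Commute a b from hab) hcop
  have h4 := hord (a * b)
  rw [hmul, hoa, hoj] at h4
  have : 2 ^ 1 ≤ 2 ^ j := Nat.pow_le_pow_right (by norm_num) hj1
  omega

theorem oc_cube_of_three_pow (hord : ∀ g : G, orderOf g ≤ 4) (n : G) (k : ℕ)
    (h : n ^ (3 ^ k) = 1) : n * n * n = 1 := by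
  have hd : orderOf n ∣ 3 ^ k := orderOf_dvd_of_pow_eq_one h
  obtain ⟨j, hj, hoj⟩ := (Nat.dvd_prime_pow Nat.prime_three).mp hd
  have h4 := hord n
  have hj1 : j ≤ 1 := by
    by_contra hj2
    have : 3 ^ 2 ≤ 3 ^ j := Nat.pow_le_pow_right (by norm_num) (by omega)
    rw [hoj] at h4; omega
  have hd3 : orderOf n ∣ 3 := by
    rw [hoj]; exact (pow_dvd_pow 3 hj1).trans (by norm_num)
  have := orderOf_dvd_iff_pow_eq_one.mp hd3
  rw [pow_succ, pow_two] at this
  exact this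

theorem oc_four_of_two_pow (hord : ∀ g : G, orderOf g ≤ 4) (n : G) (k : ℕ)
    (h : n ^ (2 ^ k) = 1) : n * n * n * n = 1 := by
  have hd : orderOf n ∣ 2 ^ k := orderOf_dvd_of_pow_eq_one h
  obtain ⟨j, hj, hoj⟩ := (Nat.dvd_prime_pow Nat.prime_two).mp hd
  have h4 := hord n
  have hj1 : j ≤ 2 := by
    by_contra hj2
    have : 2 ^ 3 ≤ 2 ^ j := Nat.pow_le_pow_right (by norm_num) (by omega)
    rw [hoj] at h4; omega
  have hd3 : orderOf n ∣ 4 := by
    rw [hoj]; exact (pow_dvd_pow 2 hj1).trans (by norm_num)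
  have := orderOf_dvd_iff_pow_eq_one.mp hd3
  rw [show (4:ℕ) = 3 + 1 from rfl, pow_succ, pow_succ, pow_two] at this
  exact this

theorem oc_caseA (hord : ∀ g : G, orderOf g ≤ 4)
    (t : G) (ht : orderOf t = 2) (g4 : G) (hg4 : orderOf g4 = 4)
    (N : Subgroup G) [hNn : N.Normal] (hN3 : IsPGroup 3 N) (hNne : N ≠ ⊥)
    (hmax : ∀ M : Subgroup G, M.Normal → IsPGroup 3 M → M ≤ N) :
    (∀ a ∈ N, ∀ b ∈ N, a * b = b * a) ∧ (∀ a ∈ N, a ^ 3 = 1) ∧
      ((IsCyclic (G ⧸ N) ∧ N.index = 4) ∨ Nonempty (G ⧸ N ≃* QuaternionGroup 2)) := by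
  haveI : Fact (Nat.Prime 2) := ⟨Nat.prime_two⟩
  have hN3' : ∀ n ∈ N, n * n * n = 1 := fun n hn => by
    obtain ⟨k, hk⟩ := hN3 ⟨n, hn⟩
    exact oc_cube_of_three_pow hord n k (by simpa using congrArg Subtype.val hk)
  have htt : t * t = 1 := by rw [← pow_two, ← ht]; exact pow_orderOf_eq_one t
  have ht1 : t ≠ 1 := by intro h; rw [h, orderOf_one] at ht; norm_num at ht
  have hti : t⁻¹ = t := inv_eq_of_mul_eq_one_left htt
  have hinvfpf : ∀ s : G, s * s = 1 → s ≠ 1 → ∀ n ∈ N, s * n = n * s → n = 1 := by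
    intro s hss hs1 n hn hc
    by_contra hn1
    exact oc_no6 hord n s hc.symm (hN3' n hn) hn1 hs1 (by rw [hss, one_mul, hss])
  have hinv : ∀ s : G, s * s = 1 → s ≠ 1 → ∀ n ∈ N, s * n * s⁻¹ = n⁻¹ := fun s hss hs1 =>
    oc_fpf_inv N s hss (fun n hn => hNn.conj_mem n hn s) (hinvfpf s hss hs1)
  have hab : ∀ a ∈ N, ∀ b ∈ N, a * b = b * a := by
    intro a ha b hb
    have h1 := hinv t htt ht1 (a * b) (N.mul_mem ha hb)
    have h2 := hinv t htt ht1 a ha
    have h3 := hinv t htt ht1 b hb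
    have e : t * (a * b) * t⁻¹ = (t * a * t⁻¹) * (t * b * t⁻¹) := by group
    rw [e, h2, h3] at h1
    have : (b * a)⁻¹ = (a * b)⁻¹ := by rw [mul_inv_rev]; exact h1
    exact (inv_injective this).symm
  obtain ⟨n0, hn0N, hn01⟩ : ∃ n0 ∈ N, n0 ≠ 1 := by
    obtain ⟨a, ha⟩ := (Subgroup.ne_bot_iff_exists_ne_one).mp hNne
    exact ⟨a.1, a.2, fun h => ha (Subtype.ext h)⟩
  have hC : ∀ c : G, (∀ n ∈ N, n * c = c * n) → c ∈ N := by
    intro c hc
    have hCn : (Subgroup.centralizer (N : Set G)).Normal := inferInstance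
    refine hmax _ hCn ?_ (Subgroup.mem_centralizer_iff.mpr hc)
    rintro ⟨g, hg⟩
    refine ⟨1, ?_⟩
    rcases oc_cases hord g with h3 | ⟨hg1, hg4⟩
    · apply Subtype.ext
      rw [pow_one, Subgroup.coe_pow, pow_succ, pow_two]; exact h3
    · exfalso
      have hcom := Subgroup.mem_centralizer_iff.mp hg n0 hn0N
      exact oc_no6 hord n0 g hcom (hN3' n0 hn0N) hn01 hg1 hg4
  have hst : ∀ s : G, s * s = 1 → s ≠ 1 → s * t ∈ N := by
    intro s hss hs1
    apply hC
    intro n hn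
    have h1 := hinv t htt ht1 n hn
    have h2 := hinv s hss hs1 n⁻¹ (N.inv_mem hn)
    have e : (s * t) * n = (s * (t * n * t⁻¹) * s⁻¹) * (s * t) := by group
    rw [e, h1, h2, inv_inv]
  have hdecomp : ∀ g : G, ∃ n ∈ N, (n * g) * t = t * (n * g) := by
    intro g
    have hss : (g * t * g⁻¹) * (g * t * g⁻¹) = 1 := by
      have e : g * t * g⁻¹ * (g * t * g⁻¹) = g * (t * t) * g⁻¹ := by group
      rw [e, htt]; group
    have hs1 : g * t * g⁻¹ ≠ 1 := by
      intro h; apply ht1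
      have e : t = g⁻¹ * (g * t * g⁻¹) * g := by group
      rw [e, h]; group
    have hm := hst _ hss hs1
    refine ⟨g * t * g⁻¹ * t, hm, ?_⟩
    have hmt := hinv t htt ht1 _ hm
    have hm3 := hN3' _ hm
    have e1 : (g * t * g⁻¹ * t * g) * t = (g * t * g⁻¹ * t) * (g * t * g⁻¹ * t) * t⁻¹ * g := by
      group
    have e2 : t * (g * t * g⁻¹ * t * g) = (t * (g * t * g⁻¹ * t) * t⁻¹) * t * g := by group
    rw [e1, e2, hmt, hti]
    have : (g * t * g⁻¹ * t) * (g * t * g⁻¹ * t) = (g * t * g⁻¹ * t)⁻¹ :=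
      eq_inv_of_mul_eq_one_left hm3
    rw [this]
  set Q : Subgroup G := Subgroup.centralizer ({t} : Set G) with hQdef
  have hQ : ∀ g, g ∈ Q ↔ t * g = g * t := by
    intro g; rw [hQdef, Subgroup.mem_centralizer_iff]; simp
  have htQ : t ∈ Q := (hQ t).mpr rfl
  have hQ4 : ∀ q ∈ Q, q * q * q * q = 1 := by
    intro q hq
    rcases oc_cases hord q with h3 | ⟨_, h4⟩
    · by_cases hq1 : q = 1
      · rw [hq1]; simp
      · exfalso
        exact oc_no6 hord q t ((hQ q).mp hq).symm h3 hq1 ht1 (by rw [htt, one_mul, htt])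
    · exact h4
  have hQN : ∀ q ∈ Q, q ∈ N → q = 1 := by
    intro q hq hqN
    have h3 := hN3' q hqN
    have h4 := hQ4 q hq
    rw [h3, one_mul] at h4
    exact h4
  have huniq : ∀ q ∈ Q, q * q = 1 → q = 1 ∨ q = t := by
    intro q hq hqq
    by_cases hq1 : q = 1
    · left; exact hq1
    · right
      have h1 := hst q hqq hq1
      have h2 := hQN _ (Q.mul_mem hq htQ) h1
      have : q = t⁻¹ := eq_inv_of_mul_eq_one_left h2
      rw [this, hti]
  have hsq : ∀ q ∈ Q, q * q = 1 ∨ q * q = t := by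
    intro q hq
    apply huniq _ (Q.mul_mem hq hq)
    have h4 := hQ4 q hq
    rw [mul_assoc] at h4
    exact h4
  obtain ⟨q0, hq0Q, hq0⟩ : ∃ q0 ∈ Q, orderOf q0 = 4 := by
    obtain ⟨n, hn, hq⟩ := hdecomp g4
    have hqQ : n * g4 ∈ Q := (hQ _).mpr hq.symm
    refine ⟨n * g4, hqQ, ?_⟩
    have hg44 : g4 * g4 * g4 * g4 = 1 := by
      have := pow_orderOf_eq_one g4
      rw [hg4, show (4:ℕ) = 3 + 1 from rfl, pow_succ, pow_succ, pow_two] at this
      exact this
    have hg4sq : g4 * g4 ≠ 1 := by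
      intro h
      have : orderOf g4 ∣ 2 := orderOf_dvd_of_pow_eq_one (by rw [pow_two]; exact h)
      rw [hg4] at this
      exact absurd (Nat.le_of_dvd (by norm_num) this) (by norm_num)
    have hne : ¬ (n * g4) ^ 2 ^ 1 = 1 := by
      intro h
      rw [pow_one, pow_two] at h
      rcases huniq _ hqQ h with h' | h'
      · -- g4 = n⁻¹ ∈ N
        have hg : g4 = n⁻¹ := eq_inv_of_mul_eq_one_right h'
        have h3 := hN3' g4 (by rw [hg]; exact N.inv_mem hn)
        rw [h3, one_mul] at hg44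
        apply hg4sq; rw [hg44]; simp
      · -- g4 = n⁻¹ t
        have hg : g4 = n⁻¹ * t := by rw [← h']; group
        apply hg4sq
        have hnt := hinv t htt ht1 n⁻¹ (N.inv_mem hn)
        rw [inv_inv] at hnt
        have e : n⁻¹ * t * (n⁻¹ * t) = n⁻¹ * (t * n⁻¹ * t⁻¹) * (t * t) := by group
        rw [hg, e, hnt, htt]; group
    have hfin : (n * g4) ^ 2 ^ (1 + 1) = 1 := by
      have := hQ4 _ hqQ
      rw [show (2:ℕ) ^ (1 + 1) = 3 + 1 from rfl, pow_succ, pow_succ, pow_two]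
      exact this
    exact orderOf_eq_prime_pow hne hfin
  have hrec := oc_quat_or_cyclic (Q := Q) ⟨t, htQ⟩ (fun h => ht1 (congrArg Subtype.val h))
    (Subtype.ext htt)
    (fun q hq => by
      rcases huniq q.1 q.2 (congrArg Subtype.val hq) with h | h
      · left; exact Subtype.ext h
      · right; exact Subtype.ext h)
    (fun q => by
      rcases hsq q.1 q.2 with h | h
      · left; exact Subtype.ext h
      · right; exact Subtype.ext h)
    ⟨q0, hq0Q⟩ (by rw [Subgroup.orderOf_mk]; exact hq0)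
  let φ : Q →* G ⧸ N := (QuotientGroup.mk' N).comp Q.subtype
  have hinj : Function.Injective φ := by
    rw [injective_iff_map_eq_one]
    intro q hq
    have : (q : G) ∈ N := (QuotientGroup.eq_one_iff _).mp hq
    exact Subtype.ext (hQN q.1 q.2 this)
  have hsurj : Function.Surjective φ := by
    intro z
    obtain ⟨g, rfl⟩ := QuotientGroup.mk_surjective z
    obtain ⟨n, hn, hq⟩ := hdecomp g
    refine ⟨⟨n * g, (hQ _).mpr hq.symm⟩, ?_⟩
    show ((n * g : G) : G ⧸ N) = (g : G ⧸ N)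
    rw [QuotientGroup.mk_mul, (QuotientGroup.eq_one_iff n).mpr hn, one_mul]
  let ψ : Q ≃* G ⧸ N := MulEquiv.ofBijective φ ⟨hinj, hsurj⟩
  refine ⟨hab, fun a ha => by rw [pow_succ, pow_two]; exact hN3' a ha, ?_⟩
  rcases hrec with ⟨hcyc, hcard⟩ | he
  · left
    haveI := hcyc
    refine ⟨isCyclic_of_surjective φ hsurj, ?_⟩
    rw [Subgroup.index_eq_card, ← Nat.card_congr ψ.toEquiv, hcard]
  · right
    obtain ⟨e⟩ := he
    exact ⟨ψ.symm.trans e⟩

end ocA

end Cfsg.Agent.Helper22
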