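import Mathlib
import Cfsg.Agent.Helper22.OC4a

set_option autoImplicit false

namespace Cfsg.Agent.Helper22

section ocE

def ocZ {G : Type*} [Group G] (N : Subgroup G) : Subgroup G :=
  N ⊓ Subgroup.centralizer (N : Set G)

theorem oc_mem_Z {G : Type*} [Group G] (N : Subgroup G) (d : G) :
    d ∈ ocZ N ↔ d ∈ N ∧ ∀ n ∈ N, n * d = d * n := by
  unfold ocZ
  rw [Subgroup.mem_inf, Subgroup.mem_centralizer_iff]
  rfl

theorem ocZ_normal {G : Type*} [Group G] (N : Subgroup G) [N.Normal] : (ocZ N).Normal := by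
  unfold ocZ; infer_instance

theorem oc_aux_sq {G : Type*} [Group G] (m z q r : G) (hmz : m * z = z * m) (hq : m * q = r)
    (hrz : r * z = z * r) (hzz : z * z = 1) (h : (m * (z * q)) * (m * (z * q)) = 1) :
    r * r = 1 := by
  have e : m * (z * q) = z * r := by rw [← mul_assoc, hmz, mul_assoc, hq]
  rw [e, Commute.mul_mul_mul_comm (show Commute r z from hrz), hzz, one_mul] at h
  exact h

theorem oc_aux_comm {G : Type*} [Group G] (A B b : G) (hAB : A * B = B * A)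
    (h1 : B * (A * b⁻¹ * A⁻¹ * b) = (A * b⁻¹ * A⁻¹ * b) * B)
    (h2 : b * (b * A * b⁻¹ * A⁻¹) = (b * A * b⁻¹ * A⁻¹) * b) :
    A * (b * B)⁻¹ * A⁻¹ * ((b * B)⁻¹)⁻¹ = b * A * b⁻¹ * A⁻¹ := by
  have e2 : A * (b * B)⁻¹ * A⁻¹ * ((b * B)⁻¹)⁻¹
      = (A * B⁻¹ * A⁻¹ * B) * (B⁻¹ * (A * b⁻¹ * A⁻¹ * b) * B) := by group
  have e3 : A * B⁻¹ * A⁻¹ * B = 1 := by
    have hc : Commute A B⁻¹ := (show Commute A B from hAB).inv_right
    rw [hc.eq]; group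
  have e4 : B⁻¹ * (A * b⁻¹ * A⁻¹ * b) * B = A * b⁻¹ * A⁻¹ * b := by
    rw [mul_assoc, ← h1, inv_mul_cancel_left]
  have e5 : A * b⁻¹ * A⁻¹ * b = b⁻¹ * (b * A * b⁻¹ * A⁻¹) * b := by group
  have e6 : b⁻¹ * (b * A * b⁻¹ * A⁻¹) * b = b * A * b⁻¹ * A⁻¹ := by
    rw [mul_assoc, ← h2, inv_mul_cancel_left]
  rw [e2, e3, one_mul, e4, e5, e6]

theorem oc_aux_fix {G : Type*} [Group G] (x c c' : G) (hx3 : x * x * x = 1)
    (h1 : x * c * x⁻¹ = c') (h2 : x * c' * x⁻¹ = c) : x * c = c * x := by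
  have h3 : x * (x * c * x⁻¹) * x⁻¹ = c := by rw [h1, h2]
  have e : x * (x * c * x⁻¹) * x⁻¹ = (x * x * x) * (x⁻¹ * c * x) * (x * x * x)⁻¹ := by group
  rw [e, hx3, one_mul, inv_one, mul_one] at h3
  calc x * c = x * (x⁻¹ * c * x) := by rw [h3]
    _ = c * x := by group

theorem oc_aux_c23 {G : Type*} [Group G] (x b2 b3 : G) (hx3 : x * x * x = 1)
    (h : b2 * (x⁻¹ * b3 * x) = (x⁻¹ * b3 * x) * b2) :
    Commute (x⁻¹ * b2 * x) (x * b3 * x⁻¹) := by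
  unfold Commute SemiconjBy
  have e1 : (x⁻¹ * b2 * x) * (x * b3 * x⁻¹)
      = x⁻¹ * (b2 * ((x * x * x) * (x⁻¹ * b3 * x) * (x * x * x)⁻¹)) * x := by group
  have e2 : (x * b3 * x⁻¹) * (x⁻¹ * b2 * x)
      = x⁻¹ * (((x * x * x) * (x⁻¹ * b3 * x) * (x * x * x)⁻¹) * b2) * x := by group
  rw [e1, e2, hx3, one_mul, inv_one, mul_one, h]

variable {G : Type*} [Group G] [Finite G]

theorem oc_elemab (N : Subgroup G) [hNn : N.Normal] (x s : G) (hx3 : x * x * x = 1)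
    (hfpf : ∀ n ∈ N, x * n = n * x → n = 1) (hss : s * s = 1) (hsx : s * x * s⁻¹ = x⁻¹)
    (hN2 : ∀ u : G, u * u = 1 → ∀ n ∈ N, (n * (u * n * u⁻¹)) * (n * (u * n * u⁻¹)) = 1)
    (hcl : ∀ a ∈ N, ∀ b ∈ N, ∀ c ∈ N, c * (a * b * a⁻¹ * b⁻¹) = (a * b * a⁻¹ * b⁻¹) * c) :
    ∀ n ∈ N, n * n = 1 := by
  have hxN : ∀ n ∈ N, x * n * x⁻¹ ∈ N := fun n hn => hNn.conj_mem n hn x
  have hxiN : ∀ n ∈ N, x⁻¹ * n * x ∈ N := fun n hn => by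
    have := hNn.conj_mem n hn x⁻¹; rwa [inv_inv] at this
  have hsN : ∀ n ∈ N, s * n * s⁻¹ ∈ N := fun n hn => hNn.conj_mem n hn s
  have hxx : x * x = x⁻¹ := eq_inv_of_mul_eq_one_left hx3
  have hxi3 : x⁻¹ * x⁻¹ * x⁻¹ = 1 := by
    have e : x⁻¹ * x⁻¹ * x⁻¹ = (x * x * x)⁻¹ := by group
    rw [e, hx3, inv_one]
  have hF := oc_fpf_three N x hx3 hxN hfpf
  have hN4 : ∀ n ∈ N, (n * n) * (n * n) = 1 := by
    intro n hn
    have := hN2 1 (one_mul 1) n hn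
    simpa using this
  have hZ := oc_mem_Z N
  have hZn : (ocZ N).Normal := ocZ_normal N
  have hZconj : ∀ d ∈ ocZ N, ∀ g : G, g * d * g⁻¹ ∈ ocZ N := fun d hd g => hZn.conj_mem d hd g
  have hZconj' : ∀ d ∈ ocZ N, ∀ g : G, g⁻¹ * d * g ∈ ocZ N := fun d hd g => by
    have := hZn.conj_mem d hd g⁻¹; rwa [inv_inv] at this
  have hZN : ∀ d ∈ ocZ N, d ∈ N := fun d hd => ((hZ d).mp hd).1
  have hZc : ∀ d ∈ ocZ N, ∀ n ∈ N, n * d = d * n := fun d hd => ((hZ d).mp hd).2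
  have hcomm : ∀ a ∈ N, ∀ b ∈ N, a * b * a⁻¹ * b⁻¹ ∈ ocZ N := by
    intro a ha b hb
    exact (hZ _).mpr ⟨N.mul_mem (N.mul_mem (N.mul_mem ha hb) (N.inv_mem ha)) (N.inv_mem hb),
      fun c hc => hcl a ha b hb c hc⟩
  have hxs : (x * s) * (x * s) = 1 := by
    have e : (x * s) * (x * s) = x * (s * x * s⁻¹) * (s * s) := by group
    rw [e, hsx, hss]; group
  have hxconj : ∀ m : G, x * m * x⁻¹ = (x * s) * (s * m * s⁻¹) * (x * s)⁻¹ := by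
    intro m
    have e : (x * s) * (s * m * s⁻¹) * (x * s)⁻¹ = x * (s * s) * m * (s * s)⁻¹ * x⁻¹ := by group
    rw [e, hss]; group
  -- (a)
  have hA : ∀ u : G, u * u = 1 → ∀ n ∈ N, ∃ c ∈ ocZ N, u * (n * n) * u⁻¹ = (n * n)⁻¹ * c := by
    intro u huu n hn
    have hk : u * n * u⁻¹ ∈ N := hNn.conj_mem n hn u
    have hc0 : (u * n * u⁻¹)⁻¹ * n⁻¹ * (u * n * u⁻¹)⁻¹⁻¹ * n⁻¹⁻¹ ∈ ocZ N :=
      hcomm _ (N.inv_mem hk) _ (N.inv_mem hn)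
    rw [inv_inv, inv_inv] at hc0
    have h := hN2 u huu n hn
    have e1 : (n * (u * n * u⁻¹)) * (n * (u * n * u⁻¹))
        = n * n * ((u * n * u⁻¹) * ((u * n * u⁻¹)⁻¹ * n⁻¹ * (u * n * u⁻¹) * n) * (u * n * u⁻¹)⁻¹)
          * (u * (n * n) * u⁻¹) := by group
    rw [e1] at h
    have h' := eq_inv_of_mul_eq_one_right h
    refine ⟨(n * n) * ((u * n * u⁻¹) * ((u * n * u⁻¹)⁻¹ * n⁻¹ * (u * n * u⁻¹) * n)
      * (u * n * u⁻¹)⁻¹)⁻¹ * (n * n)⁻¹, ?_, ?_⟩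
    · exact hZconj _ ((ocZ N).inv_mem (hZconj _ hc0 _)) _
    · rw [h']; group
  -- (b)
  have hB : ∀ n ∈ N, ∃ d ∈ ocZ N, x * (n * n) * x⁻¹ = (n * n) * d := by
    intro n hn
    obtain ⟨c1, hc1, h1⟩ := hA s hss n hn
    obtain ⟨c2, hc2, h2⟩ := hA (x * s) hxs n hn
    rw [hxconj, h1]
    have e : (x * s) * ((n * n)⁻¹ * c1) * (x * s)⁻¹
        = ((x * s) * (n * n) * (x * s)⁻¹)⁻¹ * ((x * s) * c1 * (x * s)⁻¹) := by group
    rw [e, h2]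
    refine ⟨(n * n)⁻¹ * c2⁻¹ * (n * n) * ((x * s) * c1 * (x * s)⁻¹), ?_, by
      generalize n * n = m; group⟩
    exact (ocZ N).mul_mem (hZconj' _ ((ocZ N).inv_mem hc2) _) (hZconj _ hc1 _)
  -- Step 1'
  have hS1 : ∀ n ∈ N, n * n ∈ ocZ N := by
    intro n hn
    obtain ⟨d, hd, h1⟩ := hB n hn
    have hm : n * n ∈ N := N.mul_mem hn hn
    have h := hF (n * n) hm
    have e0 : n * n = x⁻¹ * (x * (n * n) * x⁻¹) * x := by group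
    rw [h1] at e0
    have h2 : x⁻¹ * (n * n) * x = (n * n) * (x⁻¹ * d * x)⁻¹ := by
      have e1 : x⁻¹ * (n * n) * x = (x⁻¹ * ((n * n) * d) * x) * (x⁻¹ * d * x)⁻¹ := by group
      rw [← e0] at e1
      exact e1
    rw [h1, h2] at h
    have e3 : (n * n) * ((n * n) * d) * ((n * n) * (x⁻¹ * d * x)⁻¹)
        = ((n * n) * (n * n)) * (n * n) * (((n * n)⁻¹ * d * (n * n)) * (x⁻¹ * d * x)⁻¹) := by
      generalize n * n = m; group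
    rw [e3, hN4 n hn, one_mul] at h
    have h' := eq_inv_of_mul_eq_one_left h
    rw [h']
    exact (ocZ N).inv_mem ((ocZ N).mul_mem (hZconj' _ hd _) ((ocZ N).inv_mem (hZconj' _ hd _)))
  -- Step 2
  have hS2 : ∀ d ∈ ocZ N, d * d = 1 := by
    intro d hd
    have hdN := hZN d hd
    have hI : ∀ u : G, u * u = 1 → u * (d * d) * u⁻¹ = (d * d)⁻¹ := by
      intro u huu
      have hk : u * d * u⁻¹ ∈ N := hNn.conj_mem d hdN u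
      have h := hN2 u huu d hdN
      have hkd : (u * d * u⁻¹) * d = d * (u * d * u⁻¹) := hZc d hd _ hk
      have e1 : (d * (u * d * u⁻¹)) * (d * (u * d * u⁻¹))
          = d * ((u * d * u⁻¹) * d) * (u * d * u⁻¹) := by group
      rw [e1, hkd] at h
      have e2 : d * (d * (u * d * u⁻¹)) * (u * d * u⁻¹) = (d * d) * (u * (d * d) * u⁻¹) := by
        group
      rw [e2] at h
      exact eq_inv_of_mul_eq_one_right h
    have h1 : x * (d * d) * x⁻¹ = d * d := by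
      rw [hxconj, hI s hss]
      have e : (x * s) * (d * d)⁻¹ * (x * s)⁻¹ = ((x * s) * (d * d) * (x * s)⁻¹)⁻¹ := by group
      rw [e, hI (x * s) hxs, inv_inv]
    apply hfpf _ (N.mul_mem hdN hdN)
    rw [mul_inv_eq_iff_eq_mul] at h1
    exact h1
  -- Step 3
  have hS3 : ∀ n ∈ N, s * n * s⁻¹ * n⁻¹ ∈ ocZ N → n * n = 1 := by
    intro n hn hz
    have hm : x * n * x⁻¹ ∈ N := hxN n hn
    have hz' : x⁻¹ * (s * n * s⁻¹ * n⁻¹) * x ∈ ocZ N := hZconj' _ hz x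
    have h := hN2 s hss _ hm
    have e1 : s * (x * n * x⁻¹) * s⁻¹
        = (s * x * s⁻¹) * ((s * n * s⁻¹ * n⁻¹) * n) * (s * x * s⁻¹)⁻¹ := by group
    rw [hsx] at e1
    have e2 : x⁻¹ * ((s * n * s⁻¹ * n⁻¹) * n) * x⁻¹⁻¹
        = (x⁻¹ * (s * n * s⁻¹ * n⁻¹) * x) * (x⁻¹ * n * x) := by group
    rw [e2] at e1
    rw [e1] at h
    have hmz := hZc _ hz' _ hm
    have hq : (x * n * x⁻¹) * (x⁻¹ * n * x) = n⁻¹ := by
      have := hF n hn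
      rw [mul_assoc] at this
      exact eq_inv_of_mul_eq_one_right this
    have hnz := hZc _ hz' _ (N.inv_mem hn)
    have := oc_aux_sq _ _ _ _ hmz hq hnz (hS2 _ hz') h
    apply inv_eq_one.mp
    rw [mul_inv_rev]; exact this
  have hC2a : ∀ n ∈ N, s * (n * (s * n * s⁻¹)) * s⁻¹ * (n * (s * n * s⁻¹))⁻¹ ∈ ocZ N := by
    intro n hn
    have e : s * (n * (s * n * s⁻¹)) * s⁻¹ * (n * (s * n * s⁻¹))⁻¹
        = (s * n * s⁻¹) * ((s * s) * n * (s * s)⁻¹) * (s * n * s⁻¹)⁻¹ * n⁻¹ := by group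
    rw [e, hss, one_mul, inv_one, mul_one]
    exact hcomm _ (hsN n hn) _ hn
  have hC2b : ∀ n ∈ N, s * ((s * n * s⁻¹) * n) * s⁻¹ * ((s * n * s⁻¹) * n)⁻¹ ∈ ocZ N := by
    intro n hn
    have e : s * ((s * n * s⁻¹) * n) * s⁻¹ * ((s * n * s⁻¹) * n)⁻¹
        = ((s * s) * n * (s * s)⁻¹) * (s * n * s⁻¹) * n⁻¹ * (s * n * s⁻¹)⁻¹ := by group
    rw [e, hss, one_mul, inv_one, mul_one]
    exact hcomm _ hn _ (hsN n hn)
  have hC3 : ∀ a ∈ N, ∀ b ∈ N, s * a * s⁻¹ * a⁻¹ ∈ ocZ N → s * b * s⁻¹ * b⁻¹ ∈ ocZ N →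
      s * (a * b) * s⁻¹ * (a * b)⁻¹ ∈ ocZ N := by
    intro a ha b hb hza hzb
    have e : s * (a * b) * s⁻¹ * (a * b)⁻¹
        = ((s * a * s⁻¹) * (s * b * s⁻¹ * b⁻¹) * (s * a * s⁻¹)⁻¹) * (s * a * s⁻¹ * a⁻¹) := by
      group
    rw [e]; exact (ocZ N).mul_mem (hZconj _ hzb _) hza
  have hC4 : ∀ a ∈ N, ∀ b ∈ N, s * a * s⁻¹ * a⁻¹ ∈ ocZ N → s * b * s⁻¹ * b⁻¹ ∈ ocZ N →
      a * b = b * a := by
    intro a ha b hb hza hzb
    have haa := hS3 a ha hza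
    have hbb := hS3 b hb hzb
    have hab := hS3 (a * b) (N.mul_mem ha hb) (hC3 a ha b hb hza hzb)
    have h1 : a * b = (a * b)⁻¹ := eq_inv_of_mul_eq_one_left hab
    rw [mul_inv_rev, inv_eq_of_mul_eq_one_left hbb, inv_eq_of_mul_eq_one_left haa] at h1
    exact h1
  -- Step 4
  have hα0 : ∀ a ∈ N, ∀ b ∈ N, s * a * s⁻¹ * a⁻¹ ∈ ocZ N → s * b * s⁻¹ * b⁻¹ ∈ ocZ N →
      x * (a * (x * b * x⁻¹) * a⁻¹ * (x * b * x⁻¹)⁻¹) * x⁻¹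
        = b * (x * a * x⁻¹) * b⁻¹ * (x * a * x⁻¹)⁻¹ := by
    intro a ha b hb hza hzb
    have hab := hC4 a ha b hb hza hzb
    have hA' := hxN a ha
    have hB' := hxN b hb
    have hAB : (x * a * x⁻¹) * (x * b * x⁻¹) = (x * b * x⁻¹) * (x * a * x⁻¹) := by
      have e1 : (x * a * x⁻¹) * (x * b * x⁻¹) = x * (a * b) * x⁻¹ := by group
      have e2 : (x * b * x⁻¹) * (x * a * x⁻¹) = x * (b * a) * x⁻¹ := by group
      rw [e1, e2, hab]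
    have hBB : x * (x * b * x⁻¹) * x⁻¹ = (b * (x * b * x⁻¹))⁻¹ := by
      have e : x * (x * b * x⁻¹) * x⁻¹ = (x * x * x) * (x⁻¹ * b * x) * (x * x * x)⁻¹ := by group
      rw [e, hx3, one_mul, inv_one, mul_one]
      exact eq_inv_of_mul_eq_one_right (hF b hb)
    have e1 : x * (a * (x * b * x⁻¹) * a⁻¹ * (x * b * x⁻¹)⁻¹) * x⁻¹
        = (x * a * x⁻¹) * (x * (x * b * x⁻¹) * x⁻¹) * (x * a * x⁻¹)⁻¹
          * (x * (x * b * x⁻¹) * x⁻¹)⁻¹ := by group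
    rw [e1, hBB]
    have hc1 : (x * a * x⁻¹) * b⁻¹ * (x * a * x⁻¹)⁻¹ * b ∈ ocZ N := by
      have := hcomm _ hA' _ (N.inv_mem hb)
      rwa [inv_inv] at this
    exact oc_aux_comm _ _ _ hAB (hZc _ hc1 _ hB') (hZc _ (hcomm b hb _ hA') b hb)
  have hα : ∀ a ∈ N, ∀ b ∈ N, s * a * s⁻¹ * a⁻¹ ∈ ocZ N → s * b * s⁻¹ * b⁻¹ ∈ ocZ N →
      a * (x * b * x⁻¹) = (x * b * x⁻¹) * a := by
    intro a ha b hb hza hzb
    have h1 := hα0 a ha b hb hza hzb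
    have h2 := hα0 b hb a ha hzb hza
    have hcN : a * (x * b * x⁻¹) * a⁻¹ * (x * b * x⁻¹)⁻¹ ∈ N := hZN _ (hcomm a ha _ (hxN b hb))
    have h4 := oc_aux_fix x _ _ hx3 h1 h2
    have hc1 := hfpf _ hcN h4
    rw [mul_inv_eq_one] at hc1
    rw [mul_inv_eq_iff_eq_mul] at hc1
    exact hc1
  have hα' : ∀ a ∈ N, ∀ b ∈ N, s * a * s⁻¹ * a⁻¹ ∈ ocZ N → s * b * s⁻¹ * b⁻¹ ∈ ocZ N →
      a * (x⁻¹ * b * x) = (x⁻¹ * b * x) * a := by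
    intro a ha b hb hza hzb
    have h := hα b hb a ha hzb hza
    have e1 : a * (x⁻¹ * b * x) = x⁻¹ * ((x * a * x⁻¹) * b) * x := by group
    have e2 : (x⁻¹ * b * x) * a = x⁻¹ * (b * (x * a * x⁻¹)) * x := by group
    rw [e1, e2, h]
  -- Step 5
  intro n hn
  have hk : s * n * s⁻¹ ∈ N := hsN n hn
  have hm2 : x * n * x⁻¹ ∈ N := hxN n hn
  have hm3 : x⁻¹ * n * x ∈ N := hxiN n hn
  have hb1N : n * (s * n * s⁻¹) ∈ N := N.mul_mem hn hk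
  have hb2N : (s * (x * n * x⁻¹) * s⁻¹) * (x * n * x⁻¹) ∈ N := N.mul_mem (hsN _ hm2) hm2
  have hb3N : (x⁻¹ * n * x) * (s * (x⁻¹ * n * x) * s⁻¹) ∈ N := N.mul_mem hm3 (hsN _ hm3)
  have hb1C := hC2a n hn
  have hb2C := hC2b _ hm2
  have hb3C := hC2a _ hm3
  have sq1 := hS3 _ hb1N hb1C
  have sq2 := hS3 _ hb2N hb2C
  have sq3 := hS3 _ hb3N hb3C
  have hp2 : x⁻¹ * ((s * (x * n * x⁻¹) * s⁻¹) * (x * n * x⁻¹)) * x
      = (x * (s * n * s⁻¹) * x⁻¹) * n := by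
    have e : x⁻¹ * ((s * (x * n * x⁻¹) * s⁻¹) * (x * n * x⁻¹)) * x
        = (x⁻¹ * (s * x * s⁻¹) * x⁻¹) * (x * (s * n * s⁻¹) * x⁻¹)
          * (x⁻¹ * (s * x * s⁻¹) * x⁻¹)⁻¹ * n := by group
    rw [e, hsx, hxi3]; group
  have hp3 : x * ((x⁻¹ * n * x) * (s * (x⁻¹ * n * x) * s⁻¹)) * x⁻¹
      = n * (x⁻¹ * (s * n * s⁻¹) * x) := by
    have e : x * ((x⁻¹ * n * x) * (s * (x⁻¹ * n * x) * s⁻¹)) * x⁻¹
        = n * (x * (s * x * s⁻¹)⁻¹ * s) * n * (x * (s * x * s⁻¹)⁻¹ * s)⁻¹ := by group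
    rw [e, hsx, inv_inv, hxx]; group
  have hprod : (n * (s * n * s⁻¹)) * ((x * (s * n * s⁻¹) * x⁻¹) * n)
      * (n * (x⁻¹ * (s * n * s⁻¹) * x)) = n * (n * n) := by
    have hnn := hS1 n hn
    have hcen : (x⁻¹ * (s * n * s⁻¹) * x) * (n * n) = (n * n) * (x⁻¹ * (s * n * s⁻¹) * x) :=
      hZc _ hnn _ (hxiN _ hk)
    have e : (n * (s * n * s⁻¹)) * ((x * (s * n * s⁻¹) * x⁻¹) * n)
        * (n * (x⁻¹ * (s * n * s⁻¹) * x))
        = n * ((s * n * s⁻¹) * (x * (s * n * s⁻¹) * x⁻¹))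
          * ((n * n) * (x⁻¹ * (s * n * s⁻¹) * x)) := by group
    rw [e, ← hcen]
    have e2 : n * ((s * n * s⁻¹) * (x * (s * n * s⁻¹) * x⁻¹))
        * ((x⁻¹ * (s * n * s⁻¹) * x) * (n * n))
        = n * ((s * n * s⁻¹) * (x * (s * n * s⁻¹) * x⁻¹) * (x⁻¹ * (s * n * s⁻¹) * x))
          * (n * n) := by group
    rw [e2, hF _ hk, mul_one]
  have c12 : Commute (n * (s * n * s⁻¹)) ((x * (s * n * s⁻¹) * x⁻¹) * n) := by
    rw [← hp2]; exact hα' _ hb1N _ hb2N hb1C hb2C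
  have c13 : Commute (n * (s * n * s⁻¹)) (n * (x⁻¹ * (s * n * s⁻¹) * x)) := by
    rw [← hp3]; exact hα _ hb1N _ hb3N hb1C hb3C
  have c23 : Commute ((x * (s * n * s⁻¹) * x⁻¹) * n) (n * (x⁻¹ * (s * n * s⁻¹) * x)) := by
    rw [← hp2, ← hp3]
    exact oc_aux_c23 x _ _ hx3 (hα' _ hb2N _ hb3N hb2C hb3C)
  have hsq2 : ((x * (s * n * s⁻¹) * x⁻¹) * n) * ((x * (s * n * s⁻¹) * x⁻¹) * n) = 1 := by
    rw [← hp2]
    have e : (x⁻¹ * ((s * (x * n * x⁻¹) * s⁻¹) * (x * n * x⁻¹)) * x)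
        * (x⁻¹ * ((s * (x * n * x⁻¹) * s⁻¹) * (x * n * x⁻¹)) * x)
        = x⁻¹ * (((s * (x * n * x⁻¹) * s⁻¹) * (x * n * x⁻¹))
          * ((s * (x * n * x⁻¹) * s⁻¹) * (x * n * x⁻¹))) * x := by group
    rw [e, sq2]; group
  have hsq3 : (n * (x⁻¹ * (s * n * s⁻¹) * x)) * (n * (x⁻¹ * (s * n * s⁻¹) * x)) = 1 := by
    rw [← hp3]
    have e : (x * ((x⁻¹ * n * x) * (s * (x⁻¹ * n * x) * s⁻¹)) * x⁻¹)
        * (x * ((x⁻¹ * n * x) * (s * (x⁻¹ * n * x) * s⁻¹)) * x⁻¹)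
        = x * (((x⁻¹ * n * x) * (s * (x⁻¹ * n * x) * s⁻¹))
          * ((x⁻¹ * n * x) * (s * (x⁻¹ * n * x) * s⁻¹))) * x⁻¹ := by group
    rw [e, sq3]; group
  have hw : (n * (n * n)) * (n * (n * n)) = 1 := by
    rw [← hprod]
    have h12 := c12.mul_pow 2
    have h123 := (c13.mul_left c23).mul_pow 2
    rw [← pow_two, h123, h12, pow_two, pow_two, pow_two, sq1, hsq2, hsq3]; simp
  have h4 := hN4 n hn
  have e : (n * (n * n)) * (n * (n * n)) = ((n * n) * (n * n)) * (n * n) := by group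
  rw [e, h4, one_mul] at hw
  exact hw

end ocE

end Cfsg.Agent.Helper22
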