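import Mathlib
import Cfsg.Agent.Helper22.OC4a
import Cfsg.Agent.Helper22.OC4c
import Cfsg.Agent.Helper22.OC4e

set_option autoImplicit false

namespace Cfsg.Agent.Helper22

section ocB
open scoped commutatorElement

theorem oc_comm_prod {A : Type*} [CommGroup A] (p1 p2 p3 q2 q3 r2 r3 : A)
    (E1 : p1 * p2 * p3 = 1) (E2 : p1 * q2 * q3 = 1) (E3 : p1 * r2 * r3 = 1)
    (E4 : p2 * q2 * r2 = 1) (E5 : p3 * r3 * q3 = 1) : p1 * p1 * p1 = 1 := by
  have h : (p1 * p2 * p3) * (p1 * q2 * q3) * (p1 * r2 * r3)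
      = (p1 * p1 * p1) * ((p2 * q2 * r2) * (p3 * r3 * q3)) := by ac_rfl
  rw [E1, E2, E3, E4, E5] at h
  simpa using h.symm

theorem oc_card_two_three (n : ℕ) (hn : n ≠ 0)
    (h : ∀ p : ℕ, p.Prime → p ∣ n → p = 2 ∨ p = 3) :
    n = 2 ^ (n.factorization 2) * 3 ^ (n.factorization 3) := by
  have key := Finsupp.prod_of_support_subset n.factorization (s := ({2, 3} : Finset ℕ)) (by
    intro p hp
    rw [Nat.support_factorization, Nat.mem_primeFactors] at hp
    rcases h p hp.1 hp.2.1 with rfl | rfl <;> simp) (fun p k => p ^ k)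
    (by intro i _; exact pow_zero i)
  rw [Nat.prod_factorization_pow_eq_self hn] at key
  rw [Finset.prod_pair (by norm_num)] at key
  exact key

variable {G : Type*} [Group G] [Finite G]

theorem oc_three_sub_card (hord : ∀ g : G, orderOf g ≤ 4)
    (V : Subgroup G) [hVn : V.Normal] (hV2 : IsPGroup 2 V) (hVne : V ≠ ⊥)
    (hVc : ∀ a ∈ V, ∀ b ∈ V, a * b = b * a)
    (P : Subgroup G) (hP : IsPGroup 3 P) : Nat.card P ≤ 3 := by
  by_contra hcard
  push Not at hcard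
  haveI : Fact (Nat.Prime 3) := ⟨Nat.prime_three⟩
  have hP3 : ∀ g ∈ P, g * g * g = 1 := fun g hg => by
    obtain ⟨k, hk⟩ := hP ⟨g, hg⟩
    exact oc_cube_of_three_pow hord g k (by simpa using congrArg Subtype.val hk)
  have hV4 : ∀ v ∈ V, v * v * v * v = 1 := fun v hv => by
    obtain ⟨k, hk⟩ := hV2 ⟨v, hv⟩
    exact oc_four_of_two_pow hord v k (by simpa using congrArg Subtype.val hk)
  have hfree : ∀ a : G, a * a * a = 1 → a ≠ 1 → ∀ n ∈ V, a * n = n * a → n = 1 := by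
    intro a ha3 ha1 n hn hc
    by_contra hn1
    exact oc_no6 hord a n hc ha3 ha1 hn1 (hV4 n hn)
  have hconjV : ∀ a : G, ∀ n ∈ V, a * n * a⁻¹ ∈ V := fun a n hn => hVn.conj_mem n hn a
  have hconjV' : ∀ a : G, ∀ n ∈ V, a⁻¹ * n * a ∈ V := fun a n hn => by
    have := hVn.conj_mem n hn a⁻¹; rwa [inv_inv] at this
  have hF : ∀ a : G, a * a * a = 1 → a ≠ 1 →
      ∀ n ∈ V, n * (a * n * a⁻¹) * (a⁻¹ * n * a) = 1 :=
    fun a ha3 ha1 => oc_fpf_three V a ha3 (hconjV a) (hfree a ha3 ha1)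
  haveI : Nontrivial P := by
    rw [← Finite.one_lt_card_iff_nontrivial]; omega
  haveI := hP.center_nontrivial
  obtain ⟨zc, hzc⟩ := exists_ne (1 : Subgroup.center P)
  have hzP1 : (zc : P) ≠ 1 := fun h => hzc (Subtype.ext h)
  have hzcen : ∀ g : P, g * (zc : P) = (zc : P) * g := fun g => Subgroup.mem_center_iff.mp zc.2 g
  have hoz : orderOf (zc : P) = 3 := orderOf_eq_prime (by
    have := hP3 (zc : P).1 (zc : P).2
    apply Subtype.ext
    rw [Subgroup.coe_pow, pow_succ, pow_two]; exact this) hzP1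
  obtain ⟨yP, hyP⟩ : ∃ yP : P, yP ∉ Subgroup.zpowers (zc : P) := by
    by_contra hall
    push Not at hall
    have := orderOf_eq_card_of_forall_mem_zpowers hall
    rw [hoz] at this
    omega
  obtain ⟨z, hzdef⟩ : ∃ z : G, z = ((zc : P) : G) := ⟨_, rfl⟩
  obtain ⟨y, hydef⟩ : ∃ y : G, y = (yP : G) := ⟨_, rfl⟩
  have hzPm : z ∈ P := by rw [hzdef]; exact (zc : P).2
  have hyPm : y ∈ P := by rw [hydef]; exact yP.2
  have hzy : z * y = y * z := by
    rw [hzdef, hydef]; exact (congrArg Subtype.val (hzcen yP)).symm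
  have hz1 : z ≠ 1 := by
    intro h; apply hzP1; apply Subtype.ext; rw [← hzdef, h]; rfl
  have hy1 : y ≠ 1 := by
    intro h; apply hyP
    have : yP = 1 := by apply Subtype.ext; rw [← hydef, h]; rfl
    rw [this]; exact Subgroup.one_mem _
  have hzy1 : z * y ≠ 1 := by
    intro h; apply hyP
    have : yP = (zc : P)⁻¹ := by
      apply Subtype.ext
      rw [Subgroup.coe_inv, ← hydef, ← hzdef]
      exact eq_inv_of_mul_eq_one_right h
    rw [this]; exact Subgroup.inv_mem _ (Subgroup.mem_zpowers _)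
  have hziy1 : z⁻¹ * y ≠ 1 := by
    intro h; apply hyP
    have : yP = (zc : P) := by
      apply Subtype.ext
      rw [← hydef, ← hzdef]
      have := eq_inv_of_mul_eq_one_right h
      rw [inv_inv] at this; exact this
    rw [this]; exact Subgroup.mem_zpowers _
  have hz3 := hP3 z hzPm
  have hy3 := hP3 y hyPm
  have hzy3 := hP3 (z * y) (P.mul_mem hzPm hyPm)
  have hziy3 := hP3 (z⁻¹ * y) (P.mul_mem (P.inv_mem hzPm) hyPm)
  obtain ⟨v, hv, hv1⟩ : ∃ v ∈ V, v ≠ 1 := by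
    obtain ⟨a, ha⟩ := (Subgroup.ne_bot_iff_exists_ne_one).mp hVne
    exact ⟨a.1, a.2, fun h => ha (Subtype.ext h)⟩
  have hw : y * v * y⁻¹ ∈ V := hconjV y v hv
  have hw' : y⁻¹ * v * y ∈ V := hconjV' y v hv
  have E1 := hF y hy3 hy1 v hv
  have E2 := hF (z * y) hzy3 hzy1 v hv
  have E3 := hF (z⁻¹ * y) hziy3 hziy1 v hv
  have E4 := hF z hz3 hz1 _ hw
  have E5 := hF z hz3 hz1 _ hw'
  have a1 : (z * y) * v * (z * y)⁻¹ = z * (y * v * y⁻¹) * z⁻¹ := by group
  have a2 : (z * y)⁻¹ * v * (z * y) = z⁻¹ * (y⁻¹ * v * y) * z := by rw [hzy]; group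
  have hzy' : z⁻¹ * y = y * z⁻¹ := ((show Commute z y from hzy).inv_left).eq
  have a3 : (z⁻¹ * y) * v * (z⁻¹ * y)⁻¹ = z⁻¹ * (y * v * y⁻¹) * z := by group
  have a4 : (z⁻¹ * y)⁻¹ * v * (z⁻¹ * y) = z * (y⁻¹ * v * y) * z⁻¹ := by rw [hzy']; group
  rw [a1, a2] at E2
  rw [a3, a4] at E3
  letI : CommGroup V :=
    { (inferInstance : Group V) with mul_comm := fun a b => Subtype.ext (hVc a a.2 b b.2) }
  have key := oc_comm_prod (A := V) ⟨v, hv⟩ ⟨y * v * y⁻¹, hw⟩ ⟨y⁻¹ * v * y, hw'⟩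
    ⟨z * (y * v * y⁻¹) * z⁻¹, hconjV z _ hw⟩ ⟨z⁻¹ * (y⁻¹ * v * y) * z, hconjV' z _ hw'⟩
    ⟨z⁻¹ * (y * v * y⁻¹) * z, hconjV' z _ hw⟩ ⟨z * (y⁻¹ * v * y) * z⁻¹, hconjV z _ hw'⟩
    (Subtype.ext E1) (Subtype.ext E2) (Subtype.ext E3) (Subtype.ext E4) (Subtype.ext E5)
  have hv3 : v * v * v = 1 := congrArg Subtype.val key
  have hv4 := hV4 v hv
  rw [hv3, one_mul] at hv4
  exact hv1 hv4

theorem oc_caseB (hord : ∀ g : G, orderOf g ≤ 4)
    (x : G) (hx : orderOf x = 3) (g4 : G) (hg4 : orderOf g4 = 4)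
    (V : Subgroup G) [hVn : V.Normal] (hV2 : IsPGroup 2 V) (hVne : V ≠ ⊥)
    (hVc : ∀ a ∈ V, ∀ b ∈ V, a * b = b * a)
    (hprime : ∀ p : ℕ, p.Prime → p ∣ Nat.card G → p = 2 ∨ p = 3) :
    ∃ (N : Subgroup G) (_ : N.Normal),
      (IsPGroup 2 N ∧ Monoid.exponent N = 4 ∧ Group.nilpotencyClass N ≤ 2 ∧ N.index = 3) ∨
      ((∀ n ∈ N, n * n = 1) ∧ Nonempty (G ⧸ N ≃* Equiv.Perm (Fin 3))) := by
  haveI : Fact (Nat.Prime 2) := ⟨Nat.prime_two⟩
  haveI : Fact (Nat.Prime 3) := ⟨Nat.prime_three⟩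
  have hG0 : Nat.card G ≠ 0 := Nat.card_pos.ne'
  obtain ⟨P3⟩ : Nonempty (Sylow 3 G) := inferInstance
  have hP3le := oc_three_sub_card hord V hV2 hVne hVc (P3 : Subgroup G) P3.isPGroup'
  have hP3card := P3.card_eq_multiplicity
  have h3dvd : 3 ∣ Nat.card G := by rw [← hx]; exact orderOf_dvd_natCard x
  have hf3pos : 0 < (Nat.card G).factorization 3 :=
    Nat.Prime.factorization_pos_of_dvd Nat.prime_three hG0 h3dvd
  have hf3 : (Nat.card G).factorization 3 = 1 := by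
    by_contra hne
    have h2 : 2 ≤ (Nat.card G).factorization 3 := by omega
    have : 3 ^ 2 ≤ 3 ^ (Nat.card G).factorization 3 := Nat.pow_le_pow_right (by norm_num) h2
    rw [hP3card] at hP3le; omega
  have hcardG := oc_card_two_three (Nat.card G) hG0 hprime
  rw [hf3, pow_one] at hcardG
  obtain ⟨T⟩ : Nonempty (Sylow 2 G) := inferInstance
  have hTcard := T.card_eq_multiplicity
  have hTidx : (T : Subgroup G).index = 3 := by
    have h := (T : Subgroup G).card_mul_index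
    rw [hTcard] at h
    exact Nat.eq_of_mul_eq_mul_left (by positivity) (h.trans hcardG)
  have hα3 : Nat.card (G ⧸ (T : Subgroup G)) = 3 := by
    rw [← Subgroup.index_eq_card]; exact hTidx
  let eqv : (G ⧸ (T : Subgroup G)) ≃ Fin 3 := Finite.equivFinOfCardEq hα3
  let Φ : G →* Equiv.Perm (Fin 3) :=
    (Equiv.permCongrHom eqv).toMonoidHom.comp (MulAction.toPermHom G (G ⧸ (T : Subgroup G)))
  have hker : Φ.ker ≤ (T : Subgroup G) := by
    intro g hg
    have h1 : (Equiv.permCongrHom eqv) (MulAction.toPermHom G (G ⧸ (T : Subgroup G)) g) = 1 :=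
      MonoidHom.mem_ker.mp hg
    have h2 : MulAction.toPermHom G (G ⧸ (T : Subgroup G)) g = 1 :=
      (Equiv.permCongrHom eqv).map_eq_one_iff.mp h1
    have h3 : g ∈ (MulAction.toPermHom G (G ⧸ (T : Subgroup G))).ker := MonoidHom.mem_ker.mpr h2
    rw [← Subgroup.normalCore_eq_ker] at h3
    exact Subgroup.normalCore_le _ h3
  have hNn : Φ.ker.Normal := inferInstance
  have hN2 : IsPGroup 2 Φ.ker := T.isPGroup'.to_le hker
  have hidx6 : Φ.ker.index ∣ 6 := by
    rw [Subgroup.index_ker]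
    have := Subgroup.card_subgroup_dvd_card Φ.range
    rw [Nat.card_perm, Nat.card_fin] at this
    exact this
  have hidx3 : 3 ∣ Φ.ker.index := by
    obtain ⟨k, hk⟩ := (IsPGroup.iff_card).mp hN2
    have h := Φ.ker.card_mul_index
    rw [hk] at h
    have : 3 ∣ 2 ^ k * Φ.ker.index := by rw [h]; exact h3dvd
    exact (Nat.Coprime.pow_right k (by norm_num : Nat.Coprime 3 2)).dvd_of_dvd_mul_left this
  have hidx : Φ.ker.index = 3 ∨ Φ.ker.index = 6 := by
    have hle := Nat.le_of_dvd (by norm_num) hidx6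
    obtain ⟨c, hc⟩ := hidx3
    have hpos : Φ.ker.index ≠ 0 := Subgroup.index_ne_zero_of_finite
    omega
  have hx3 : x * x * x = 1 := by
    have := pow_orderOf_eq_one x
    rw [hx, pow_succ, pow_two] at this; exact this
  have hx1 : x ≠ 1 := by intro h; rw [h, orderOf_one] at hx; norm_num at hx
  have hN4 : ∀ n ∈ Φ.ker, n * n * n * n = 1 := fun n hn => by
    obtain ⟨k, hk⟩ := hN2 ⟨n, hn⟩
    exact oc_four_of_two_pow hord n k (by simpa using congrArg Subtype.val hk)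
  have hfpf : ∀ n ∈ Φ.ker, x * n = n * x → n = 1 := by
    intro n hn hc
    by_contra hn1
    exact oc_no6 hord x n hc hx3 hx1 hn1 (hN4 n hn)
  have hxN : ∀ n ∈ Φ.ker, x * n * x⁻¹ ∈ Φ.ker := fun n hn => hNn.conj_mem n hn x
  have hE := oc_fpf_three_engel Φ.ker x hx3 hxN hfpf
  have hEN : ∀ a g : Φ.ker, Commute a (g * a * g⁻¹) := by
    intro a g
    have := hE a.1 a.2 g.1 g.2
    exact Subtype.ext this.eq
  refine ⟨Φ.ker, hNn, ?_⟩
  rcases hidx with h3 | h6
  · left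
    refine ⟨hN2, ?_, oc_class_le_two Φ.ker hN2 hEN, h3⟩
    have hg4N : g4 ∈ Φ.ker := by
      have h1 := Φ.ker.pow_index_mem g4
      rw [h3] at h1
      have h44 := pow_orderOf_eq_one g4
      rw [hg4] at h44
      have : g4 = (g4 ^ 3)⁻¹ := by
        rw [eq_inv_iff_mul_eq_one, ← pow_succ']; exact h44
      rw [this]; exact Φ.ker.inv_mem h1
    apply Nat.dvd_antisymm
    · apply Monoid.exponent_dvd_of_forall_pow_eq_one
      intro n
      have := hN4 n.1 n.2
      apply Subtype.ext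
      rw [Subgroup.coe_pow, show (4:ℕ) = 3 + 1 from rfl, pow_succ, pow_succ, pow_two]
      exact this
    · have := Monoid.order_dvd_exponent (⟨g4, hg4N⟩ : Φ.ker)
      rwa [Subgroup.orderOf_mk, hg4] at this
  · right
    have hsurj : Function.Surjective Φ := by
      rw [← MonoidHom.range_eq_top]
      apply Subgroup.eq_top_of_card_eq
      rw [← Subgroup.index_ker, h6, Nat.card_perm, Nat.card_fin]; rfl
    obtain ⟨g0, hg0⟩ := hsurj (Equiv.swap 0 1)
    have hΦx3 : (Φ x) ^ 3 = 1 := by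
      rw [← map_pow]
      have : x ^ 3 = 1 := by rw [pow_succ, pow_two]; exact hx3
      rw [this, map_one]
    have hΦx1 : Φ x ≠ 1 := by
      intro h
      have hxN' : x ∈ Φ.ker := MonoidHom.mem_ker.mpr h
      have := hN4 x hxN'
      rw [hx3, one_mul] at this
      exact hx1 this
    have hperm : ∀ c : Equiv.Perm (Fin 3), c ^ 3 = 1 → c ≠ 1 →
        Equiv.swap 0 1 * c * (Equiv.swap 0 1)⁻¹ = c⁻¹ := by decide
    have h1 : Φ (g0 * x * g0⁻¹ * x) = 1 := by
      rw [map_mul, map_mul, map_mul, map_inv, hg0, hperm _ hΦx3 hΦx1, inv_mul_cancel]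
    have hn1 : g0 * x * g0⁻¹ * x ∈ Φ.ker := MonoidHom.mem_ker.mpr h1
    have hxiN : ∀ n ∈ Φ.ker, x⁻¹ * n * x⁻¹⁻¹ ∈ Φ.ker := fun n hn => hNn.conj_mem n hn x⁻¹
    have hfpfi : ∀ n ∈ Φ.ker, x⁻¹ * n = n * x⁻¹ → n = 1 := by
      intro n hn h
      apply hfpf n hn
      have e : x * n = x * (n * x⁻¹) * x := by group
      rw [e, ← h]; group
    obtain ⟨m, hm, hmeq⟩ := oc_fpf_surj Φ.ker x⁻¹ hxiN hfpfi _ hn1
    rw [inv_inv] at hmeq
    have hsx : (m * g0) * x * (m * g0)⁻¹ = x⁻¹ := by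
      have e : m * g0 * x * (m * g0)⁻¹ = m * ((g0 * x * g0⁻¹ * x) * x⁻¹) * m⁻¹ := by group
      rw [e, hmeq]; group
    have hΦs : Φ (m * g0) = Equiv.swap 0 1 := by
      rw [map_mul, MonoidHom.mem_ker.mp hm, one_mul, hg0]
    have hss : (m * g0) * (m * g0) = 1 := by
      have hssN : (m * g0) * (m * g0) ∈ Φ.ker := by
        apply MonoidHom.mem_ker.mpr
        rw [map_mul, hΦs]; exact Equiv.swap_mul_self 0 1
      apply hfpf _ hssN
      generalize m * g0 = s at hsx ⊢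
      have e1 : (s * s) * x = (s * (s * x * s⁻¹) * s⁻¹) * (s * s) := by group
      rw [hsx] at e1
      have e2 : s * x⁻¹ * s⁻¹ = (s * x * s⁻¹)⁻¹ := by group
      rw [e2, hsx, inv_inv] at e1
      exact e1.symm
    have hN2' : ∀ u : G, u * u = 1 → ∀ n ∈ Φ.ker,
        (n * (u * n * u⁻¹)) * (n * (u * n * u⁻¹)) = 1 := by
      intro u huu n hn
      have hwN : n * (u * n * u⁻¹) ∈ Φ.ker := Φ.ker.mul_mem hn (hNn.conj_mem n hn u)
      have hw : (n * u) * (n * u) = n * (u * n * u⁻¹) := by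
        have e : (n * u) * (n * u) = n * (u * n * u⁻¹) * (u * u) := by group
        rw [e, huu, mul_one]
      rcases oc_cases hord (n * u) with h3' | ⟨_, h4'⟩
      · have hw3 : (n * (u * n * u⁻¹)) * (n * (u * n * u⁻¹)) * (n * (u * n * u⁻¹)) = 1 := by
          rw [← hw]
          generalize n * u = q at h3' ⊢
          have e : q * q * (q * q) * (q * q) = (q * q * q) * (q * q * q) := by
            simp only [mul_assoc]
          rw [e, h3', one_mul]
        have hw4 := hN4 _ hwN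
        rw [hw3, one_mul] at hw4
        rw [hw4, one_mul]
      · rw [← hw, ← mul_assoc]; exact h4'
    haveI : Group.IsNilpotent Φ.ker := hN2.isNilpotent
    have hT := oc_engel_class_two Φ.ker hN2 hEN
    have hcl : ∀ a ∈ Φ.ker, ∀ b ∈ Φ.ker, ∀ c ∈ Φ.ker,
        c * (a * b * a⁻¹ * b⁻¹) = (a * b * a⁻¹ * b⁻¹) * c := by
      intro a ha b hb c hc
      have h := hT ⟨a, ha⟩ ⟨b, hb⟩ ⟨c, hc⟩
      rw [commutatorElement_eq_one_iff_commute] at h
      have h' := congrArg Subtype.val h.eq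
      exact h'.symm
    have hexp := oc_elemab Φ.ker x (m * g0) hx3 hfpf hss hsx hN2' hcl
    exact ⟨hexp, ⟨QuotientGroup.quotientKerEquivOfSurjective Φ hsurj⟩⟩

end ocB

end Cfsg.Agent.Helper22
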