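import Mathlib
import Cfsg.Prelude.Def_Transfer
import Cfsg.Agent.Helper1.Burnside
import Cfsg.Agent.Helper22.OC4c
import Cfsg.Agent.Helper22.OC4d

set_option autoImplicit false

namespace Cfsg.Agent.Helper22

section ocF
open scoped commutatorElement

variable {G : Type*} [Group G] [Finite G]

theorem oc_exists_max_normal_pgroup (p : ℕ) :
    ∃ N : Subgroup G, N.Normal ∧ IsPGroup p N ∧
      ∀ M : Subgroup G, M.Normal → IsPGroup p M → M ≤ N := by
  obtain ⟨N, -, hmax⟩ := Finite.exists_le_maximal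
    (p := fun M : Subgroup G => M.Normal ∧ IsPGroup p M) (a := ⊥) ⟨inferInstance, IsPGroup.of_bot⟩
  refine ⟨N, hmax.prop.1, hmax.prop.2, fun M hMn hMp => ?_⟩
  haveI := hMn
  haveI := hmax.prop.1
  have hsup : (M ⊔ N).Normal ∧ IsPGroup p (M ⊔ N : Subgroup G) :=
    ⟨inferInstance, IsPGroup.to_sup_of_normal_right hMp hmax.prop.2⟩
  exact le_sup_left.trans (hmax.le_of_ge hsup le_sup_right)

theorem oc_exists_normal_abelian [Group.IsSolvable G] [Nontrivial G] :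
    ∃ p : ℕ, p.Prime ∧ ∃ V : Subgroup G, V.Normal ∧ IsPGroup p V ∧
      (∀ a ∈ V, ∀ b ∈ V, a * b = b * a) ∧ ∃ a ∈ V, orderOf a = p := by
  classical
  have hex : ∃ n : ℕ, derivedSeries G n = ⊥ := Group.IsSolvable.solvable
  have h0 : derivedSeries G (Nat.find hex) = ⊥ := Nat.find_spec hex
  have hn0 : Nat.find hex ≠ 0 := by
    intro h
    rw [h, derivedSeries_zero] at h0
    exact top_ne_bot h0
  obtain ⟨k, hk⟩ := Nat.exists_eq_succ_of_ne_zero hn0
  have hAne : derivedSeries G k ≠ ⊥ := Nat.find_min hex (by omega)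
  have hAn : (derivedSeries G k).Normal := derivedSeries_normal G k
  have hAc : ∀ a ∈ derivedSeries G k, ∀ b ∈ derivedSeries G k, a * b = b * a := by
    intro a ha b hb
    have h1 : ⁅a, b⁆ ∈ derivedSeries G (k + 1) := by
      rw [derivedSeries_succ]; exact Subgroup.commutator_mem_commutator ha hb
    rw [← Nat.succ_eq_add_one, ← hk, h0, Subgroup.mem_bot, commutatorElement_eq_one_iff_commute] at h1
    exact h1.eq
  have hcard1 : Nat.card (derivedSeries G k) ≠ 1 := by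
    intro h
    exact hAne ((Subgroup.card_eq_one).mp h)
  obtain ⟨p, hp, hpd⟩ := Nat.exists_prime_and_dvd hcard1
  haveI := Fact.mk hp
  obtain ⟨a0, ha0⟩ := exists_prime_orderOf_dvd_card' p hpd
  let V : Subgroup G :=
    { carrier := {a | a ∈ derivedSeries G k ∧ ∃ j : ℕ, a ^ (p ^ j) = 1}
      mul_mem' := by
        rintro a b ⟨ha, j, hj⟩ ⟨hb, l, hl⟩
        refine ⟨Subgroup.mul_mem _ ha hb, j + l, ?_⟩
        rw [(show Commute a b from hAc a ha b hb).mul_pow, pow_add, pow_mul, hj, one_pow,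
          mul_comm (p ^ j), pow_mul, hl, one_pow, one_mul]
      one_mem' := ⟨Subgroup.one_mem _, 0, one_pow _⟩
      inv_mem' := by
        rintro a ⟨ha, j, hj⟩
        exact ⟨Subgroup.inv_mem _ ha, j, by rw [inv_pow, hj, inv_one]⟩ }
  refine ⟨p, hp, V, ?_, ?_, ?_, ?_⟩
  · constructor
    rintro n ⟨hn, j, hj⟩ g
    refine ⟨hAn.conj_mem n hn g, j, ?_⟩
    rw [conj_pow, hj]; group
  · rintro ⟨v, hv, j, hj⟩
    exact ⟨j, Subtype.ext (by rw [Subgroup.coe_pow]; exact hj)⟩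
  · rintro a ⟨ha, -⟩ b ⟨hb, -⟩
    exact hAc a ha b hb
  · refine ⟨a0.1, ⟨a0.2, 1, ?_⟩, ?_⟩
    · rw [pow_one, ← ha0, ← Subgroup.orderOf_coe]; exact pow_orderOf_eq_one _
    · rw [Subgroup.orderOf_coe]; exact ha0

theorem oc_main (h : Set.range (orderOf : G → ℕ) = {k : ℕ | 1 ≤ k ∧ k ≤ 4}) :
    ∃ (N : Subgroup G) (_ : N.Normal),
      (IsPGroup 2 ↥N ∧ Monoid.exponent ↥N = 4 ∧ Group.nilpotencyClass ↥N ≤ 2 ∧ N.index = 3) ∨
      (Cfsg.IsElementaryAbelian 2 N ∧ Nonempty (G ⧸ N ≃* Equiv.Perm (Fin 3))) ∨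
      (Cfsg.IsElementaryAbelian 3 N ∧ ((IsCyclic (G ⧸ N) ∧ N.index = 4) ∨
        Nonempty (G ⧸ N ≃* QuaternionGroup 2))) := by
  have hord : ∀ g : G, orderOf g ≤ 4 := fun g => by
    have : orderOf g ∈ Set.range (orderOf : G → ℕ) := ⟨g, rfl⟩
    rw [h] at this; exact this.2
  obtain ⟨t, ht⟩ : ∃ t : G, orderOf t = 2 := by
    have : (2:ℕ) ∈ {k : ℕ | 1 ≤ k ∧ k ≤ 4} := ⟨by norm_num, by norm_num⟩
    rw [← h] at this; exact this
  obtain ⟨x, hx⟩ : ∃ x : G, orderOf x = 3 := by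
    have : (3:ℕ) ∈ {k : ℕ | 1 ≤ k ∧ k ≤ 4} := ⟨by norm_num, by norm_num⟩
    rw [← h] at this; exact this
  obtain ⟨g4, hg4⟩ : ∃ g : G, orderOf g = 4 := by
    have : (4:ℕ) ∈ {k : ℕ | 1 ≤ k ∧ k ≤ 4} := ⟨by norm_num, by norm_num⟩
    rw [← h] at this; exact this
  have hprime : ∀ p : ℕ, p.Prime → p ∣ Nat.card G → p = 2 ∨ p = 3 := by
    intro p hp hdvd
    haveI := Fact.mk hp
    obtain ⟨g, hg⟩ := exists_prime_orderOf_dvd_card' p hdvd
    have h4 := hord g
    rw [hg] at h4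
    have h2 := hp.two_le
    interval_cases p
    · left; rfl
    · right; rfl
    · exact absurd hp (by norm_num)
  have hG0 : Nat.card G ≠ 0 := Nat.card_pos.ne'
  have hcardG := oc_card_two_three (Nat.card G) hG0 hprime
  haveI hsolv : Group.IsSolvable G :=
    Cfsg.Agent.Helper1.isSolvable_of_card_eq_prime_pow_mul_prime_pow 2 3 _ _
      Nat.prime_two Nat.prime_three hcardG
  haveI : Nontrivial G := by
    refine ⟨⟨t, 1, ?_⟩⟩
    intro h1; rw [h1, orderOf_one] at ht; norm_num at ht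
  obtain ⟨p, hp, V, hVn, hVp, hVc, a, haV, hap⟩ := oc_exists_normal_abelian (G := G)
  have ha1 : a ≠ 1 := by
    intro h1; rw [h1, orderOf_one] at hap; exact hp.one_lt.ne hap
  have hVne : V ≠ ⊥ := by
    intro hb; rw [hb, Subgroup.mem_bot] at haV; exact ha1 haV
  have hp23 := hprime p hp (by rw [← hap]; exact orderOf_dvd_natCard a)
  rcases hp23 with rfl | rfl
  · -- p = 2
    obtain ⟨N, hNn, hN⟩ := oc_caseB hord x hx g4 hg4 V hVp hVne hVc hprime
    refine ⟨N, hNn, ?_⟩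
    rcases hN with h1 | ⟨hexp, hiso⟩
    · left; exact h1
    · right; left
      refine ⟨⟨⟨⟨fun a b => ?_⟩⟩, fun a ha => by rw [pow_two]; exact hexp a ha⟩, hiso⟩
      apply Subtype.ext
      have haa := hexp a.1 a.2
      have hbb := hexp b.1 b.2
      have hab := hexp (a.1 * b.1) (N.mul_mem a.2 b.2)
      have h1 : a.1 * b.1 = (a.1 * b.1)⁻¹ := eq_inv_of_mul_eq_one_left hab
      rw [mul_inv_rev, inv_eq_of_mul_eq_one_left hbb, inv_eq_of_mul_eq_one_left haa] at h1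
      exact h1
  · -- p = 3
    obtain ⟨N, hNn, hN3, hmax⟩ := oc_exists_max_normal_pgroup (G := G) 3
    have hVN : V ≤ N := hmax V hVn hVp
    have hNne : N ≠ ⊥ := by
      intro hb; rw [hb] at hVN; exact hVne (le_bot_iff.mp hVN)
    haveI := hNn
    obtain ⟨hab, h3, hq⟩ := oc_caseA hord t ht g4 hg4 N hN3 hNne hmax
    refine ⟨N, hNn, Or.inr (Or.inr ⟨⟨⟨⟨fun a b => Subtype.ext (hab a.1 a.2 b.1 b.2)⟩⟩, h3⟩, hq⟩)⟩

end ocF

end Cfsg.Agent.Helper22
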