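import Mathlib
import Cfsg.Agent.Helper22.FrobCount
import Cfsg.Agent.Helper9.Recog

set_option autoImplicit false

namespace Cfsg.Agent.Helper22

universe u

theorem card_orderOf_eq_one {G : Type*} [Group G] :
    Nat.card {g : G // orderOf g = 1} = 1 := by
  rw [Nat.card_eq_one_iff_unique]
  refine ⟨⟨fun a b => ?_⟩, ⟨⟨1, orderOf_one⟩⟩⟩
  apply Subtype.ext
  rw [orderOf_eq_one_iff.mp a.2, orderOf_eq_one_iff.mp b.2]

theorem card_orderOf_ne_zero_iff {G : Type*} [Group G] [Finite G] (d : ℕ) :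
    Nat.card {g : G // orderOf g = d} ≠ 0 ↔ ∃ g : G, orderOf g = d := by
  rw [Nat.card_ne_zero]
  constructor
  · rintro ⟨⟨g, hg⟩, _⟩; exact ⟨g, hg⟩
  · rintro ⟨g, hg⟩; exact ⟨⟨⟨g, hg⟩⟩, inferInstance⟩

theorem card_pow_eq_one_eq_sum {G : Type*} [Group G] [Finite G] (k : ℕ) (hk : k ≠ 0) :
    Nat.card {g : G // g ^ k = 1} = ∑ d ∈ k.divisors, Nat.card {g : G // orderOf g = d} := by
  classical
  have := Fintype.ofFinite G
  simp only [Nat.card_eq_fintype_card, Fintype.card_subtype]
  rw [Finset.card_eq_sum_card_fiberwise (f := orderOf) (t := k.divisors)]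
  · apply Finset.sum_congr rfl
    intro d hd
    congr 1
    ext g
    simp only [Finset.mem_filter, Finset.mem_univ, true_and]
    constructor
    · rintro ⟨_, h⟩; exact h
    · intro h; refine ⟨?_, h⟩
      rw [← orderOf_dvd_iff_pow_eq_one, h]; exact Nat.dvd_of_mem_divisors hd
  · intro g hg
    have hg' : g ^ k = 1 := by simpa using hg
    have : orderOf g ∈ k.divisors := by
      rw [Nat.mem_divisors]; exact ⟨orderOf_dvd_of_pow_eq_one hg', hk⟩
    exact_mod_cast this

/-- Frobenius in divisor-sum form. -/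
theorem dvd_sum_card_orderOf {G : Type u} [Group G] [Finite G] (k : ℕ) (hk : k ∣ Nat.card G) :
    k ∣ ∑ d ∈ k.divisors, Nat.card {g : G // orderOf g = d} := by
  have hk0 : k ≠ 0 := by
    rintro rfl
    have := Nat.card_pos (α := G)
    rw [Nat.zero_dvd] at hk; omega
  rw [← card_pow_eq_one_eq_sum k hk0]
  exact frobenius_dvd_card_pow_eq_one k hk

theorem sum_divisors_coprime_mul {M : Type*} [AddCommMonoid M] {a b : ℕ} (hab : a.Coprime b)
    (F : ℕ → M) :
    ∑ d ∈ (a * b).divisors, F d = ∑ x ∈ a.divisors, ∑ y ∈ b.divisors, F (x * y) := by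
  rw [Nat.divisors_mul, Finset.mul_def, Finset.sum_image, Finset.sum_product]
  intro x hx y hy hxy
  exact hab.mul_injOn_divisors hx hy hxy

theorem card_orderOf_even {G : Type*} [Group G] [Finite G] (d : ℕ) (hd : 3 ≤ d) :
    Even (Nat.card {g : G // orderOf g = d}) := by
  have h1 := totient_dvd_card_orderOf_eq (G := G) d
  have h2 : Even (Nat.totient d) := Nat.totient_even (by omega)
  exact (even_iff_two_dvd.mpr (Dvd.dvd.trans (even_iff_two_dvd.mp h2) h1))

theorem le_two_of_card_orderOf_eq_one {G : Type*} [Group G] [Finite G] (d : ℕ)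
    (h : Nat.card {g : G // orderOf g = d} = 1) : d = 1 ∨ d = 2 := by
  have h1 := totient_dvd_card_orderOf_eq (G := G) d
  rw [h, Nat.dvd_one] at h1
  exact Nat.totient_eq_one_iff.mp h1

theorem exists_orderOf_eq_of_dvd {G : Type*} [Group G] [Finite G] (g : G) (d : ℕ)
    (hd : d ∣ orderOf g) : ∃ x : G, orderOf x = d := by
  have hpos : 0 < orderOf g := orderOf_pos g
  have hd0 : 0 < d := Nat.pos_of_dvd_of_pos hd hpos
  refine ⟨g ^ (orderOf g / d), ?_⟩
  rw [orderOf_pow_of_dvd (Nat.div_pos (Nat.le_of_dvd hpos hd) hd0).ne' (Nat.div_dvd_of_dvd hd),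
    Nat.div_div_self hd hpos.ne']

theorem pow_prime_eq_one_of_no_sq {G : Type*} [Group G] [Finite G] (p : ℕ)
    (h : Nat.card {g : G // orderOf g = p ^ 2} = 0) (g : G) (hg : ∃ k : ℕ, orderOf g = p ^ k) :
    g ^ p = 1 := by
  obtain ⟨k, hk⟩ := hg
  by_cases hk1 : k ≤ 1
  · apply orderOf_dvd_iff_pow_eq_one.mp
    rw [hk]
    calc p ^ k ∣ p ^ 1 := pow_dvd_pow p hk1
      _ = p := pow_one p
  · exfalso
    have h2 : p ^ 2 ∣ orderOf g := by rw [hk]; exact pow_dvd_pow p (by omega)
    exact (card_orderOf_ne_zero_iff (G := G) (p ^ 2)).mpr (exists_orderOf_eq_of_dvd g _ h2) h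

/-- A group of exponent 4 with a unique involution is `C₄` or `Q₈`. -/
theorem c4_or_q8 {G : Type*} [Group G] [Finite G] (hinv : ∀ g h : G, orderOf g = 2 → orderOf h = 2 → g = h)
    (h4 : ∀ g : G, g ^ 4 = 1) (a : G) (ha : orderOf a = 4) :
    (IsCyclic G ∧ Nat.card G = 4) ∨ Nonempty (G ≃* QuaternionGroup 2) := by
  have hz2 : orderOf (a ^ 2) = 2 := by
    rw [orderOf_pow_of_dvd (by norm_num) (by rw [ha]; norm_num), ha]
  have hzz : a ^ 2 * a ^ 2 = 1 := by rw [← pow_add]; exact h4 a
  have hzinv : (a ^ 2)⁻¹ = a ^ 2 := inv_eq_of_mul_eq_one_left hzz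
  have hord : ∀ g : G, orderOf g = 1 ∨ orderOf g = 2 ∨ orderOf g = 4 := by
    intro g
    have h1 : orderOf g ∣ 4 := orderOf_dvd_of_pow_eq_one (h4 g)
    have h2 : orderOf g ≤ 4 := Nat.le_of_dvd (by norm_num) h1
    have h3 : 0 < orderOf g := orderOf_pos g
    interval_cases h : orderOf g
    · left; rfl
    · right; left; rfl
    · exfalso; revert h1; norm_num
    · right; right; rfl
  have hsq : ∀ g : G, g ≠ 1 → g ≠ a ^ 2 → g ^ 2 = a ^ 2 := by
    intro g hg1 hgz
    rcases hord g with h | h | h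
    · exact absurd (orderOf_eq_one_iff.mp h) hg1
    · exact absurd (hinv g (a ^ 2) h hz2) hgz
    · apply hinv _ _ _ hz2
      rw [orderOf_pow_of_dvd (by norm_num) (by rw [h]; norm_num), h]
  have hsq' : ∀ g : G, g ^ 2 = 1 ∨ g ^ 2 = a ^ 2 := by
    intro g
    by_cases hg1 : g = 1
    · left; rw [hg1, one_pow]
    · by_cases hgz : g = a ^ 2
      · left; rw [hgz, ← pow_mul]; exact h4 a
      · right; exact hsq g hg1 hgz
  have hzc : ∀ g : G, g * a ^ 2 * g⁻¹ = a ^ 2 := by
    intro g
    apply hinv _ _ _ hz2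
    have := orderOf_injective (MulAut.conj g).toMonoidHom (MulEquiv.injective _) (a ^ 2)
    exact this.trans hz2
  have hzc' : ∀ g : G, g * a ^ 2 = a ^ 2 * g := by
    intro g
    have := hzc g
    calc g * a ^ 2 = g * a ^ 2 * g⁻¹ * g := by group
      _ = a ^ 2 * g := by rw [this]
  have hainv : a⁻¹ * a ^ 2 = a := by group
  have hconj : ∀ g : G, g * a * g⁻¹ = a ∨ g * a * g⁻¹ = a⁻¹ := by
    intro g
    have e1 : g * a * g⁻¹ = (g * a) ^ 2 * a⁻¹ * (g ^ 2)⁻¹ := by
      rw [pow_two, pow_two]; group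
    rcases hsq' (g * a) with h1 | h1 <;> rcases hsq' g with h2 | h2
    · right; rw [e1, h1, h2]; group
    · left; rw [e1, h1, h2, hzinv, one_mul]; exact hainv
    · left; rw [e1, h1, h2, inv_one, mul_one, ← hzc' a⁻¹]; exact hainv
    · right; rw [e1, h1, h2, ← hzc' a⁻¹, mul_assoc, hzinv, hzz, mul_one]
  have hane : a⁻¹ ≠ a := by
    intro h
    have h1 : a ^ 2 = 1 := by
      calc a ^ 2 = a * a := pow_two a
        _ = a⁻¹ * a := by rw [h]
        _ = 1 := inv_mul_cancel a
    have := orderOf_dvd_of_pow_eq_one h1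
    rw [ha] at this; revert this; norm_num
  have hcen : ∀ b : G, b * a = a * b → b ∈ Subgroup.zpowers a := by
    intro b hb
    by_contra hbn
    have hb1 : b ≠ 1 := fun h => hbn (h ▸ one_mem _)
    have hbz : b ≠ a ^ 2 := fun h => hbn (h ▸ Subgroup.npow_mem_zpowers a 2)
    have h1 : (a * b) ^ 2 = 1 := by
      have hc : Commute a b := hb.symm
      rw [hc.mul_pow, hsq b hb1 hbz]; exact hzz
    have h2 : a * b ∈ Subgroup.zpowers a := by
      rcases hord (a * b) with h | h | h
      · rw [orderOf_eq_one_iff.mp h]; exact one_mem _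
      · rw [hinv _ _ h hz2]; exact Subgroup.npow_mem_zpowers a 2
      · exfalso
        have := orderOf_dvd_of_pow_eq_one h1
        rw [h] at this; revert this; norm_num
    apply hbn
    have : b = a⁻¹ * (a * b) := by group
    rw [this]
    exact mul_mem (inv_mem (Subgroup.mem_zpowers a)) h2
  have hcardH : Nat.card (Subgroup.zpowers a) = 4 := by rw [Nat.card_zpowers, ha]
  by_cases hall : ∀ g : G, g * a = a * g
  · left
    have htop : Subgroup.zpowers a = ⊤ := by
      rw [eq_top_iff]; intro g _; exact hcen g (hall g)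
    have hN : Nat.card G = 4 := by
      rw [← hcardH, htop, Subgroup.card_top]
    exact ⟨isCyclic_of_orderOf_eq_card a (ha.trans hN.symm), hN⟩
  · right
    push_neg at hall
    obtain ⟨g₀, hg₀⟩ := hall
    have hg₀a : g₀ * a * g₀⁻¹ = a⁻¹ := by
      rcases hconj g₀ with h | h
      · exfalso; apply hg₀
        calc g₀ * a = g₀ * a * g₀⁻¹ * g₀ := by group
          _ = a * g₀ := by rw [h]
      · exact h
    have hg₀n : g₀ ∉ Subgroup.zpowers a := by
      intro h
      obtain ⟨k, rfl⟩ := Subgroup.mem_zpowers_iff.mp h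
      apply hg₀
      exact ((Commute.refl a).zpow_left k).eq
    have hg₀1 : g₀ ≠ 1 := fun h => hg₀n (h ▸ one_mem _)
    have hg₀z : g₀ ≠ a ^ 2 := fun h => hg₀n (h ▸ Subgroup.npow_mem_zpowers a 2)
    have hcover : ∀ g : G, g ∈ Subgroup.zpowers a ∨ g₀⁻¹ * g ∈ Subgroup.zpowers a := by
      intro g
      rcases hconj g with h | h
      · left; apply hcen
        calc g * a = g * a * g⁻¹ * g := by group
          _ = a * g := by rw [h]
      · right; apply hcen
        have e1 : g₀⁻¹ * a⁻¹ * g₀ = a := by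
          rw [← hg₀a]; group
        calc g₀⁻¹ * g * a = g₀⁻¹ * (g * a * g⁻¹) * g₀ * (g₀⁻¹ * g) := by group
          _ = a * (g₀⁻¹ * g) := by rw [h, e1]
    have hidx : (Subgroup.zpowers a).index ≤ 2 := by
      have hsurj : Function.Surjective
          (fun b : Bool => ((if b then (1 : G) else g₀ : G) : G ⧸ Subgroup.zpowers a)) := by
        intro q
        induction q using QuotientGroup.induction_on with
        | H g =>
          rcases hcover g with h | h
          · refine ⟨true, ?_⟩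
            simp only [if_true]
            rw [QuotientGroup.eq]; simpa using h
          · refine ⟨false, ?_⟩
            simp only [Bool.false_eq_true, if_false]
            rw [QuotientGroup.eq]; exact h
      have := Nat.card_le_card_of_surjective _ hsurj
      have h2 : Nat.card Bool = 2 := by rw [Nat.card_eq_fintype_card, Fintype.card_bool]
      rw [h2] at this
      exact this
    have hidx2 : (Subgroup.zpowers a).index = 2 := by
      have h0 : (Subgroup.zpowers a).index ≠ 0 := Subgroup.index_ne_zero_of_finite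
      have h1 : (Subgroup.zpowers a).index ≠ 1 := by
        intro h
        rw [Subgroup.index_eq_one] at h
        exact hg₀n (h ▸ Subgroup.mem_top g₀)
      omega
    have hN : Nat.card G = 4 * 2 := by
      rw [← Subgroup.card_mul_index (Subgroup.zpowers a), hcardH, hidx2]
    haveI : NeZero 2 := ⟨by norm_num⟩
    exact Cfsg.Agent.Helper9.quaternion_equiv_of 2 a g₀ (by rw [ha]) 
      (by rw [← pow_two]; exact hsq g₀ hg₀1 hg₀z) hg₀a hg₀n hN

theorem exists_type0_copy (H : Type*) [Group H] [Finite H] :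
    ∃ (P₀ : Type) (_ : Group P₀) (_ : Finite P₀), Nonempty (P₀ ≃* H) :=
  ⟨Fin (Nat.card H), (Finite.equivFin H).symm.group, inferInstance,
    ⟨(Finite.equivFin H).symm.mulEquiv⟩⟩

theorem equiv_zmod2_prod {G : Type*} [Group G] [Finite G] (z : G) (hz : orderOf z = 2)
    (hzc : ∀ g : G, g * z = z * g) (P : Subgroup G) (hP : P.index = 2) (hzP : z ∉ P)
    {P₀ : Type*} [Group P₀] (eM : P₀ ≃* ↥P) : Nonempty (G ≃* Multiplicative (ZMod 2) × P₀) := by
  haveI : Fact (Nat.Prime 2) := ⟨Nat.prime_two⟩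
  have hc2 : Nat.card (Multiplicative (ZMod 2)) = 2 := by
    rw [Nat.card_eq_fintype_card, Fintype.card_multiplicative, ZMod.card]
  have hcz : Nat.card (Subgroup.zpowers z) = 2 := by rw [Nat.card_zpowers, hz]
  let e₁ : Multiplicative (ZMod 2) ≃* ↥(Subgroup.zpowers z) := mulEquivOfPrimeCardEq hc2 hcz
  let f₁ : Multiplicative (ZMod 2) →* G := (Subgroup.zpowers z).subtype.comp e₁.toMonoidHom
  let f₂ : P₀ →* G := P.subtype.comp eM.toMonoidHom
  have hzp : ∀ w ∈ Subgroup.zpowers z, w = 1 ∨ w = z := by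
    intro w hw
    obtain ⟨k, rfl⟩ := Subgroup.mem_zpowers_iff.mp hw
    rw [← zpow_mod_orderOf, hz]
    rcases Int.emod_two_eq_zero_or_one k with h | h
    · left; rw [show ((2 : ℕ) : ℤ) = 2 from rfl, h, zpow_zero]
    · right; rw [show ((2 : ℕ) : ℤ) = 2 from rfl, h, zpow_one]
  have hcomm : ∀ m n, Commute (f₁ m) (f₂ n) := by
    intro m n
    have hm : f₁ m ∈ Subgroup.zpowers z := (e₁ m).2
    rcases hzp _ hm with h | h
    · rw [h]; exact Commute.one_left _
    · rw [h]; exact (hzc _).symm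
  let φ : Multiplicative (ZMod 2) × P₀ →* G := f₁.noncommCoprod f₂ hcomm
  have hinj : Function.Injective φ := by
    rw [injective_iff_map_eq_one]
    rintro ⟨m, n⟩ hmn
    have h1 : f₁ m * f₂ n = 1 := hmn
    have h2 : f₁ m ∈ P := by
      have : f₁ m = (f₂ n)⁻¹ := eq_inv_of_mul_eq_one_left h1
      rw [this]; exact inv_mem (eM n).2
    have hm : f₁ m ∈ Subgroup.zpowers z := (e₁ m).2
    have h3 : f₁ m = 1 := by
      rcases hzp _ hm with h | h
      · exact h
      · exact absurd (h ▸ h2) hzP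
    have h4 : m = 1 := by
      have : e₁ m = 1 := Subtype.ext h3
      exact (MulEquiv.map_eq_one_iff e₁).mp this
    have h5 : f₂ n = 1 := by rw [h3, one_mul] at h1; exact h1
    have h6 : n = 1 := by
      have : eM n = 1 := Subtype.ext h5
      exact (MulEquiv.map_eq_one_iff eM).mp this
    rw [h4, h6]; rfl
  have hcard : Nat.card G ≤ Nat.card (Multiplicative (ZMod 2) × P₀) := by
    rw [Nat.card_prod, hc2, Nat.card_congr eM.toEquiv, ← Subgroup.card_mul_index P, hP, mul_comm]
  haveI : Finite P₀ := Finite.of_equiv _ eM.symm.toEquiv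
  have hbij : Function.Bijective φ := Function.Injective.bijective_of_nat_card_le hinj hcard
  exact ⟨(MulEquiv.ofBijective φ hbij).symm⟩

end Cfsg.Agent.Helper22
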