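import Mathlib
import Cfsg.Prelude
import Cfsg.Agent.Helper22.StemDihedral

set_option autoImplicit false

namespace Cfsg.Agent.Helper22

open scoped commutatorElement

universe u v

section

variable {Γ : Type*} [Group Γ]

/-- A homomorphism from a perfect group to a commutative group is trivial. -/
theorem hom_trivial_of_perfect [Group.IsPerfect Γ] {A : Type*} [Group A]
    (hA : ∀ a b : A, a * b = b * a) (f : Γ →* A) (g : Γ) : f g = 1 := by
  have h : commutator Γ ≤ f.ker := by
    rw [commutator_def, Subgroup.commutator_le]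
    intro g₁ _ g₂ _
    rw [MonoidHom.mem_ker, commutatorElement_def, map_mul, map_mul, map_mul, map_inv, map_inv,
      hA (f g₁) (f g₂)]
    group
  have hg : g ∈ commutator Γ := Group.IsPerfect.mem_commutator
  exact h hg

theorem center_comm (G : Type*) [Group G] (a b : Subgroup.center G) : a * b = b * a := by
  apply Subtype.ext
  exact (Subgroup.mem_center_iff.mp a.2 b).symm

/-- In a perfect group, an element all of whose commutators are central is central. -/
theorem central_of_comm_central [Group.IsPerfect Γ] (x : Γ)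
    (h : ∀ y : Γ, x * y * x⁻¹ * y⁻¹ ∈ Subgroup.center Γ) : x ∈ Subgroup.center Γ := by
  let f : Γ →* Subgroup.center Γ :=
    { toFun := fun y => ⟨x * y * x⁻¹ * y⁻¹, h y⟩
      map_one' := by apply Subtype.ext; simp
      map_mul' := by
        intro y y'
        apply Subtype.ext
        show x * (y * y') * x⁻¹ * (y * y')⁻¹ = (x * y * x⁻¹ * y⁻¹) * (x * y' * x⁻¹ * y'⁻¹)
        have hc := Subgroup.mem_center_iff.mp (h y') y
        calc x * (y * y') * x⁻¹ * (y * y')⁻¹
            = (x * y * x⁻¹ * y⁻¹) * (y * (x * y' * x⁻¹ * y'⁻¹)) * y⁻¹ := by group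
          _ = (x * y * x⁻¹ * y⁻¹) * ((x * y' * x⁻¹ * y'⁻¹) * y) * y⁻¹ := by rw [hc]
          _ = _ := by group }
  rw [Subgroup.mem_center_iff]
  intro y
  have h1 := hom_trivial_of_perfect (center_comm Γ) f y
  have h2 : x * y * x⁻¹ * y⁻¹ = 1 := congrArg Subtype.val h1
  calc y * x = (x * y * x⁻¹ * y⁻¹)⁻¹ * (x * y) := by group
    _ = x * y := by rw [h2, inv_one, one_mul]

/-- Two homomorphisms from a perfect group that agree modulo the centre are equal. -/
theorem hom_eq_of_perfect_of_central {G X : Type*} [Group G] [Group X] [Group.IsPerfect G]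
    (η₁ η₂ : G →* X) (h : ∀ g, η₁ g * (η₂ g)⁻¹ ∈ Subgroup.center X) : η₁ = η₂ := by
  let f : G →* Subgroup.center X :=
    { toFun := fun g => ⟨η₁ g * (η₂ g)⁻¹, h g⟩
      map_one' := by apply Subtype.ext; simp
      map_mul' := by
        intro a b
        apply Subtype.ext
        show η₁ (a * b) * (η₂ (a * b))⁻¹ = (η₁ a * (η₂ a)⁻¹) * (η₁ b * (η₂ b)⁻¹)
        have hc := Subgroup.mem_center_iff.mp (h b) (η₂ a)⁻¹
        rw [map_mul, map_mul, mul_inv_rev]
        calc η₁ a * η₁ b * ((η₂ b)⁻¹ * (η₂ a)⁻¹)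
            = η₁ a * ((η₁ b * (η₂ b)⁻¹) * (η₂ a)⁻¹) := by group
          _ = η₁ a * ((η₂ a)⁻¹ * (η₁ b * (η₂ b)⁻¹)) := by rw [hc]
          _ = _ := by group }
  ext g
  have h1 := hom_trivial_of_perfect (center_comm X) f g
  have h2 : η₁ g * (η₂ g)⁻¹ = 1 := congrArg Subtype.val h1
  exact mul_inv_eq_one.mp h2

theorem commutatorElement_mul_central (a b z₁ z₂ : Γ) (h₁ : z₁ ∈ Subgroup.center Γ)
    (h₂ : z₂ ∈ Subgroup.center Γ) : ⁅a * z₁, b * z₂⁆ = ⁅a, b⁆ := by
  rw [commutatorElement_def, commutatorElement_def]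
  have e1 : ∀ g, g * z₁ = z₁ * g := Subgroup.mem_center_iff.mp h₁
  have e2 : ∀ g, g * z₂ = z₂ * g := Subgroup.mem_center_iff.mp h₂
  calc a * z₁ * (b * z₂) * (a * z₁)⁻¹ * (b * z₂)⁻¹
      = a * ((b * z₂) * z₁) * z₁⁻¹ * a⁻¹ * z₂⁻¹ * b⁻¹ := by rw [e1 (b * z₂)]; group
    _ = a * b * (a⁻¹ * z₂) * z₂⁻¹ * b⁻¹ := by rw [e2 a⁻¹]; group
    _ = a * b * a⁻¹ * b⁻¹ := by group

theorem commutatorSet_surj (G : Type*) [Group G] :
    ∃ f : (G ⧸ Subgroup.center G) × (G ⧸ Subgroup.center G) → commutatorSet G,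
      Function.Surjective f := by
  let f : (G ⧸ Subgroup.center G) × (G ⧸ Subgroup.center G) → commutatorSet G := fun ab =>
    Quotient.liftOn₂' ab.1 ab.2
      (fun g₁ g₂ => (⟨⁅g₁, g₂⁆, commutator_mem_commutatorSet g₁ g₂⟩ : commutatorSet G))
      (by
        intro a₁ b₁ a₂ b₂ ha hb
        apply Subtype.ext
        rw [QuotientGroup.leftRel_apply] at ha hb
        show ⁅a₁, b₁⁆ = ⁅a₂, b₂⁆
        have e1 : a₂ = a₁ * (a₁⁻¹ * a₂) := by group
        have e2 : b₂ = b₁ * (b₁⁻¹ * b₂) := by group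
        rw [e1, e2, commutatorElement_mul_central _ _ _ _ ha hb])
  refine ⟨f, ?_⟩
  rintro ⟨c, hc⟩
  obtain ⟨g₁, g₂, rfl⟩ := mem_commutatorSet_iff.mp hc
  exact ⟨(QuotientGroup.mk g₁, QuotientGroup.mk g₂), rfl⟩

theorem finite_commutatorSet_of_finite_quot (G : Type*) [Group G]
    [Finite (G ⧸ Subgroup.center G)] : Finite (commutatorSet G) := by
  obtain ⟨f, hf⟩ := commutatorSet_surj G
  exact Finite.of_surjective f hf

theorem card_commutatorSet_le (G : Type*) [Group G] [Finite (G ⧸ Subgroup.center G)] :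
    Nat.card (commutatorSet G) ≤ (Subgroup.center G).index ^ 2 := by
  obtain ⟨f, hf⟩ := commutatorSet_surj G
  have := Nat.card_le_card_of_surjective f hf
  rw [Nat.card_prod, ← Subgroup.index_eq_card] at this
  rw [pow_two]; exact this

end

/-- Kernels of finite stem extensions of a group with trivial Schur multiplier are trivial. -/
theorem ker_eq_bot_of_trivial_multiplier {G : Type u} [Group G]
    (h : Cfsg.HasCyclicSchurMultiplier G 1) (Γ : Type u) [Group Γ] [Finite Γ] (σ : Γ →* G)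
    (hσ : Cfsg.IsStemExtension σ) : σ.ker = ⊥ := by
  obtain ⟨π', hπ'⟩ := h.2 Γ σ hσ
  rw [Subgroup.eq_bot_iff_forall]
  intro x hx
  obtain ⟨a, ha⟩ := hπ' ⟨x, hx⟩
  have ha1 : a = 1 := by
    apply Multiplicative.toAdd.injective
    exact Subsingleton.elim _ _
  rw [ha1, map_one] at ha
  exact (congrArg Subtype.val ha).symm

/-- A finite perfect group all of whose finite perfect central extensions are trivial lifts
along every central surjection. -/
theorem exists_lift_of_perfect_cover {G : Type u} {Q : Type v} [Group G] [Group Q] [Finite G]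
    [Group.IsPerfect G]
    (hstem : ∀ (E : Type u) [Group E] [Finite E] (p : E →* G), Function.Surjective p →
      p.ker ≤ Subgroup.center E → Group.IsPerfect E → Function.Injective p)
    (π : G →* Q) (X : Type u) [Group X] (ξ : X →* Q) (hξ : Function.Surjective ξ)
    (hξc : ξ.ker ≤ Subgroup.center X) : ∃ η : G →* X, ξ.comp η = π := by
  classical
  let P : Subgroup (G × X) :=
    (π.comp (MonoidHom.fst G X)).eqLocus (ξ.comp (MonoidHom.snd G X))
  have hP : ∀ y : G × X, y ∈ P ↔ π y.1 = ξ y.2 := fun y => Iff.rfl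
  let p₁ : P →* G := (MonoidHom.fst G X).comp P.subtype
  have hp₁ : Function.Surjective p₁ := by
    intro g
    obtain ⟨x, hx⟩ := hξ (π g)
    exact ⟨⟨(g, x), hx.symm⟩, rfl⟩
  have hker : p₁.ker ≤ Subgroup.center P := by
    intro y hy
    rw [MonoidHom.mem_ker] at hy
    have hy1 : (y : G × X).1 = 1 := hy
    have hy2 : (y : G × X).2 ∈ ξ.ker := by
      rw [MonoidHom.mem_ker]
      have := (hP y).mp y.2
      rw [← this, hy1, map_one]
    have hc := hξc hy2
    rw [Subgroup.mem_center_iff]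
    intro w
    apply Subtype.ext
    apply Prod.ext
    · show (w : G × X).1 * (y : G × X).1 = (y : G × X).1 * (w : G × X).1
      rw [hy1, mul_one, one_mul]
    · show (w : G × X).2 * (y : G × X).2 = (y : G × X).2 * (w : G × X).2
      exact Subgroup.mem_center_iff.mp hc _
  have hidx : p₁.ker.index ≠ 0 := by
    rw [Subgroup.index_ker, MonoidHom.range_eq_top.mpr hp₁, Subgroup.card_top]
    exact Nat.card_pos.ne'
  haveI : p₁.ker.FiniteIndex := ⟨hidx⟩
  haveI : (Subgroup.center P).FiniteIndex := Subgroup.finiteIndex_of_le hker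
  haveI : Finite (P ⧸ Subgroup.center P) := Subgroup.finite_quotient_of_finiteIndex
  haveI : Finite (commutatorSet P) := finite_commutatorSet_of_finite_quot P
  haveI : Finite (commutator P) := inferInstance
  have hex : ∃ n, ∃ H : Subgroup P, Finite H ∧ H.map p₁ = ⊤ ∧ Nat.card H = n := by
    refine ⟨_, commutator P, inferInstance, ?_, rfl⟩
    rw [commutator_def, Subgroup.map_commutator, Subgroup.map_top_of_surjective p₁ hp₁,
      ← commutator_def, Group.IsPerfect.commutator_eq_top]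
  obtain ⟨H, hHfin, hHmap, hHcard⟩ := Nat.find_spec hex
  haveI := hHfin
  have hHH : ⁅H, H⁆ ≤ H := Subgroup.commutator_le.mpr (fun g₁ h₁ g₂ h₂ =>
    H.mul_mem (H.mul_mem (H.mul_mem h₁ h₂) (H.inv_mem h₁)) (H.inv_mem h₂))
  haveI : Finite (⁅H, H⁆ : Subgroup P) :=
    Finite.of_injective (Subgroup.inclusion hHH) (Subgroup.inclusion_injective hHH)
  have hmap' : (⁅H, H⁆ : Subgroup P).map p₁ = ⊤ := by
    rw [Subgroup.map_commutator, hHmap, ← commutator_def, Group.IsPerfect.commutator_eq_top]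
  have hmin : Nat.find hex ≤ Nat.card (⁅H, H⁆ : Subgroup P) :=
    Nat.find_min' hex ⟨⁅H, H⁆, inferInstance, hmap', rfl⟩
  have hperf : ⁅H, H⁆ = H := Subgroup.eq_of_le_of_card_ge hHH (by rw [hHcard]; exact hmin)
  haveI : Group.IsPerfect H := Subgroup.isPerfect_iff.mpr hperf
  let p : H →* G := p₁.comp H.subtype
  have hp : Function.Surjective p := by
    intro g
    have : g ∈ H.map p₁ := by rw [hHmap]; trivial
    obtain ⟨y, hy, rfl⟩ := this
    exact ⟨⟨y, hy⟩, rfl⟩
  have hpker : p.ker ≤ Subgroup.center H := by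
    intro y hy
    have hy' : (y : P) ∈ p₁.ker := hy
    have hc := hker hy'
    rw [Subgroup.mem_center_iff] at hc ⊢
    intro w
    apply Subtype.ext
    exact hc w
  have hinj := hstem H p hp hpker inferInstance
  let e : H ≃* G := MulEquiv.ofBijective p ⟨hinj, hp⟩
  refine ⟨((MonoidHom.snd G X).comp (P.subtype.comp H.subtype)).comp e.symm.toMonoidHom, ?_⟩
  ext g
  obtain ⟨y, hy⟩ : ∃ y : H, y = e.symm g := ⟨_, rfl⟩
  have hy1 : p y = g := by rw [hy]; exact e.apply_symm_apply g
  show ξ (((e.symm g : H) : P) : G × X).2 = π g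
  rw [← hy, ← (hP _).mp (y : P).2, ← hy1]
  rfl

end Cfsg.Agent.Helper22
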