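import Mathlib
import Cfsg.Prelude
import Cfsg.Agent.Helper22.SchurBasic

set_option autoImplicit false

namespace Cfsg.Agent.Helper22

open scoped commutatorElement

universe u v w u'

section Basics

variable {A B C : Type*} [Group A] [Group B] [Group C]

/-- The fibre product of two group homomorphisms with the same target. -/
def fiberProd (f : A →* C) (g : B →* C) : Subgroup (A × B) :=
  (f.comp (MonoidHom.fst A B)).eqLocus (g.comp (MonoidHom.snd A B))

theorem mem_fiberProd (f : A →* C) (g : B →* C) (y : A × B) :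
    y ∈ fiberProd f g ↔ f y.1 = g y.2 := Iff.rfl

/-- First projection of the fibre product. -/
def fiberFst (f : A →* C) (g : B →* C) : fiberProd f g →* A :=
  (MonoidHom.fst A B).comp (fiberProd f g).subtype

/-- Second projection of the fibre product. -/
def fiberSnd (f : A →* C) (g : B →* C) : fiberProd f g →* B :=
  (MonoidHom.snd A B).comp (fiberProd f g).subtype

theorem fiberFst_apply (f : A →* C) (g : B →* C) (y : fiberProd f g) :
    fiberFst f g y = (y : A × B).1 := rfl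

theorem fiberSnd_apply (f : A →* C) (g : B →* C) (y : fiberProd f g) :
    fiberSnd f g y = (y : A × B).2 := rfl

theorem fiber_comm_apply (f : A →* C) (g : B →* C) (y : fiberProd f g) :
    f (fiberFst f g y) = g (fiberSnd f g y) := y.2

theorem fiberFst_surjective (f : A →* C) (g : B →* C) (hg : Function.Surjective g) :
    Function.Surjective (fiberFst f g) := by
  intro a
  obtain ⟨b, hb⟩ := hg (f a)
  exact ⟨⟨(a, b), hb.symm⟩, rfl⟩

theorem fiberSnd_surjective (f : A →* C) (g : B →* C) (hf : Function.Surjective f) :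
    Function.Surjective (fiberSnd f g) := by
  intro b
  obtain ⟨a, ha⟩ := hf (g b)
  exact ⟨⟨(a, b), ha⟩, rfl⟩

theorem fiber_ker_central (f : A →* C) (g : B →* C) (hf : f.ker ≤ Subgroup.center A)
    (hg : g.ker ≤ Subgroup.center B) :
    (f.comp (fiberFst f g)).ker ≤ Subgroup.center (fiberProd f g) := by
  intro y hy
  rw [MonoidHom.mem_ker, MonoidHom.comp_apply] at hy
  have h1 : (y : A × B).1 ∈ Subgroup.center A := hf hy
  have h2 : (y : A × B).2 ∈ Subgroup.center B := by
    apply hg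
    rw [MonoidHom.mem_ker]
    rw [fiber_comm_apply] at hy
    exact hy
  rw [Subgroup.mem_center_iff]
  intro z
  apply Subtype.ext
  apply Prod.ext
  · exact Subgroup.mem_center_iff.mp h1 _
  · exact Subgroup.mem_center_iff.mp h2 _

theorem map_commutator_of_surjective (p : A →* B) (hp : Function.Surjective p) :
    (commutator A).map p = commutator B := by
  rw [commutator_def, Subgroup.map_commutator, Subgroup.map_top_of_surjective p hp,
    ← commutator_def]

theorem exists_mem_comm_of_stem (p : A →* B) (hp : Function.Surjective p) (σ : B →* C)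
    (hσd : σ.ker ≤ commutator B) (a : B) (ha : a ∈ σ.ker) : ∃ y ∈ commutator A, p y = a := by
  have h1 : a ∈ (commutator A).map p := by
    rw [map_commutator_of_surjective p hp]; exact hσd ha
  exact h1

theorem card_eq_card_ker_mul [Finite A] (f : A →* B) (hf : Function.Surjective f) :
    Nat.card A = Nat.card f.ker * Nat.card B := by
  rw [← Subgroup.card_mul_index f.ker, Subgroup.index_ker, MonoidHom.range_eq_top.mpr hf,
    Subgroup.card_top]

theorem isStemExtension_comp_mulEquiv (σ : B →* C) (hσ : Cfsg.IsStemExtension σ) (e : A ≃* B) :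
    Cfsg.IsStemExtension (σ.comp e.toMonoidHom) := by
  obtain ⟨hs, hc, hd⟩ := hσ
  refine ⟨hs.comp e.surjective, ?_, ?_⟩
  · intro x hx
    have hx' : e x ∈ σ.ker := hx
    have h1 := hc hx'
    rw [Subgroup.mem_center_iff] at h1 ⊢
    intro g
    apply e.injective
    rw [map_mul, map_mul]
    exact h1 (e g)
  · intro x hx
    have hx' : e x ∈ σ.ker := hx
    have h1 := hd hx'
    rw [← map_commutator_of_surjective e.toMonoidHom e.surjective] at h1
    obtain ⟨y, hy, hyx⟩ := h1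
    have : y = x := e.injective hyx
    rw [← this]; exact hy

end Basics

/-- Every finite group has an isomorphic copy in any universe. -/
theorem exists_mulEquiv_in_universe (S : Type w) [Group S] [Finite S] :
    ∃ (S' : Type u) (_ : Group S') (_ : Finite S'), Nonempty (S' ≃* S) := by
  obtain ⟨n, ⟨e⟩⟩ := Finite.exists_equiv_fin S
  let e' : ULift.{u} (Fin n) ≃ S := Equiv.ulift.trans e.symm
  letI : Group (ULift.{u} (Fin n)) := e'.group
  exact ⟨ULift.{u} (Fin n), inferInstance, inferInstance, ⟨e'.mulEquiv⟩⟩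

/-- Extension of a linear character from a subgroup, when it is trivial on the commutator
subgroup of the whole group. -/
theorem exists_character_extension {P : Type*} [Group P] [Finite P] (K : Subgroup P)
    (θ : K →* ℂˣ) (hθ : ∀ k : K, (k : P) ∈ commutator P → θ k = 1) :
    ∃ ν : P →* ℂˣ, ∀ k : K, ν k = θ k := by
  let ab : P →* Abelianization P := Abelianization.of
  have hsurj : Function.Surjective (ab.subgroupMap K) := ab.subgroupMap_surjective K
  have hker : (ab.subgroupMap K).ker ≤ θ.ker := by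
    intro k hk
    rw [MonoidHom.mem_ker] at hk ⊢
    apply hθ
    have h1 : ab (k : P) = 1 := congrArg Subtype.val hk
    have h2 : (k : P) ∈ (Abelianization.of : P →* Abelianization P).ker := h1
    rw [Abelianization.ker_of] at h2
    exact h2
  let θ' : K.map ab →* ℂˣ := (ab.subgroupMap K).liftOfSurjective hsurj ⟨θ, hker⟩
  have hθ' : ∀ k : K, θ' (ab.subgroupMap K k) = θ k := fun k =>
    MonoidHom.liftOfRightInverse_comp_apply _ _ _ ⟨θ, hker⟩ k
  haveI : NeZero ((Monoid.exponent (Abelianization P) : ℕ) : ℂ) :=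
    ⟨by exact_mod_cast Monoid.exponent_ne_zero_of_finite⟩
  obtain ⟨χ, hχ⟩ := MonoidHom.domRestrict_surjective (M := ℂ) (K.map ab) θ'
  refine ⟨χ.comp ab, fun k => ?_⟩
  rw [← hθ' k, ← hχ]
  rfl

/-- The key construction: if `p : P → Γ` is a surjection of finite groups over a stem extension
`σ : Γ → Q` such that the kernel of `P → Q` is central and the kernel of `p` meets the commutator
subgroup of `P` nontrivially, then `Γ` is a proper quotient of a bigger stem extension of `Q`. -/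
theorem exists_bigger_stem {P : Type w} {Γ : Type u'} {Q : Type u} [Group P] [Finite P]
    [Group Γ] [Group Q] (p : P →* Γ) (hp : Function.Surjective p) (σ : Γ →* Q)
    (hσ : Cfsg.IsStemExtension σ) (hqc : (σ.comp p).ker ≤ Subgroup.center P)
    (hne : p.ker ⊓ commutator P ≠ ⊥) :
    ∃ (S : Type w) (_ : Group S) (_ : Finite S) (s : S →* Γ), Function.Surjective s ∧
      Cfsg.IsStemExtension (σ.comp s) ∧ ¬ Function.Injective s := by
  classical
  obtain ⟨hσs, hσc, hσd⟩ := hσ
  have hKc : p.ker ≤ Subgroup.center P := by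
    intro x hx
    apply hqc
    rw [MonoidHom.mem_ker, MonoidHom.comp_apply, MonoidHom.mem_ker.mp hx, map_one]
  letI instK : CommGroup p.ker :=
    { (inferInstance : Group p.ker) with
      mul_comm := fun a b => Subtype.ext (Subgroup.mem_center_iff.mp (hKc a.2) b).symm }
  let L : Subgroup p.ker := (commutator P).subgroupOf p.ker
  have hLne : L ≠ ⊥ := by
    intro hL
    apply hne
    rw [Subgroup.eq_bot_iff_forall]
    intro x hx
    have hxL : (⟨x, hx.1⟩ : p.ker) ∈ L := Subgroup.mem_subgroupOf.mpr hx.2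
    rw [hL, Subgroup.mem_bot] at hxL
    exact congrArg Subtype.val hxL
  haveI : Nontrivial L := (Subgroup.nontrivial_iff_ne_bot L).mpr hLne
  haveI : NeZero ((Monoid.exponent L : ℕ) : ℂ) :=
    ⟨by exact_mod_cast Monoid.exponent_ne_zero_of_finite⟩
  haveI : NeZero ((Monoid.exponent p.ker : ℕ) : ℂ) :=
    ⟨by exact_mod_cast Monoid.exponent_ne_zero_of_finite⟩
  have hcardhom : Nat.card (L →* ℂˣ) = Nat.card L :=
    CommGroup.card_monoidHom_of_hasEnoughRootsOfUnity L ℂ
  have hLcard : 1 < Nat.card L := Finite.one_lt_card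
  haveI : Finite (L →* ℂˣ) := Nat.finite_of_card_ne_zero (by omega)
  obtain ⟨ℓ, hℓ, hℓd⟩ := Nat.exists_prime_and_dvd (n := Nat.card (L →* ℂˣ)) (by omega)
  haveI : Fact ℓ.Prime := ⟨hℓ⟩
  haveI : NeZero ℓ := ⟨hℓ.ne_zero⟩
  obtain ⟨φ, hφ⟩ := exists_prime_orderOf_dvd_card' (G := L →* ℂˣ) ℓ hℓd
  have hφ1 : φ ≠ 1 := by
    intro h
    rw [h, orderOf_one] at hφ
    exact hℓ.one_lt.ne hφ
  have hφpow : ∀ l : L, φ l ^ ℓ = 1 := by
    intro l
    have h1 : φ ^ ℓ = 1 := by rw [← hφ]; exact pow_orderOf_eq_one φ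
    have h2 := congrArg (fun f => f l) h1
    simpa using h2
  obtain ⟨x₁, hx₁⟩ : ∃ x₁ : L, φ x₁ ≠ 1 := by
    by_contra h
    push Not at h
    apply hφ1
    ext l
    simp [h l]
  obtain ⟨ζ, hζ⟩ : ∃ ζ : ℂˣ, ζ = φ x₁ := ⟨_, rfl⟩
  have hζℓ : ζ ^ ℓ = 1 := by rw [hζ]; exact hφpow x₁
  have hζ1 : ζ ≠ 1 := by rw [hζ]; exact hx₁
  have hord : orderOf ζ = ℓ := orderOf_eq_prime hζℓ hζ1
  have hprim : IsPrimitiveRoot (ζ : ℂ) ℓ := by
    rw [IsPrimitiveRoot.coe_units_iff]
    have := IsPrimitiveRoot.orderOf ζ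
    rwa [hord] at this
  obtain ⟨lam, hlam⟩ := MonoidHom.domRestrict_surjective (M := ℂ) L φ
  have hlam' : ∀ l : L, lam (l : p.ker) = φ l := fun l => by rw [← hlam]; rfl
  have hθ : ∀ k : p.ker, (k : P) ∈ commutator P → (lam ^ ℓ) k = 1 := by
    intro k hk
    have hkL : k ∈ L := Subgroup.mem_subgroupOf.mpr hk
    rw [MonoidHom.pow_apply, (hlam' ⟨k, hkL⟩ : lam k = φ ⟨k, hkL⟩)]
    exact hφpow ⟨k, hkL⟩
  obtain ⟨ν, hν⟩ := exists_character_extension p.ker (lam ^ ℓ) hθ
  let F : P × ℂˣ →* ℂˣ := ν.coprod (powMonoidHom ℓ)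
  have hF : ∀ x c, F (x, c) = ν x * c ^ ℓ := fun x c => rfl
  let S₁ : Subgroup (P × ℂˣ) := F.ker
  have hS₁ : ∀ x c, (x, c) ∈ S₁ ↔ ν x * c ^ ℓ = 1 := fun x c => by
    rw [MonoidHom.mem_ker, hF]
  let dhom : p.ker →* P × ℂˣ := (p.ker.subtype).prod (lam⁻¹)
  have hdhom : ∀ k : p.ker, dhom k = ((k : P), (lam k)⁻¹) := fun k => rfl
  let D : Subgroup (P × ℂˣ) := dhom.range
  have hDc : D ≤ Subgroup.center (P × ℂˣ) := by
    rintro _ ⟨k, rfl⟩
    rw [Subgroup.mem_center_iff]
    rintro ⟨x, c⟩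
    apply Prod.ext
    · exact Subgroup.mem_center_iff.mp (hKc k.2) x
    · exact mul_comm _ _
  haveI hDn : D.Normal := ⟨fun d hd g => by
    have := Subgroup.mem_center_iff.mp (hDc hd) g
    rw [this, mul_inv_cancel_right]; exact hd⟩
  let mk : P × ℂˣ →* (P × ℂˣ) ⧸ D := QuotientGroup.mk' D
  let S : Subgroup ((P × ℂˣ) ⧸ D) := S₁.map mk
  have hDker : D ≤ (p.comp (MonoidHom.fst P ℂˣ)).ker := by
    rintro _ ⟨k, rfl⟩
    rw [MonoidHom.mem_ker]
    exact MonoidHom.mem_ker.mp k.2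
  let r : (P × ℂˣ) ⧸ D →* Γ := QuotientGroup.lift D (p.comp (MonoidHom.fst P ℂˣ)) hDker
  have hr : ∀ x c, r (mk (x, c)) = p x := fun x c => rfl
  let s : S →* Γ := r.comp S.subtype
  have hroot : ∀ x : P, ∃ c : ℂˣ, ν x * c ^ ℓ = 1 := by
    intro x
    obtain ⟨z, hz⟩ := IsAlgClosed.exists_pow_nat_eq (((ν x)⁻¹ : ℂˣ) : ℂ) hℓ.pos
    have hz0 : z ≠ 0 := by
      rintro rfl
      rw [zero_pow hℓ.ne_zero] at hz
      exact (Units.ne_zero _) hz.symm
    refine ⟨Units.mk0 z hz0, ?_⟩
    have : (Units.mk0 z hz0) ^ ℓ = (ν x)⁻¹ := by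
      apply Units.ext
      rw [Units.val_pow_eq_pow_val, Units.val_mk0, hz]
    rw [this, mul_inv_cancel]
  have hN : 0 < ℓ * Nat.card P := Nat.mul_pos hℓ.pos Nat.card_pos
  haveI : NeZero (ℓ * Nat.card P) := ⟨hN.ne'⟩
  haveI : Finite S₁ := by
    let g : S₁ → P × rootsOfUnity (ℓ * Nat.card P) ℂ := fun y =>
      ((y : P × ℂˣ).1, ⟨(y : P × ℂˣ).2, by
        rw [mem_rootsOfUnity]
        have hy := (hS₁ _ _).mp (show ((y : P × ℂˣ).1, (y : P × ℂˣ).2) ∈ S₁ from y.2)
        have h1 : (y : P × ℂˣ).2 ^ ℓ = (ν (y : P × ℂˣ).1)⁻¹ := eq_inv_of_mul_eq_one_right hy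
        rw [pow_mul, h1, inv_pow, ← map_pow, pow_card_eq_one', map_one, inv_one]⟩)
    have hg : Function.Injective g := by
      intro y y' h
      apply Subtype.ext
      apply Prod.ext
      · have h1 : (g y).1 = (g y').1 := congrArg Prod.fst h
        exact h1
      · have h2 : ((g y).2 : ℂˣ) = ((g y').2 : ℂˣ) := congrArg (fun t => (t.2 : ℂˣ)) h
        exact h2
    exact Finite.of_injective g hg
  haveI : Finite S := Finite.of_surjective (mk.subgroupMap S₁) (mk.subgroupMap_surjective S₁)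
  have hs : Function.Surjective s := by
    intro g
    obtain ⟨x, rfl⟩ := hp g
    obtain ⟨c, hc⟩ := hroot x
    exact ⟨⟨mk (x, c), Subgroup.mem_map_of_mem mk ((hS₁ x c).mpr hc)⟩, rfl⟩
  have hcenter : (σ.comp s).ker ≤ Subgroup.center S := by
    intro y hy
    obtain ⟨⟨x, c⟩, ht, hty⟩ := y.2
    have hsy : s y = p x := by
      show r (y : (P × ℂˣ) ⧸ D) = p x
      rw [← hty]; rfl
    have hx : x ∈ (σ.comp p).ker := by
      rw [MonoidHom.mem_ker, MonoidHom.comp_apply] at hy ⊢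
      rw [← hsy]; exact hy
    have hxc := hqc hx
    rw [Subgroup.mem_center_iff]
    intro w
    obtain ⟨⟨x', c'⟩, ht', htw⟩ := w.2
    apply Subtype.ext
    show (w : (P × ℂˣ) ⧸ D) * (y : (P × ℂˣ) ⧸ D) = (y : (P × ℂˣ) ⧸ D) * (w : (P × ℂˣ) ⧸ D)
    rw [← hty, ← htw, ← map_mul, ← map_mul]
    congr 1
    apply Prod.ext
    · exact Subgroup.mem_center_iff.mp hxc x'
    · exact mul_comm _ _
  have hcomm : ∀ z ∈ commutator P, mk (z, 1) ∈ ⁅S, S⁆ := by
    have hle : commutator P ≤ (⁅S, S⁆).comap (mk.comp (MonoidHom.inl P ℂˣ)) := by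
      rw [commutator_def, Subgroup.commutator_le]
      intro a _ b _
      rw [Subgroup.mem_comap]
      obtain ⟨ca, hca⟩ := hroot a
      obtain ⟨cb, hcb⟩ := hroot b
      have h1 : (mk.comp (MonoidHom.inl P ℂˣ)) ⁅a, b⁆ = ⁅mk (a, ca), mk (b, cb)⁆ := by
        rw [← map_commutatorElement]
        show mk (⁅a, b⁆, 1) = mk ⁅(a, ca), (b, cb)⁆
        congr 1
        apply Prod.ext
        · rfl
        · show (1 : ℂˣ) = ⁅ca, cb⁆
          rw [commutatorElement_def, mul_comm ca cb, mul_inv_cancel_right, mul_inv_cancel]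
      rw [h1]
      exact Subgroup.commutator_mem_commutator
        (Subgroup.mem_map_of_mem mk ((hS₁ a ca).mpr hca))
        (Subgroup.mem_map_of_mem mk ((hS₁ b cb).mpr hcb))
    intro z hz
    exact hle hz
  have hderived : (σ.comp s).ker ≤ commutator S := by
    intro y hy
    obtain ⟨⟨x, c⟩, ht, hty⟩ := y.2
    have hsy : s y = p x := by
      show r (y : (P × ℂˣ) ⧸ D) = p x
      rw [← hty]; rfl
    have hpx : p x ∈ σ.ker := by
      rw [MonoidHom.mem_ker, ← hsy]; exact hy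
    obtain ⟨x', hx', hpx'⟩ := exists_mem_comm_of_stem p hp σ hσd (p x) hpx
    have hk : x'⁻¹ * x ∈ p.ker := by
      rw [MonoidHom.mem_ker, map_mul, map_inv, hpx', inv_mul_cancel]
    obtain ⟨k, hkdef⟩ : ∃ k : p.ker, (k : P) = x'⁻¹ * x := ⟨⟨_, hk⟩, rfl⟩
    have hνx' : ν x' = 1 := Abelianization.commutator_subset_ker ν hx'
    have hνx : ν x = (lam k) ^ ℓ := by
      have hx : x = x' * (k : P) := by rw [hkdef]; group
      rw [hx, map_mul, hνx', one_mul, hν k, MonoidHom.pow_apply]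
    have hroot1 : (lam k * c) ^ ℓ = 1 := by
      rw [mul_pow, ← hνx]; exact (hS₁ x c).mp ht
    obtain ⟨j, -, hj⟩ := hprim.eq_pow_of_pow_eq_one (ξ := ((lam k * c : ℂˣ) : ℂ))
      (by rw [← Units.val_pow_eq_pow_val, hroot1]; rfl)
    have hj' : ζ ^ j = lam k * c := Units.ext (by rw [Units.val_pow_eq_pow_val]; exact hj)
    obtain ⟨w, hw⟩ : ∃ w : L, w = x₁ ^ j := ⟨_, rfl⟩
    have hlamw : lam (w : p.ker) = lam k * c := by
      rw [hlam' w, hw, map_pow, ← hζ]; exact hj'
    have hwcomm : ((w : p.ker) : P) ∈ commutator P := Subgroup.mem_subgroupOf.mp w.2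
    have hdecomp : ((x, c) : P × ℂˣ) =
        (x' * ((w : p.ker) : P), 1) * dhom (k * (w : p.ker)⁻¹) := by
      rw [hdhom]
      apply Prod.ext
      · show x = x' * ((w : p.ker) : P) * ((k * (w : p.ker)⁻¹ : p.ker) : P)
        rw [Subgroup.coe_mul, Subgroup.coe_inv, hkdef]
        have hwc := Subgroup.mem_center_iff.mp (hKc (w : p.ker).2)
        calc x = x' * ((x'⁻¹ * x) * ((w : p.ker) : P)) * ((w : p.ker) : P)⁻¹ := by group
          _ = x' * (((w : p.ker) : P) * (x'⁻¹ * x)) * ((w : p.ker) : P)⁻¹ := by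
              rw [hwc (x'⁻¹ * x)]
          _ = _ := by group
      · show c = 1 * (lam (k * (w : p.ker)⁻¹))⁻¹
        rw [one_mul, map_mul, map_inv, hlamw, mul_inv_rev, inv_inv, mul_comm (lam k) c,
          mul_inv_cancel_right]
    have hmk : mk (x, c) = mk (x' * ((w : p.ker) : P), 1) := by
      rw [hdecomp, map_mul]
      have h1 : mk (dhom (k * (w : p.ker)⁻¹)) = 1 := (QuotientGroup.eq_one_iff _).mpr ⟨_, rfl⟩
      rw [h1, mul_one]
    have hyc : (y : (P × ℂˣ) ⧸ D) ∈ ⁅S, S⁆ := by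
      rw [← hty]
      have h2 := hcomm _ (Subgroup.mul_mem _ hx' hwcomm)
      rw [← hmk] at h2
      exact h2
    rw [← Subgroup.map_subtype_commutator] at hyc
    obtain ⟨y', hy', hyy'⟩ := hyc
    have hyeq : y' = y := Subtype.ext hyy'
    rw [← hyeq]; exact hy'
  have hninj : ¬ Function.Injective s := by
    intro hinj
    have hmem : ((1 : P), ζ) ∈ S₁ := (hS₁ 1 ζ).mpr (by rw [map_one, one_mul]; exact hζℓ)
    let y₀ : S := ⟨mk (1, ζ), Subgroup.mem_map_of_mem mk hmem⟩
    have h1 : s y₀ = s 1 := by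
      rw [map_one]
      show r (mk (1, ζ)) = 1
      rw [hr, map_one]
    have h2 := hinj h1
    have h3 : mk ((1 : P), ζ) = 1 := congrArg Subtype.val h2
    have h4 : ((1 : P), ζ) ∈ D := (QuotientGroup.eq_one_iff _).mp h3
    obtain ⟨k, hk⟩ := h4
    rw [hdhom] at hk
    have hk1 : (k : P) = 1 := congrArg Prod.fst hk
    have hk2 : (lam k)⁻¹ = ζ := congrArg Prod.snd hk
    have hk0 : k = 1 := Subtype.ext hk1
    rw [hk0, map_one, inv_one] at hk2
    exact hζ1 hk2.symm
  exact ⟨S, inferInstance, inferInstance, s, hs, ⟨hσs.comp hs, hcenter, hderived⟩, hninj⟩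

/-- A Schur multiplier in the sense of `HasSchurMultiplier` is finite. -/
theorem finite_of_hasSchurMultiplier {Q : Type u} [Group Q] {A : Type v} [CommGroup A]
    (hA : Cfsg.HasSchurMultiplier Q A) : Finite A := by
  obtain ⟨⟨Γ, _, _, σ, -, ⟨e⟩⟩, -⟩ := hA
  exact Finite.of_equiv σ.ker e.toEquiv

/-- The kernel of any finite stem extension (in any universe) is at most as large as the Schur
multiplier. -/
theorem card_ker_le_of_hasSchurMultiplier {Q : Type u} [Group Q] {A : Type v} [CommGroup A]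
    (hA : Cfsg.HasSchurMultiplier Q A) {S : Type w} [Group S] [Finite S] (σ : S →* Q)
    (hσ : Cfsg.IsStemExtension σ) : Nat.card σ.ker ≤ Nat.card A := by
  haveI := finite_of_hasSchurMultiplier hA
  obtain ⟨S', _, _, ⟨e⟩⟩ := exists_mulEquiv_in_universe.{u} S
  have hσ' := isStemExtension_comp_mulEquiv σ hσ e
  obtain ⟨π, hπ⟩ := hA.2 S' (σ.comp e.toMonoidHom) hσ'
  have h1 := Nat.card_le_card_of_surjective π hπ
  have h2 : Nat.card (σ.comp e.toMonoidHom).ker = Nat.card σ.ker := by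
    apply Nat.card_congr
    exact
      { toFun := fun x => ⟨e x, x.2⟩
        invFun := fun y => ⟨e.symm y, by
          show σ (e (e.symm y)) = 1
          rw [e.apply_symm_apply]; exact y.2⟩
        left_inv := fun x => Subtype.ext (e.symm_apply_apply x)
        right_inv := fun y => Subtype.ext (e.apply_symm_apply y) }
  omega

/-- Over a Schur cover `σ : Γ → Q`, every central-over-`Q` finite extension `p : P → Γ` has
`ker p ∩ P' = 1`. -/
theorem ker_inf_commutator_eq_bot_of_cover {Q : Type u} [Group Q] {A : Type v} [CommGroup A]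
    (hA : Cfsg.HasSchurMultiplier Q A) {Γ : Type u'} [Group Γ] [Finite Γ] (σ : Γ →* Q)
    (hσ : Cfsg.IsStemExtension σ) (hcard : Nat.card A ≤ Nat.card σ.ker)
    {P : Type w} [Group P] [Finite P] (p : P →* Γ) (hp : Function.Surjective p)
    (hqc : (σ.comp p).ker ≤ Subgroup.center P) : p.ker ⊓ commutator P = ⊥ := by
  by_contra hne
  obtain ⟨S, _, _, s, hs, hstem, hninj⟩ := exists_bigger_stem p hp σ hσ hqc hne
  have h1 := card_ker_le_of_hasSchurMultiplier hA (σ.comp s) hstem
  haveI : Finite Q := Finite.of_surjective σ hσ.1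
  have h2 := card_eq_card_ker_mul (σ.comp s) hstem.1
  have h3 := card_eq_card_ker_mul σ hσ.1
  have h4 : Nat.card Γ < Nat.card S := by
    by_contra hle
    push Not at hle
    exact hninj (Function.Surjective.bijective_of_nat_card_le hs hle).1
  have h5 : Nat.card S ≤ Nat.card Γ := by
    rw [h2, h3]
    exact Nat.mul_le_mul_right _ (h1.trans hcard)
  omega

/-- Transfer of kernels: if `p₁, p₂` are surjections from `P` onto two stem extensions of `Q`,
compatible with the maps to `Q`, and `ker p₁ ∩ P' = 1`, then `ker σ₂` is a homomorphic image of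
`ker σ₁`. -/
theorem exists_surjective_ker_of_inf_eq_bot {P Γ₁ Γ₂ Q : Type*} [Group P] [Group Γ₁] [Group Γ₂]
    [Group Q] (p₁ : P →* Γ₁) (p₂ : P →* Γ₂) (hp₁ : Function.Surjective p₁)
    (hp₂ : Function.Surjective p₂) (σ₁ : Γ₁ →* Q) (σ₂ : Γ₂ →* Q)
    (hcomm : ∀ y, σ₁ (p₁ y) = σ₂ (p₂ y)) (hd₁ : σ₁.ker ≤ commutator Γ₁)
    (hd₂ : σ₂.ker ≤ commutator Γ₂) (h : p₁.ker ⊓ commutator P = ⊥) :
    ∃ π : σ₁.ker →* σ₂.ker, Function.Surjective π := by
  let W : Subgroup P := commutator P ⊓ (σ₁.comp p₁).ker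
  let φ₁ : W →* σ₁.ker := (p₁.comp W.subtype).codRestrict σ₁.ker (fun y => y.2.2)
  let φ₂ : W →* σ₂.ker := (p₂.comp W.subtype).codRestrict σ₂.ker (fun y => by
    show σ₂ (p₂ (y : P)) = 1
    rw [← hcomm]; exact y.2.2)
  have hφ₁inj : Function.Injective φ₁ := by
    rw [injective_iff_map_eq_one]
    intro y hy
    have h1 : p₁ (y : P) = 1 := congrArg Subtype.val hy
    have h2 : (y : P) ∈ p₁.ker ⊓ commutator P := ⟨h1, y.2.1⟩
    rw [h, Subgroup.mem_bot] at h2
    exact Subtype.ext h2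
  have hφ₁surj : Function.Surjective φ₁ := by
    rintro ⟨a, ha⟩
    obtain ⟨y, hy, hya⟩ := exists_mem_comm_of_stem p₁ hp₁ σ₁ hd₁ a ha
    refine ⟨⟨y, hy, ?_⟩, Subtype.ext hya⟩
    show σ₁ (p₁ y) = 1
    rw [hya]; exact ha
  have hφ₂surj : Function.Surjective φ₂ := by
    rintro ⟨b, hb⟩
    obtain ⟨y, hy, hyb⟩ := exists_mem_comm_of_stem p₂ hp₂ σ₂ hd₂ b hb
    refine ⟨⟨y, hy, ?_⟩, Subtype.ext hyb⟩
    show σ₁ (p₁ y) = 1
    rw [hcomm, hyb]; exact hb
  let e : W ≃* σ₁.ker := MulEquiv.ofBijective φ₁ ⟨hφ₁inj, hφ₁surj⟩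
  exact ⟨φ₂.comp e.symm.toMonoidHom, hφ₂surj.comp e.symm.surjective⟩

end Cfsg.Agent.Helper22
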