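import Mathlib
import Cfsg.Prelude
import Cfsg.Agent.Helper22.SchurBasic
import Cfsg.Agent.Helper22.SchurConstr

set_option autoImplicit false

namespace Cfsg.Agent.Helper22

open scoped commutatorElement

/-- A finite group with a presentation on `n` generators and `r` relators has Schur
multiplier generated by `r - n` elements. -/
theorem pres_rank_le (n : ℕ) (rels : Finset (FreeGroup (Fin n)))
    [Finite (PresentedGroup (rels : Set (FreeGroup (Fin n))))] {A : Type*} [CommGroup A] [Finite A]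
    (hA : Cfsg.HasSchurMultiplier (PresentedGroup (rels : Set (FreeGroup (Fin n)))) A) :
    Group.rank A ≤ rels.card - n := by
  classical
  obtain ⟨Γ, _, _, σ, ⟨hσs, hσc, hσd⟩, ⟨e⟩⟩ := hA.1
  have hγ : ∀ i : Fin n, ∃ g : Γ, σ g = PresentedGroup.of i := fun i => hσs _
  choose γ hγ using hγ
  let θ : FreeGroup (Fin n) →* Γ := FreeGroup.lift γ
  have hθσ : ∀ f, σ (θ f) = PresentedGroup.mk (rels : Set (FreeGroup (Fin n))) f := by
    intro f
    have h1 : σ.comp θ = PresentedGroup.mk (rels : Set (FreeGroup (Fin n))) := by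
      apply FreeGroup.ext_hom
      intro i
      show σ (FreeGroup.lift γ (FreeGroup.of i)) = _
      rw [FreeGroup.lift_apply_of, hγ]
      rfl
    exact DFunLike.congr_fun h1 f
  have hcommle : commutator Γ ≤ θ.range := by
    rw [commutator_def, Subgroup.commutator_le]
    intro x _ y _
    obtain ⟨fx, hfx⟩ := PresentedGroup.mk_surjective _ (σ x)
    obtain ⟨fy, hfy⟩ := PresentedGroup.mk_surjective _ (σ y)
    have hkx : (θ fx)⁻¹ * x ∈ σ.ker := by
      rw [MonoidHom.mem_ker, map_mul, map_inv, hθσ, hfx, inv_mul_cancel]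
    have hky : (θ fy)⁻¹ * y ∈ σ.ker := by
      rw [MonoidHom.mem_ker, map_mul, map_inv, hθσ, hfy, inv_mul_cancel]
    have ex : x = θ fx * ((θ fx)⁻¹ * x) := by group
    have ey : y = θ fy * ((θ fy)⁻¹ * y) := by group
    have e3 : ⁅x, y⁆ = ⁅θ fx, θ fy⁆ := by
      conv_lhs => rw [ex, ey]
      exact commutatorElement_mul_central _ _ _ _ (hσc hkx) (hσc hky)
    rw [e3]
    exact ⟨⁅fx, fy⁆, by rw [map_commutatorElement]⟩
  have hθsurj : Function.Surjective θ := by
    intro x
    obtain ⟨fx, hfx⟩ := PresentedGroup.mk_surjective _ (σ x)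
    have hkx : (θ fx)⁻¹ * x ∈ σ.ker := by
      rw [MonoidHom.mem_ker, map_mul, map_inv, hθσ, hfx, inv_mul_cancel]
    obtain ⟨f', hf'⟩ := hcommle (hσd hkx)
    refine ⟨fx * f', ?_⟩
    rw [map_mul, hf']; group
  let ab : FreeGroup (Fin n) →* Multiplicative (Fin n → ℤ) :=
    FreeGroup.lift (fun i => Multiplicative.ofAdd (Pi.single i (1 : ℤ)))
  have hrel_ker : ∀ ρ : ↥rels, θ (ρ : FreeGroup (Fin n)) ∈ σ.ker := by
    intro ρ
    rw [MonoidHom.mem_ker, hθσ]
    exact PresentedGroup.one_of_mem (Finset.mem_coe.mpr ρ.2)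
  let a : ↥rels → A := fun ρ => e ⟨θ (ρ : FreeGroup (Fin n)), hrel_ker ρ⟩
  let ψ : (↥rels → ℤ) →+ Additive A :=
    { toFun := fun w => ∑ ρ : ↥rels, w ρ • Additive.ofMul (a ρ)
      map_zero' := by simp
      map_add' := fun w w' => by simp [add_smul, Finset.sum_add_distrib] }
  let π : (↥rels → ℤ) →ₗ[ℤ] (Fin n → ℤ) :=
    Fintype.linearCombination ℤ
      (fun ρ : ↥rels => Multiplicative.toAdd (ab (ρ : FreeGroup (Fin n))))
  have hK1 : ∀ f ∈ Subgroup.normalClosure (rels : Set (FreeGroup (Fin n))),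
      ∃ w : ↥rels → ℤ, ∃ k : σ.ker, (k : Γ) = θ f ∧ Additive.ofMul (e k) = ψ w ∧
        Multiplicative.toAdd (ab f) = π w := by
    let S : Subgroup (FreeGroup (Fin n)) :=
      { carrier := {f | ∃ w : ↥rels → ℤ, ∃ k : σ.ker, (k : Γ) = θ f ∧
          Additive.ofMul (e k) = ψ w ∧ Multiplicative.toAdd (ab f) = π w}
        mul_mem' := by
          rintro f f' ⟨w, k, hk, hek, hab⟩ ⟨w', k', hk', hek', hab'⟩
          refine ⟨w + w', k * k', ?_, ?_, ?_⟩
          · rw [Subgroup.coe_mul, hk, hk', map_mul]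
          · rw [map_mul, map_add, ← hek, ← hek']; rfl
          · rw [map_mul, map_add, ← hab, ← hab']; rfl
        one_mem' := ⟨0, 1, by rw [map_one]; rfl, by rw [map_one, map_zero]; rfl,
          by rw [map_one, map_zero]; rfl⟩
        inv_mem' := by
          rintro f ⟨w, k, hk, hek, hab⟩
          refine ⟨-w, k⁻¹, ?_, ?_, ?_⟩
          · rw [Subgroup.coe_inv, hk, map_inv]
          · rw [map_inv, map_neg, ← hek]; rfl
          · rw [map_inv, map_neg, ← hab]; rfl }
    have hSmem : ∀ f, f ∈ S ↔ ∃ w : ↥rels → ℤ, ∃ k : σ.ker, (k : Γ) = θ f ∧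
          Additive.ofMul (e k) = ψ w ∧ Multiplicative.toAdd (ab f) = π w := fun f => Iff.rfl
    have hSn : S.Normal := by
      constructor
      intro f hf g
      obtain ⟨w, k, hk, hek, hab⟩ := (hSmem f).mp hf
      refine (hSmem _).mpr ⟨w, k, ?_, hek, ?_⟩
      · rw [map_mul, map_mul, map_inv, ← hk]
        have hc := Subgroup.mem_center_iff.mp (hσc k.2) (θ g)
        rw [hc, mul_inv_cancel_right]
      · have h3 : ab (g * f * g⁻¹) = ab f := by
          rw [map_mul, map_mul, map_inv, mul_comm, inv_mul_cancel_left]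
        rw [← hab, h3]
    have hle : Subgroup.normalClosure (rels : Set (FreeGroup (Fin n))) ≤ S := by
      haveI := hSn
      apply Subgroup.normalClosure_le_normal
      intro ρ hρ
      have hρ' : ρ ∈ rels := Finset.mem_coe.mp hρ
      refine (hSmem _).mpr ⟨Pi.single ⟨ρ, hρ'⟩ 1, ⟨θ ρ, hrel_ker ⟨ρ, hρ'⟩⟩, rfl, ?_, ?_⟩
      · show Additive.ofMul (a ⟨ρ, hρ'⟩) = ∑ ρ'' : ↥rels,
          (Pi.single (⟨ρ, hρ'⟩ : ↥rels) (1 : ℤ) : ↥rels → ℤ) ρ'' • Additive.ofMul (a ρ'')
        simp [Pi.single_apply]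
      · show Multiplicative.toAdd (ab ρ) = Fintype.linearCombination ℤ
          (fun ρ : ↥rels => Multiplicative.toAdd (ab (ρ : FreeGroup (Fin n))))
          (Pi.single (⟨ρ, hρ'⟩ : ↥rels) (1 : ℤ))
        rw [Fintype.linearCombination_apply_single, one_smul]
    intro f hf
    exact (hSmem f).mp (hle hf)
  have hK2 : ∀ x : A, ∃ w : ↥rels → ℤ, w ∈ LinearMap.ker π ∧ Additive.ofMul x = ψ w := by
    intro x
    obtain ⟨k, rfl⟩ := e.surjective x
    have h1 : (k : Γ) ∈ (commutator (FreeGroup (Fin n))).map θ := by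
      rw [map_commutator_of_surjective θ hθsurj]; exact hσd k.2
    obtain ⟨f', hf'c, hf'⟩ := h1
    have hf'R : f' ∈ Subgroup.normalClosure (rels : Set (FreeGroup (Fin n))) := by
      rw [← PresentedGroup.mk_eq_one_iff, ← hθσ, hf']
      exact k.2
    obtain ⟨w, k', hk', hek', hab'⟩ := hK1 f' hf'R
    have hkk : k' = k := Subtype.ext (by rw [hk', hf'])
    refine ⟨w, ?_, ?_⟩
    · rw [LinearMap.mem_ker, ← hab']
      have h2 : f' ∈ ab.ker := Abelianization.commutator_subset_ker ab hf'c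
      rw [MonoidHom.mem_ker] at h2
      rw [h2]; rfl
    · rw [← hek', hkk]
  have hN : 0 < Nat.card (PresentedGroup (rels : Set (FreeGroup (Fin n)))) := Nat.card_pos
  obtain ⟨N, hNdef⟩ : ∃ N, N = Nat.card (PresentedGroup (rels : Set (FreeGroup (Fin n)))) :=
    ⟨_, rfl⟩
  rw [← hNdef] at hN
  have hbasis : ∀ i : Fin n, (N : ℤ) • (Pi.single i (1 : ℤ) : Fin n → ℤ) ∈ LinearMap.range π := by
    intro i
    have h1 : (FreeGroup.of i) ^ N ∈ Subgroup.normalClosure (rels : Set (FreeGroup (Fin n))) := by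
      rw [← PresentedGroup.mk_eq_one_iff, map_pow, hNdef]
      exact pow_card_eq_one'
    obtain ⟨w, k, hk, hek, hab⟩ := hK1 _ h1
    refine ⟨w, ?_⟩
    rw [← hab, map_pow]
    show Multiplicative.toAdd ((FreeGroup.lift (fun i => Multiplicative.ofAdd
      (Pi.single i (1 : ℤ) : Fin n → ℤ))) (FreeGroup.of i) ^ N) = _
    rw [FreeGroup.lift_apply_of]
    simp
  have htors : ∀ v : Fin n → ℤ, (N : ℤ) • v ∈ LinearMap.range π := by
    intro v
    have hv : v = ∑ i, v i • (Pi.single i (1 : ℤ) : Fin n → ℤ) := by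
      ext j
      simp [Finset.sum_apply, Pi.single_apply]
    rw [hv, Finset.smul_sum]
    apply Submodule.sum_mem
    intro i _
    rw [smul_comm]
    exact Submodule.smul_mem _ _ (hbasis i)
  have hfr_quot : Module.finrank ℤ ((Fin n → ℤ) ⧸ LinearMap.range π) = 0 := by
    rw [Module.finrank_eq_zero_iff]
    intro x
    obtain ⟨v, rfl⟩ := Submodule.Quotient.mk_surjective _ x
    refine ⟨(N : ℤ), by exact_mod_cast hN.ne', ?_⟩
    rw [← Submodule.Quotient.mk_smul, Submodule.Quotient.mk_eq_zero]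
    exact htors v
  have hfr_range : Module.finrank ℤ (LinearMap.range π) = n := by
    have h1 := Submodule.finrank_quotient_add_finrank (LinearMap.range π)
    rw [hfr_quot, zero_add, Module.finrank_fin_fun] at h1
    exact h1
  have hfr_ker : Module.finrank ℤ (LinearMap.ker π) = rels.card - n := by
    have h1 := Submodule.finrank_quotient_add_finrank (LinearMap.ker π)
    have h2 : Module.finrank ℤ ((↥rels → ℤ) ⧸ LinearMap.ker π) =
        Module.finrank ℤ (LinearMap.range π) :=
      LinearEquiv.finrank_eq π.quotKerEquivRange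
    rw [h2, hfr_range, Module.finrank_fintype_fun_eq_card, Fintype.card_coe] at h1
    omega
  let b := Module.finBasis ℤ (LinearMap.ker π)
  let S : Finset A := Finset.univ.image
    (fun j => Additive.toMul (ψ ((b j : LinearMap.ker π) : ↥rels → ℤ)))
  have hS : Subgroup.closure (S : Set A) = ⊤ := by
    rw [eq_top_iff]
    intro x _
    obtain ⟨w, hw, hx⟩ := hK2 x
    obtain ⟨c, hc⟩ : ∃ c : Fin (Module.finrank ℤ (LinearMap.ker π)) → ℤ,
        w = ∑ j, c j • ((b j : LinearMap.ker π) : ↥rels → ℤ) := by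
      refine ⟨fun j => b.repr ⟨w, hw⟩ j, ?_⟩
      have h1 := b.sum_repr ⟨w, hw⟩
      have h3 : ((∑ i, b.repr ⟨w, hw⟩ i • b i : LinearMap.ker π) : ↥rels → ℤ) = w :=
        congrArg (Subtype.val) h1
      refine h3.symm.trans ?_
      rw [AddSubmonoidClass.coe_finsetSum]
      rfl
    have h5 : Additive.ofMul x = ∑ j, c j • ψ ((b j : LinearMap.ker π) : ↥rels → ℤ) := by
      rw [hx, hc, map_sum]
      apply Finset.sum_congr rfl
      intro j _
      rw [map_zsmul]
    have h4 : x = ∏ j, Additive.toMul (ψ ((b j : LinearMap.ker π) : ↥rels → ℤ)) ^ (c j) := by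
      have h6 := congrArg Additive.toMul h5
      rw [toMul_ofMul] at h6
      rw [h6, toMul_sum]
      apply Finset.prod_congr rfl
      intro j _
      rw [toMul_zsmul]
    rw [h4]
    apply Subgroup.prod_mem
    intro j _
    apply Subgroup.zpow_mem
    apply Subgroup.subset_closure
    exact Finset.mem_coe.mpr (Finset.mem_image.mpr ⟨j, Finset.mem_univ j, rfl⟩)
  calc Group.rank A ≤ S.card := Group.rank_le hS
    _ ≤ (Finset.univ : Finset (Fin (Module.finrank ℤ (LinearMap.ker π)))).card :=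
        Finset.card_image_le
    _ = rels.card - n := by rw [Finset.card_univ, Fintype.card_fin, hfr_ker]

end Cfsg.Agent.Helper22
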