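import Mathlib
import Cfsg.Prelude
import Cfsg.Agent.Helper22.SchurConstr
import Cfsg.Agent.Helper1.CharClass

set_option autoImplicit false

namespace Cfsg.Agent.Helper22

open scoped commutatorElement ComplexConjugate

universe u v w u'

theorem exists_unit_pow_eq (a : ℂˣ) (m : ℕ) (hm : 0 < m) : ∃ c : ℂˣ, c ^ m = a := by
  obtain ⟨z, hz⟩ := IsAlgClosed.exists_pow_nat_eq ((a : ℂˣ) : ℂ) hm
  have hz0 : z ≠ 0 := by
    rintro rfl
    rw [zero_pow hm.ne'] at hz
    exact (Units.ne_zero _) hz.symm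
  exact ⟨Units.mk0 z hz0, Units.ext (by rw [Units.val_pow_eq_pow_val, Units.val_mk0, hz])⟩

/-- Two homomorphisms that agree modulo the centre agree on the commutator subgroup. -/
theorem eq_on_commutator_of_central {G X : Type*} [Group G] [Group X]
    (η₁ η₂ : G →* X) (h : ∀ g, η₁ g * (η₂ g)⁻¹ ∈ Subgroup.center X) :
    ∀ g ∈ commutator G, η₁ g = η₂ g := by
  let f : G →* Subgroup.center X :=
    { toFun := fun g => ⟨η₁ g * (η₂ g)⁻¹, h g⟩
      map_one' := by apply Subtype.ext; simp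
      map_mul' := by
        intro a b
        apply Subtype.ext
        show η₁ (a * b) * (η₂ (a * b))⁻¹ = (η₁ a * (η₂ a)⁻¹) * (η₁ b * (η₂ b)⁻¹)
        have hc := Subgroup.mem_center_iff.mp (h b) (η₂ a)⁻¹
        rw [map_mul, map_mul, mul_inv_rev]
        calc η₁ a * η₁ b * ((η₂ b)⁻¹ * (η₂ a)⁻¹)
            = η₁ a * ((η₁ b * (η₂ b)⁻¹) * (η₂ a)⁻¹) := by group
          _ = η₁ a * ((η₂ a)⁻¹ * (η₁ b * (η₂ b)⁻¹)) := by rw [hc]
          _ = _ := by group }
  have hle : commutator G ≤ f.ker := by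
    rw [commutator_def, Subgroup.commutator_le]
    intro g₁ _ g₂ _
    rw [MonoidHom.mem_ker, commutatorElement_def, map_mul, map_mul, map_mul, map_inv, map_inv,
      center_comm X (f g₁) (f g₂)]
    group
  intro g hg
  have h1 : f g = 1 := hle hg
  have h2 : η₁ g * (η₂ g)⁻¹ = 1 := congrArg Subtype.val h1
  exact mul_inv_eq_one.mp h2

/-- Lifting a projective homomorphism along a Schur cover; `G` plays the role of `GL n ℂ`. -/
theorem exists_lift_of_cover {Q : Type u} [Group Q] {A : Type v} [CommGroup A]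
    (hA : Cfsg.HasSchurMultiplier Q A) {Γ : Type u'} [Group Γ] [Finite Γ] (σ : Γ →* Q)
    (hσ : Cfsg.IsStemExtension σ) (hcard : Nat.card A ≤ Nat.card σ.ker)
    {G : Type w} [Group G] (sc : ℂˣ →* G) (hsc : Function.Injective sc)
    (hrange : sc.range = Subgroup.center G) (dt : G →* ℂˣ) (m : ℕ) (hm : 0 < m)
    (hdt : ∀ c, dt (sc c) = c ^ m) (γ : Q →* G ⧸ Subgroup.center G) :
    ∃ ρ : Γ →* G, (QuotientGroup.mk' (Subgroup.center G)).comp ρ = γ.comp σ := by
  classical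
  let mkZ : G →* G ⧸ Subgroup.center G := QuotientGroup.mk' (Subgroup.center G)
  let P : Subgroup (Γ × G) := fiberProd (γ.comp σ) mkZ ⊓ (dt.comp (MonoidHom.snd Γ G)).ker
  have hP : ∀ y : Γ × G, y ∈ P ↔ γ (σ y.1) = mkZ y.2 ∧ dt y.2 = 1 := fun y => Iff.rfl
  let p : P →* Γ := (MonoidHom.fst Γ G).comp P.subtype
  have hsc_center : ∀ c, sc c ∈ Subgroup.center G := fun c => by
    rw [← hrange]; exact ⟨c, rfl⟩
  have hmk_sc : ∀ c, mkZ (sc c) = 1 := fun c =>
    (QuotientGroup.eq_one_iff _).mpr (hsc_center c)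
  have hp : Function.Surjective p := by
    intro g
    obtain ⟨M₀, hM₀⟩ := QuotientGroup.mk'_surjective (Subgroup.center G) (γ (σ g))
    obtain ⟨c, hc⟩ := exists_unit_pow_eq (dt M₀)⁻¹ m hm
    refine ⟨⟨(g, sc c * M₀), ?_, ?_⟩, rfl⟩
    · show γ (σ g) = mkZ (sc c * M₀)
      rw [map_mul, hmk_sc, one_mul]; exact hM₀.symm
    · show dt (sc c * M₀) = 1
      rw [map_mul, hdt, hc, inv_mul_cancel]
  have hkerp : ∀ y : P, y ∈ p.ker → ∃ c : ℂˣ, c ^ m = 1 ∧ (y : Γ × G) = (1, sc c) := by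
    intro y hy
    have h1 : (y : Γ × G).1 = 1 := hy
    obtain ⟨h2, h3⟩ := (hP y).mp y.2
    rw [h1, map_one, map_one] at h2
    have h4 : (y : Γ × G).2 ∈ Subgroup.center G := (QuotientGroup.eq_one_iff _).mp h2.symm
    rw [← hrange] at h4
    obtain ⟨c, hc⟩ := h4
    refine ⟨c, ?_, Prod.ext h1 hc.symm⟩
    rw [← hdt, hc]; exact h3
  haveI : NeZero m := ⟨hm.ne'⟩
  haveI : Finite p.ker := by
    let g : p.ker → rootsOfUnity m ℂ := fun y =>
      ⟨Classical.choose (hkerp y.1 y.2),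
        (mem_rootsOfUnity _ _).mpr (Classical.choose_spec (hkerp y.1 y.2)).1⟩
    have hg : Function.Injective g := by
      intro y y' h
      have h0 : ((g y : rootsOfUnity m ℂ) : ℂˣ) = ((g y' : rootsOfUnity m ℂ) : ℂˣ) := by rw [h]
      have h1 : Classical.choose (hkerp y.1 y.2) = Classical.choose (hkerp y'.1 y'.2) := h0
      apply Subtype.ext
      apply Subtype.ext
      rw [(Classical.choose_spec (hkerp y.1 y.2)).2, (Classical.choose_spec (hkerp y'.1 y'.2)).2,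
        h1]
    exact Finite.of_injective g hg
  haveI : Finite (P ⧸ p.ker) :=
    Finite.of_equiv Γ (QuotientGroup.quotientKerEquivOfSurjective p hp).symm.toEquiv
  haveI : Finite P :=
    Finite.of_equiv _ (Subgroup.groupEquivQuotientProdSubgroup (s := p.ker)).symm
  have hqc : (σ.comp p).ker ≤ Subgroup.center P := by
    intro y hy
    have h1 : (y : Γ × G).1 ∈ σ.ker := hy
    have h2 := hσ.2.1 h1
    obtain ⟨h3, -⟩ := (hP y).mp y.2
    rw [MonoidHom.mem_ker.mp h1, map_one] at h3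
    have h4 : (y : Γ × G).2 ∈ Subgroup.center G := (QuotientGroup.eq_one_iff _).mp h3.symm
    rw [Subgroup.mem_center_iff]
    intro w
    apply Subtype.ext
    apply Prod.ext
    · exact Subgroup.mem_center_iff.mp h2 _
    · exact Subgroup.mem_center_iff.mp h4 _
  have hbot := ker_inf_commutator_eq_bot_of_cover hA σ hσ hcard p hp hqc
  let e : ℂˣ ≃* sc.range := MonoidHom.ofInjective hsc
  let θ₀ : p.ker →* sc.range :=
    { toFun := fun y => ⟨((y : P) : Γ × G).2, by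
        obtain ⟨c, -, hc⟩ := hkerp y.1 y.2
        rw [hc]; exact ⟨c, rfl⟩⟩
      map_one' := rfl
      map_mul' := fun a b => rfl }
  let θ : p.ker →* ℂˣ := e.symm.toMonoidHom.comp θ₀
  have hθ : ∀ y : p.ker, sc (θ y) = ((y : P) : Γ × G).2 := by
    intro y
    have h1 := e.apply_symm_apply (θ₀ y)
    exact congrArg Subtype.val h1
  obtain ⟨ν, hν⟩ := exists_character_extension p.ker θ (by
    intro k hk
    have h1 : (k : P) ∈ p.ker ⊓ commutator P := ⟨k.2, hk⟩
    rw [hbot, Subgroup.mem_bot] at h1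
    have hk1 : k = 1 := Subtype.ext h1
    rw [hk1, map_one])
  let ρ' : P →* G :=
    { toFun := fun y => (sc (ν y))⁻¹ * (y : Γ × G).2
      map_one' := by simp
      map_mul' := by
        intro a b
        show (sc (ν (a * b)))⁻¹ * ((a : Γ × G).2 * (b : Γ × G).2) =
          (sc (ν a))⁻¹ * (a : Γ × G).2 * ((sc (ν b))⁻¹ * (b : Γ × G).2)
        have hc := Subgroup.mem_center_iff.mp (Subgroup.inv_mem _ (hsc_center (ν b)))
          ((sc (ν a))⁻¹ * (a : Γ × G).2)
        rw [map_mul, map_mul, mul_inv_rev]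
        calc (sc (ν b))⁻¹ * (sc (ν a))⁻¹ * ((a : Γ × G).2 * (b : Γ × G).2)
            = ((sc (ν b))⁻¹ * ((sc (ν a))⁻¹ * (a : Γ × G).2)) * (b : Γ × G).2 := by group
          _ = (((sc (ν a))⁻¹ * (a : Γ × G).2) * (sc (ν b))⁻¹) * (b : Γ × G).2 := by rw [hc]
          _ = _ := by group }
  have hρ'ker : p.ker ≤ ρ'.ker := by
    intro y hy
    rw [MonoidHom.mem_ker]
    show (sc (ν y))⁻¹ * (y : Γ × G).2 = 1
    have h1 := hν ⟨y, hy⟩
    have h2 := hθ ⟨y, hy⟩
    rw [show ν y = θ ⟨y, hy⟩ from h1, h2, inv_mul_cancel]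
  let ρ : Γ →* G := p.liftOfSurjective hp ⟨ρ', hρ'ker⟩
  have hρ : ∀ y : P, ρ (p y) = ρ' y := fun y =>
    MonoidHom.liftOfRightInverse_comp_apply _ _ _ ⟨ρ', hρ'ker⟩ y
  refine ⟨ρ, ?_⟩
  ext g
  obtain ⟨y, rfl⟩ := hp g
  show mkZ (ρ (p y)) = γ (σ (p y))
  rw [hρ y]
  show mkZ ((sc (ν y))⁻¹ * (y : Γ × G).2) = γ (σ (y : Γ × G).1)
  rw [map_mul, map_inv, hmk_sc, inv_one, one_mul]
  exact ((hP y).mp y.2).1.symm

/-- `GL n ℂ` version of `exists_lift_of_cover`. -/
theorem exists_gl_lift_of_cover {Q : Type u} [Group Q] {A : Type v} [CommGroup A]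
    (hA : Cfsg.HasSchurMultiplier Q A) {Γ : Type u'} [Group Γ] [Finite Γ] (σ : Γ →* Q)
    (hσ : Cfsg.IsStemExtension σ) (hcard : Nat.card A ≤ Nat.card σ.ker) (n : ℕ)
    (γ : Q →* (GL (Fin n) ℂ ⧸ Subgroup.center (GL (Fin n) ℂ))) :
    ∃ ρ : Γ →* GL (Fin n) ℂ,
      (QuotientGroup.mk' (Subgroup.center (GL (Fin n) ℂ))).comp ρ = γ.comp σ := by
  rcases Nat.eq_zero_or_pos n with rfl | hn
  · refine ⟨1, ?_⟩
    ext g
    obtain ⟨M, hM⟩ := QuotientGroup.mk'_surjective (Subgroup.center (GL (Fin 0) ℂ)) (γ (σ g))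
    have hM1 : M = 1 := Subsingleton.elim _ _
    rw [MonoidHom.comp_apply, MonoidHom.comp_apply, ← hM, hM1]
    rfl
  · haveI : Nonempty (Fin n) := ⟨⟨0, hn⟩⟩
    refine exists_lift_of_cover hA σ hσ hcard (Matrix.GeneralLinearGroup.scalar (Fin n)) ?_
      Matrix.GeneralLinearGroup.center_eq_range_scalar.symm Matrix.GeneralLinearGroup.det n hn
      ?_ γ
    · intro a b hab
      have h1 := congrArg
        (fun M : GL (Fin n) ℂ => (M : Matrix (Fin n) (Fin n) ℂ) ⟨0, hn⟩ ⟨0, hn⟩) hab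
      simp only [Matrix.GeneralLinearGroup.coe_scalar, Matrix.scalar_apply,
        Matrix.diagonal_apply_eq] at h1
      exact Units.ext h1
    · intro c
      rw [Matrix.GeneralLinearGroup.det_scalar, Fintype.card_fin]

/-- A finite group has, for every nontrivial element, a complex matrix representation not
killing that element and sending the centre into the scalars. -/
theorem exists_rep_ne_one {P : Type*} [Group P] [Finite P] (k₀ : P) (hk₀ : k₀ ≠ 1) :
    ∃ (n : ℕ) (ρG : P →* GL (Fin n) ℂ), ρG k₀ ≠ 1 ∧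
      ∀ z ∈ Subgroup.center P, ρG z ∈ Subgroup.center (GL (Fin n) ℂ) := by
  classical
  haveI := Fintype.ofFinite P
  haveI : Fintype (Cfsg.IrrCharacter P) := Fintype.ofFinite _
  have hd : ∀ χ : Cfsg.IrrCharacter P, ∃ d : ℕ, 0 < d ∧ (χ : P → ℂ) 1 = d := by
    intro χ
    obtain ⟨n, ρ, hirr, hχ⟩ := χ.2
    haveI := hirr
    have : Nontrivial (Fin n → ℂ) := IsSimpleModule.nontrivial (MonoidAlgebra ℂ P) ρ.asModule
    refine ⟨Module.finrank ℂ (Fin n → ℂ), Module.finrank_pos, ?_⟩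
    rw [← hχ, Representation.char_one]
  have hex : ∃ χ : Cfsg.IrrCharacter P, (χ : P → ℂ) k₀ ≠ (χ : P → ℂ) 1 := by
    by_contra hall
    push Not at hall
    choose d hdpos hd1 using hd
    have hcol := Cfsg.Agent.Helper1.col_orth k₀ (1 : P)
    have hnc : ¬ IsConj k₀ (1 : P) := fun h => hk₀ (isConj_one_left.mp h)
    rw [if_neg hnc] at hcol
    have h1 : ∑ χ : Cfsg.IrrCharacter P, (χ : P → ℂ) k₀ * conj ((χ : P → ℂ) 1) =
        ((∑ χ : Cfsg.IrrCharacter P, d χ * d χ : ℕ) : ℂ) := by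
      rw [Nat.cast_sum]
      apply Finset.sum_congr rfl
      intro χ _
      rw [hall χ, hd1 χ, Complex.conj_natCast, Nat.cast_mul]
    rw [h1] at hcol
    have h2 : ∑ χ : Cfsg.IrrCharacter P, d χ * d χ = 0 := by exact_mod_cast hcol
    have hne : Nonempty (Cfsg.IrrCharacter P) := by
      have h3 : Nat.card (Cfsg.IrrCharacter P) = Nat.card (ConjClasses P) :=
        Cfsg.Agent.Helper1.card_irr
      have h4 : 0 < Nat.card (ConjClasses P) := Nat.card_pos
      rw [← h3] at h4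
      exact (Nat.card_pos_iff.mp h4).1
    obtain ⟨χ₀⟩ := hne
    have h5 := (Finset.sum_eq_zero_iff.mp h2) χ₀ (Finset.mem_univ _)
    have h6 := hdpos χ₀
    have h7 : 0 < d χ₀ * d χ₀ := Nat.mul_pos h6 h6
    omega
  obtain ⟨χ, hχne⟩ := hex
  obtain ⟨n, ρ, hirr, hχ⟩ := χ.2
  have hρk : ρ k₀ ≠ 1 := by
    intro h
    apply hχne
    rw [← hχ]
    show LinearMap.trace ℂ _ (ρ k₀) = LinearMap.trace ℂ _ (ρ 1)
    rw [h, map_one ρ]
  refine ⟨n, Matrix.GeneralLinearGroup.toLin.symm.toMonoidHom.comp ρ.toHomUnits, ?_, ?_⟩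
  · intro h
    apply hρk
    have h1 : ρ.toHomUnits k₀ = 1 := by
      have h0 := congrArg Matrix.GeneralLinearGroup.toLin h
      simpa using h0
    have h2 := congrArg Units.val h1
    simpa using h2
  · intro z hz
    haveI := hirr
    obtain ⟨c, hc⟩ := Cfsg.Agent.Helper1.exists_scalar_of_commute ρ (ρ z) (by
      intro g
      show ρ z * ρ g = ρ g * ρ z
      rw [← map_mul, ← map_mul, Subgroup.mem_center_iff.mp hz g])
    rw [Subgroup.mem_center_iff]
    intro M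
    apply Matrix.GeneralLinearGroup.toLin.injective
    rw [map_mul, map_mul]
    have h1 : Matrix.GeneralLinearGroup.toLin
        ((Matrix.GeneralLinearGroup.toLin.symm.toMonoidHom.comp ρ.toHomUnits) z) =
        ρ.toHomUnits z := by simp
    rw [h1]
    apply Units.ext
    rw [Units.val_mul, Units.val_mul, MonoidHom.coe_toHomUnits, hc]
    ext v
    simp

/-- If all projective representations of `Q` lift along `σ : Γ → Q`, then for a finite group
`P` over `Γ` whose kernel over `Q` is central, `ker (P → Γ) ∩ P' = 1`. -/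
theorem ker_inf_commutator_eq_bot_of_lifts {Q : Type u} [Group Q] {Γ : Type u'} [Group Γ]
    (σ : Γ →* Q) (hσs : Function.Surjective σ)
    (hlift : ∀ (n : ℕ) (γ : Q →* (GL (Fin n) ℂ ⧸ Subgroup.center (GL (Fin n) ℂ))),
      ∃ ρ : Γ →* GL (Fin n) ℂ,
        (QuotientGroup.mk' (Subgroup.center (GL (Fin n) ℂ))).comp ρ = γ.comp σ)
    {P : Type w} [Group P] [Finite P] (p : P →* Γ) (hp : Function.Surjective p)
    (hqc : (σ.comp p).ker ≤ Subgroup.center P) : p.ker ⊓ commutator P = ⊥ := by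
  rw [Subgroup.eq_bot_iff_forall]
  intro k₀ hk₀
  by_contra hne
  obtain ⟨n, ρG, hρk, hρc⟩ := exists_rep_ne_one k₀ hne
  let mkZ : GL (Fin n) ℂ →* GL (Fin n) ℂ ⧸ Subgroup.center (GL (Fin n) ℂ) :=
    QuotientGroup.mk' (Subgroup.center (GL (Fin n) ℂ))
  have hsurj : Function.Surjective (σ.comp p) := hσs.comp hp
  have hker : (σ.comp p).ker ≤ (mkZ.comp ρG).ker := by
    intro y hy
    rw [MonoidHom.mem_ker, MonoidHom.comp_apply]
    exact (QuotientGroup.eq_one_iff _).mpr (hρc y (hqc hy))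
  let γ : Q →* GL (Fin n) ℂ ⧸ Subgroup.center (GL (Fin n) ℂ) :=
    (σ.comp p).liftOfSurjective hsurj ⟨mkZ.comp ρG, hker⟩
  have hγ : ∀ y : P, γ (σ (p y)) = mkZ (ρG y) := fun y =>
    MonoidHom.liftOfRightInverse_comp_apply _ _ _ ⟨mkZ.comp ρG, hker⟩ y
  obtain ⟨ρ, hρ⟩ := hlift n γ
  have hρ' : ∀ g : Γ, mkZ (ρ g) = γ (σ g) := fun g => by
    have := congrArg (fun f => f g) hρ
    exact this
  have hcentral : ∀ y : P, ρG y * ((ρ.comp p) y)⁻¹ ∈ Subgroup.center (GL (Fin n) ℂ) := by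
    intro y
    rw [← QuotientGroup.eq_one_iff]
    show mkZ (ρG y * (ρ (p y))⁻¹) = 1
    rw [map_mul, map_inv, hρ', hγ, mul_inv_cancel]
  have heq := eq_on_commutator_of_central ρG (ρ.comp p) hcentral k₀ hk₀.2
  apply hρk
  rw [heq, MonoidHom.comp_apply, MonoidHom.mem_ker.mp hk₀.1, map_one]

end Cfsg.Agent.Helper22
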