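import Mathlib
import Cfsg.Prelude
import Cfsg.Agent.Helper22.SchurConstr

set_option autoImplicit false

namespace Cfsg.Agent.Helper22

open scoped commutatorElement

universe u v w u'

/-- A homomorphism into a group with commutative multiplication kills the commutator
subgroup. -/
theorem commutator_le_ker_of_comm {G H : Type*} [Group G] [Group H]
    (hH : ∀ a b : H, a * b = b * a) (f : G →* H) : commutator G ≤ f.ker := by
  rw [commutator_def, Subgroup.commutator_le]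
  intro g₁ _ g₂ _
  rw [MonoidHom.mem_ker, commutatorElement_def, map_mul, map_mul, map_mul, map_inv, map_inv,
    hH (f g₁) (f g₂)]
  group

theorem pow_card_abelianization_mem_commutator {Q : Type*} [Group Q]
    [Finite (Abelianization Q)] (q : Q) : q ^ Nat.card (Abelianization Q) ∈ commutator Q := by
  have h1 : (Abelianization.of q) ^ Nat.card (Abelianization Q) = 1 := pow_card_eq_one'
  rw [← map_pow] at h1
  have h2 : q ^ Nat.card (Abelianization Q) ∈ (Abelianization.of : Q →* Abelianization Q).ker :=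
    h1
  rw [Abelianization.ker_of] at h2
  exact h2

/-- Variant of `exists_surjective_ker_of_inf_eq_bot` in which the second extension need not be
stem: the kernel of the first surjects onto `ker σ₂ ∩ Γ₂'`. -/
theorem exists_surjective_ker_inf_comm {P Γ₁ Γ₂ Q : Type*} [Group P] [Group Γ₁] [Group Γ₂]
    [Group Q] (p₁ : P →* Γ₁) (p₂ : P →* Γ₂) (hp₁ : Function.Surjective p₁)
    (hp₂ : Function.Surjective p₂) (σ₁ : Γ₁ →* Q) (σ₂ : Γ₂ →* Q)
    (hcomm : ∀ y, σ₁ (p₁ y) = σ₂ (p₂ y)) (hd₁ : σ₁.ker ≤ commutator Γ₁)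
    (h : p₁.ker ⊓ commutator P = ⊥) :
    ∃ π : σ₁.ker →* (σ₂.ker ⊓ commutator Γ₂ : Subgroup Γ₂), Function.Surjective π := by
  let W : Subgroup P := commutator P ⊓ (σ₁.comp p₁).ker
  let φ₁ : W →* σ₁.ker := (p₁.comp W.subtype).codRestrict σ₁.ker (fun y => y.2.2)
  let φ₂ : W →* (σ₂.ker ⊓ commutator Γ₂ : Subgroup Γ₂) :=
    (p₂.comp W.subtype).codRestrict (σ₂.ker ⊓ commutator Γ₂) (fun y => by
      refine ⟨?_, ?_⟩
      · show σ₂ (p₂ (y : P)) = 1
        rw [← hcomm]; exact y.2.2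
      · rw [← map_commutator_of_surjective p₂ hp₂]
        exact Subgroup.mem_map_of_mem p₂ y.2.1)
  have hφ₁inj : Function.Injective φ₁ := by
    rw [injective_iff_map_eq_one]
    intro y hy
    have h1 : p₁ (y : P) = 1 := congrArg Subtype.val hy
    have h2 : (y : P) ∈ p₁.ker ⊓ commutator P := ⟨h1, y.2.1⟩
    rw [h, Subgroup.mem_bot] at h2
    exact Subtype.ext h2
  have hφ₁surj : Function.Surjective φ₁ := by
    rintro ⟨a, ha⟩
    obtain ⟨y, hy, hya⟩ := exists_mem_comm_of_stem p₁ hp₁ σ₁ hd₁ a ha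
    refine ⟨⟨y, hy, ?_⟩, Subtype.ext hya⟩
    show σ₁ (p₁ y) = 1
    rw [hya]; exact ha
  have hφ₂surj : Function.Surjective φ₂ := by
    rintro ⟨b, hb1, hb2⟩
    rw [← map_commutator_of_surjective p₂ hp₂] at hb2
    obtain ⟨y, hy, hyb⟩ := hb2
    refine ⟨⟨y, hy, ?_⟩, Subtype.ext hyb⟩
    show σ₁ (p₁ y) = 1
    rw [hcomm, hyb]; exact hb1
  let e : W ≃* σ₁.ker := MulEquiv.ofBijective φ₁ ⟨hφ₁inj, hφ₁surj⟩
  exact ⟨φ₂.comp e.symm.toMonoidHom, hφ₂surj.comp e.symm.surjective⟩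

/-- For any finite central extension `E` of `Q` with kernel `K`, the group `K ∩ E'` is a
homomorphic image of the Schur multiplier of `Q`. -/
theorem exists_surjective_of_central_ext {Q : Type u} [Group Q] {A : Type v} [CommGroup A]
    (hA : Cfsg.HasSchurMultiplier Q A) {E : Type w} [Group E] [Finite E] (π : E →* Q)
    (hπ : Function.Surjective π) (hc : π.ker ≤ Subgroup.center E) :
    ∃ f : A →* (π.ker ⊓ commutator E : Subgroup E), Function.Surjective f := by
  obtain ⟨Γ₀, _, _, σ₀, hσ₀, ⟨e₀⟩⟩ := hA.1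
  have hcard : Nat.card A ≤ Nat.card σ₀.ker := (Nat.card_congr e₀.toEquiv).ge
  have hp₁ := fiberFst_surjective σ₀ π hπ
  have hp₂ := fiberSnd_surjective σ₀ π hσ₀.1
  have hqc := fiber_ker_central σ₀ π hσ₀.2.1 hc
  have hbot := ker_inf_commutator_eq_bot_of_cover hA σ₀ hσ₀ hcard (fiberFst σ₀ π) hp₁ hqc
  obtain ⟨f, hf⟩ := exists_surjective_ker_inf_comm (fiberFst σ₀ π) (fiberSnd σ₀ π) hp₁ hp₂ σ₀ π
    (fiber_comm_apply σ₀ π) hσ₀.2.2 hbot
  exact ⟨f.comp e₀.symm.toMonoidHom, hf.comp e₀.symm.surjective⟩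

end Cfsg.Agent.Helper22
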