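import Mathlib
import Cfsg.Prelude
import Cfsg.Agent.Helper22.SchurFacts

set_option autoImplicit false

namespace Cfsg.Agent.Helper22

open scoped commutatorElement

universe u v w

/-- Transfer: a central element of `Γ` lying in the commutator subgroup has its `|Γ : H|`-th
power in the commutator subgroup of `H`. -/
theorem central_pow_index_mem_commutator {Γ : Type*} [Group Γ] (H : Subgroup Γ) [H.FiniteIndex]
    (a : Γ) (hac : a ∈ Subgroup.center Γ) (had : a ∈ commutator Γ) (b : H)
    (hb : (b : Γ) = a ^ H.index) : b ∈ commutator H := by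
  have key : ∀ (k : ℕ) (g₀ : Γ), g₀⁻¹ * a ^ k * g₀ ∈ H → g₀⁻¹ * a ^ k * g₀ = a ^ k := by
    intro k g₀ _
    have h1 := Subgroup.mem_center_iff.mp (Subgroup.pow_mem _ hac k) g₀
    rw [mul_assoc, ← h1, inv_mul_cancel_left]
  have h1 := MonoidHom.transfer_eq_pow (Abelianization.of : H →* Abelianization H) a key
  have h2 : MonoidHom.transfer (Abelianization.of : H →* Abelianization H) a = 1 :=
    Abelianization.commutator_subset_ker _ had
  rw [h2] at h1
  have h3 : (⟨a ^ H.index, MonoidHom.transfer_eq_pow_aux a key⟩ : H) ∈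
      (Abelianization.of : H →* Abelianization H).ker := h1.symm
  rw [Abelianization.ker_of] at h3
  have e : b = ⟨a ^ H.index, MonoidHom.transfer_eq_pow_aux a key⟩ := Subtype.ext hb
  rw [e]; exact h3

/-- Duality for finite abelian groups: a quotient embeds. -/
theorem exists_injective_of_surjective_comm {B K : Type*} [CommGroup B] [Finite B] [Group K]
    (f : B →* K) (hf : Function.Surjective f) (hK : ∀ a b : K, a * b = b * a) :
    ∃ j : K →* B, Function.Injective j := by
  letI : CommGroup K := { (inferInstance : Group K) with mul_comm := hK }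
  haveI : Finite K := Finite.of_surjective f hf
  haveI : NeZero ((Monoid.exponent K : ℕ) : ℂ) :=
    ⟨Nat.cast_ne_zero.mpr Monoid.exponent_ne_zero_of_finite⟩
  haveI : NeZero ((Monoid.exponent B : ℕ) : ℂ) :=
    ⟨Nat.cast_ne_zero.mpr Monoid.exponent_ne_zero_of_finite⟩
  obtain ⟨eK⟩ := CommGroup.monoidHom_mulEquiv_of_hasEnoughRootsOfUnity K ℂ
  obtain ⟨eB⟩ := CommGroup.monoidHom_mulEquiv_of_hasEnoughRootsOfUnity B ℂ
  let D : (K →* ℂˣ) →* (B →* ℂˣ) := MonoidHom.compHom' f
  have hD : Function.Injective D := by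
    intro χ χ' h
    have h' : χ.comp f = χ'.comp f := h
    exact (MonoidHom.cancel_right hf).mp h'
  exact ⟨eB.toMonoidHom.comp (D.comp eK.symm.toMonoidHom),
    eB.injective.comp (hD.comp eK.symm.injective)⟩

/-- If `U` has index `m` in `G`, the `m`-th powers of the Schur multiplier of `G` embed in the
Schur multiplier of `U`. -/
theorem exists_pow_index_range_equiv {G : Type u} [Group G] [Finite G] (U : Subgroup G)
    {A : Type v} {B : Type w} [CommGroup A] [CommGroup B]
    (hA : Cfsg.HasSchurMultiplier G A) (hB : Cfsg.HasSchurMultiplier U B) :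
    ∃ C : Subgroup B, Nonempty ((powMonoidHom U.index : A →* A).range ≃* C) := by
  obtain ⟨Γ, _, _, σ, ⟨hσs, hσc, hσd⟩, ⟨e⟩⟩ := hA.1
  haveI : Finite B := finite_of_hasSchurMultiplier hB
  obtain ⟨Ũ, hŨ⟩ : ∃ Ũ : Subgroup Γ, Ũ = U.comap σ := ⟨_, rfl⟩
  have hidx : Ũ.index = U.index := by rw [hŨ]; exact Subgroup.index_comap_of_surjective U hσs
  have hmemŨ : ∀ x, x ∈ Ũ ↔ σ x ∈ U := fun x => by rw [hŨ]; exact Subgroup.mem_comap
  let π : Ũ →* U :=
    { toFun := fun x => ⟨σ (x : Γ), (hmemŨ x).mp x.2⟩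
      map_one' := Subtype.ext (map_one σ)
      map_mul' := fun x y => Subtype.ext (map_mul σ (x : Γ) (y : Γ)) }
  have hπ : Function.Surjective π := by
    rintro ⟨u, hu⟩
    obtain ⟨x, hx⟩ := hσs u
    exact ⟨⟨x, (hmemŨ x).mpr (by rw [hx]; exact hu)⟩, Subtype.ext hx⟩
  have hπk : ∀ x : Ũ, x ∈ π.ker ↔ σ (x : Γ) = 1 := by
    intro x
    rw [MonoidHom.mem_ker]
    exact ⟨fun h => congrArg Subtype.val h, fun h => Subtype.ext h⟩
  have hπc : π.ker ≤ Subgroup.center Ũ := by
    intro x hx
    have h1 := hσc ((hπk x).mp hx)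
    rw [Subgroup.mem_center_iff] at h1 ⊢
    intro g
    exact Subtype.ext (h1 g)
  obtain ⟨f, hf⟩ := exists_surjective_of_central_ext hB π hπ hπc
  have hKcomm : ∀ a b : (π.ker ⊓ commutator Ũ : Subgroup Ũ), a * b = b * a := by
    intro a b
    have h1 := hπc a.2.1
    rw [Subgroup.mem_center_iff] at h1
    exact Subtype.ext (h1 b).symm
  obtain ⟨j, hj⟩ := exists_injective_of_surjective_comm f hf hKcomm
  let ι₀ : (powMonoidHom U.index : A →* A).range →* Γ :=
    σ.ker.subtype.comp (e.symm.toMonoidHom.comp (Subgroup.subtype _))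
  have hι₀σ : ∀ x, σ (ι₀ x) = 1 := fun x => (e.symm (x : A)).2
  have hι₀inj : Function.Injective ι₀ := by
    intro x y h
    have h1 : e.symm (x : A) = e.symm (y : A) := Subtype.ext h
    exact Subtype.ext (e.symm.injective h1)
  let ι₁ : (powMonoidHom U.index : A →* A).range →* Ũ :=
    ι₀.codRestrict Ũ (fun x => (hmemŨ _).mpr (by rw [hι₀σ]; exact U.one_mem))
  let ι : (powMonoidHom U.index : A →* A).range →* (π.ker ⊓ commutator Ũ : Subgroup Ũ) :=
    ι₁.codRestrict _ (fun x => by
      refine ⟨(hπk _).mpr (hι₀σ x), ?_⟩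
      obtain ⟨x, y, rfl⟩ := x
      haveI : Ũ.FiniteIndex := inferInstance
      apply central_pow_index_mem_commutator Ũ ((e.symm y : σ.ker) : Γ) (hσc (e.symm y).2)
        (hσd (e.symm y).2)
      show ((e.symm (y ^ U.index) : σ.ker) : Γ) = _
      rw [hidx, map_pow, Subgroup.coe_pow])
  have hιinj : Function.Injective ι := by
    intro x y h
    have h1 : ι₀ x = ι₀ y :=
      congrArg (fun z : (π.ker ⊓ commutator Ũ : Subgroup Ũ) => ((z : Ũ) : Γ)) h
    exact hι₀inj h1
  exact ⟨(j.comp ι).range, ⟨MonoidHom.ofInjective (hj.comp hιinj)⟩⟩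

end Cfsg.Agent.Helper22
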