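import Mathlib
import Cfsg.Prelude
import Cfsg.Agent.Helper22.SchurTransfer
import Cfsg.Agent.Helper22.SchurLift
import Cfsg.Agent.Helper1.CharOrtho
import Cfsg.Agent.S0138

set_option autoImplicit false

namespace Cfsg.Agent.Helper22

open scoped commutatorElement ComplexConjugate

universe u v w

/-- A finite group has, for every nontrivial element, an irreducible complex representation not
killing that element. -/
theorem exists_irr_rep_ne_one {P : Type*} [Group P] [Finite P] (k₀ : P) (hk₀ : k₀ ≠ 1) :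
    ∃ (n : ℕ) (ρ : Representation ℂ P (Fin n → ℂ)), ρ.IsIrreducible ∧ ρ k₀ ≠ 1 := by
  classical
  haveI := Fintype.ofFinite P
  haveI : Fintype (Cfsg.IrrCharacter P) := Fintype.ofFinite _
  have hd : ∀ χ : Cfsg.IrrCharacter P, ∃ d : ℕ, 0 < d ∧ (χ : P → ℂ) 1 = d := by
    intro χ
    obtain ⟨n, ρ, hirr, hχ⟩ := χ.2
    haveI := hirr
    have : Nontrivial (Fin n → ℂ) := IsSimpleModule.nontrivial (MonoidAlgebra ℂ P) ρ.asModule
    refine ⟨Module.finrank ℂ (Fin n → ℂ), Module.finrank_pos, ?_⟩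
    rw [← hχ, Representation.char_one]
  have hex : ∃ χ : Cfsg.IrrCharacter P, (χ : P → ℂ) k₀ ≠ (χ : P → ℂ) 1 := by
    by_contra hall
    push Not at hall
    choose d hdpos hd1 using hd
    have hcol := Cfsg.Agent.Helper1.col_orth k₀ (1 : P)
    have hnc : ¬ IsConj k₀ (1 : P) := fun h => hk₀ (isConj_one_left.mp h)
    rw [if_neg hnc] at hcol
    have h1 : ∑ χ : Cfsg.IrrCharacter P, (χ : P → ℂ) k₀ * conj ((χ : P → ℂ) 1) =
        ((∑ χ : Cfsg.IrrCharacter P, d χ * d χ : ℕ) : ℂ) := by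
      rw [Nat.cast_sum]
      apply Finset.sum_congr rfl
      intro χ _
      rw [hall χ, hd1 χ, Complex.conj_natCast, Nat.cast_mul]
    rw [h1] at hcol
    have h2 : ∑ χ : Cfsg.IrrCharacter P, d χ * d χ = 0 := by exact_mod_cast hcol
    have hne : Nonempty (Cfsg.IrrCharacter P) := by
      have h3 : Nat.card (Cfsg.IrrCharacter P) = Nat.card (ConjClasses P) :=
        Cfsg.Agent.Helper1.card_irr
      have h4 : 0 < Nat.card (ConjClasses P) := Nat.card_pos
      rw [← h3] at h4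
      exact (Nat.card_pos_iff.mp h4).1
    obtain ⟨χ₀⟩ := hne
    have h5 := (Finset.sum_eq_zero_iff.mp h2) χ₀ (Finset.mem_univ _)
    have h6 := hdpos χ₀
    have h7 : 0 < d χ₀ * d χ₀ := Nat.mul_pos h6 h6
    omega
  obtain ⟨χ, hχne⟩ := hex
  obtain ⟨n, ρ, hirr, hχ⟩ := χ.2
  refine ⟨n, ρ, hirr, ?_⟩
  intro h
  apply hχne
  rw [← hχ]
  show LinearMap.trace ℂ _ (ρ k₀) = LinearMap.trace ℂ _ (ρ 1)
  rw [h, map_one ρ]

/-- If the elements of a subgroup `K` act by scalars in an irreducible representation of degree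
`d`, then `|K| d² ≤ |H|`. -/
theorem card_mul_finrank_sq_le {H : Type*} [Group H] [Finite H] {V : Type*} [AddCommGroup V]
    [Module ℂ V] [FiniteDimensional ℂ V] (ρ : Representation ℂ H V) [ρ.IsIrreducible]
    (K : Subgroup H) (hK : ∀ z ∈ K, ∃ c : ℂ, ρ z = c • (LinearMap.id : V →ₗ[ℂ] V)) :
    Nat.card K * (Module.finrank ℂ V) ^ 2 ≤ Nat.card H := by
  classical
  haveI := Fintype.ofFinite H
  have h1 := Cfsg.Agent.Helper1.classInner_char_self ρ
  unfold Cfsg.classInner at h1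
  have hcard : (Nat.card H : ℂ) ≠ 0 := by exact_mod_cast Nat.card_pos.ne'
  have h2 : ∑ g : H, ρ.character g * conj (ρ.character g) = (Nat.card H : ℂ) := by
    field_simp at h1
    exact h1
  have h3 : ∑ g : H, Complex.normSq (ρ.character g) = (Nat.card H : ℝ) := by
    apply Complex.ofReal_injective
    rw [Complex.ofReal_sum, Complex.ofReal_natCast, ← h2]
    apply Finset.sum_congr rfl
    intro g _
    rw [Complex.mul_conj]
  have h4 : ∑ g ∈ Finset.univ.filter (fun g : H => g ∈ K), Complex.normSq (ρ.character g) ≤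
      ∑ g : H, Complex.normSq (ρ.character g) :=
    Finset.sum_le_sum_of_subset_of_nonneg (Finset.filter_subset _ _)
      (fun g _ _ => Complex.normSq_nonneg _)
  have h5 : ∑ g ∈ Finset.univ.filter (fun g : H => g ∈ K), Complex.normSq (ρ.character g) =
      ∑ g ∈ Finset.univ.filter (fun g : H => g ∈ K), ((Module.finrank ℂ V : ℝ)) ^ 2 := by
    apply Finset.sum_congr rfl
    intro g hg
    rw [Finset.mem_filter] at hg
    have h6 := (Cfsg.Agent.S0138.result ρ g).mpr (hK g hg.2)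
    rw [Complex.normSq_eq_norm_sq, h6]
  have h7 : (Finset.univ.filter (fun g : H => g ∈ K)).card = Nat.card K := by
    rw [Nat.card_eq_fintype_card, Fintype.card_subtype]
  rw [h5, Finset.sum_const, h7, nsmul_eq_mul, h3] at h4
  exact_mod_cast h4

/-- The determinant kills the commutator subgroup: a scalar `c` by which an element of the
commutator subgroup acts satisfies `c ^ d = 1`. -/
theorem scalar_pow_finrank_eq_one {H : Type*} [Group H] {V : Type*} [AddCommGroup V]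
    [Module ℂ V] [FiniteDimensional ℂ V] (ρ : Representation ℂ H V) (z : H)
    (hz : z ∈ commutator H) (c : ℂ) (hc : ρ z = c • (LinearMap.id : V →ₗ[ℂ] V)) :
    c ^ Module.finrank ℂ V = 1 := by
  let δ : H →* ℂˣ := ((LinearMap.det : (V →ₗ[ℂ] V) →* ℂ).comp ρ).toHomUnits
  have h1 : δ z = 1 := Abelianization.commutator_subset_ker δ hz
  have h2 : ((δ z : ℂˣ) : ℂ) = LinearMap.det (ρ z) := rfl
  rw [h1, hc, LinearMap.det_smul, LinearMap.det_id, mul_one] at h2
  exact h2.symm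

/-- A central element of `p`-power order `p ^ k` in the commutator subgroup forces
`|K| p^(2k) ≤ |H|` for every central subgroup `K`. -/
theorem card_mul_prime_pow_sq_le {H : Type*} [Group H] [Finite H] (K : Subgroup H)
    (hK : K ≤ Subgroup.center H) (z : H) (hzc : z ∈ Subgroup.center H)
    (hzd : z ∈ commutator H) (p k : ℕ) (hp : p.Prime) (hord : orderOf z = p ^ k) :
    Nat.card K * (p ^ k) ^ 2 ≤ Nat.card H := by
  rcases Nat.eq_zero_or_pos k with hk0 | hkpos
  · rw [hk0, pow_zero, one_pow, mul_one]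
    exact Nat.card_le_card_of_injective _ K.subtype_injective
  obtain ⟨k', rfl⟩ : ∃ k', k = k' + 1 := ⟨k - 1, by omega⟩
  have hz' : z ^ p ^ k' ≠ 1 := by
    intro h
    have h1 := orderOf_dvd_of_pow_eq_one h
    rw [hord] at h1
    have h2 := Nat.le_of_dvd (pow_pos hp.pos _) h1
    have h3 : p ^ k' < p ^ (k' + 1) := Nat.pow_lt_pow_right hp.one_lt (Nat.lt_succ_self _)
    omega
  obtain ⟨n, ρ, hirr, hρ⟩ := exists_irr_rep_ne_one (z ^ p ^ k') hz'
  haveI := hirr
  have hsc : ∀ y ∈ Subgroup.center H, ∃ c : ℂ, ρ y = c • (LinearMap.id : _ →ₗ[ℂ] _) := by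
    intro y hy
    exact Cfsg.Agent.Helper1.exists_scalar_of_commute ρ (ρ y) (by
      intro g
      show ρ y * ρ g = ρ g * ρ y
      rw [← map_mul, ← map_mul, Subgroup.mem_center_iff.mp hy g])
  obtain ⟨c, hc⟩ := hsc z hzc
  have hpow : ∀ j : ℕ, ρ (z ^ j) = (c ^ j) • (LinearMap.id : _ →ₗ[ℂ] _) := by
    intro j
    rw [map_pow, hc]
    induction j with
    | zero => simp; rfl
    | succ j ih =>
      rw [pow_succ, ih, pow_succ, smul_mul_smul_comm]
      rfl
  have hc1 : ¬ c ^ p ^ k' = 1 := by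
    intro h
    apply hρ
    rw [hpow, h, one_smul]; rfl
  have : Nontrivial (Fin n → ℂ) := IsSimpleModule.nontrivial (MonoidAlgebra ℂ H) ρ.asModule
  have hc2 : c ^ p ^ (k' + 1) = 1 := by
    have h1 := hpow (p ^ (k' + 1))
    rw [← hord, pow_orderOf_eq_one, map_one] at h1
    have h2 : (1 : (Fin n → ℂ) →ₗ[ℂ] (Fin n → ℂ)) = (1 : ℂ) • LinearMap.id := by
      rw [one_smul]; rfl
    rw [h2] at h1
    obtain ⟨v, hv⟩ := exists_ne (0 : Fin n → ℂ)
    have h3 := congrArg (fun f : (Fin n → ℂ) →ₗ[ℂ] (Fin n → ℂ) => f v) h1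
    simp only [LinearMap.smul_apply, LinearMap.id_apply] at h3
    have h4 : ((1 : ℂ) - c ^ orderOf z) • v = 0 := by rw [sub_smul, h3, sub_self]
    rcases smul_eq_zero.mp h4 with h5 | h5
    · rw [hord] at h5
      exact (sub_eq_zero.mp h5).symm
    · exact absurd h5 hv
  haveI : Fact p.Prime := ⟨hp⟩
  have hco : orderOf c = p ^ (k' + 1) := orderOf_eq_prime_pow hc1 hc2
  have hcd := scalar_pow_finrank_eq_one ρ z hzd c hc
  have hdvd : p ^ (k' + 1) ∣ Module.finrank ℂ (Fin n → ℂ) := by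
    rw [← hco]; exact orderOf_dvd_of_pow_eq_one hcd
  have hle : p ^ (k' + 1) ≤ Module.finrank ℂ (Fin n → ℂ) :=
    Nat.le_of_dvd Module.finrank_pos hdvd
  have h1 := card_mul_finrank_sq_le ρ K (fun y hy => hsc y (hK hy))
  calc Nat.card K * (p ^ (k' + 1)) ^ 2 ≤ Nat.card K * (Module.finrank ℂ (Fin n → ℂ)) ^ 2 :=
        Nat.mul_le_mul_left _ (Nat.pow_le_pow_left hle 2)
    _ ≤ Nat.card H := h1

/-- If the Schur multiplier `A` of `Q` has an element of order `p ^ k`, then `p ^ (2k)` divides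
`|Q|`. -/
theorem prime_pow_sq_dvd_card_of_orderOf {Q : Type u} [Group Q] [Finite Q] {A : Type v}
    [CommGroup A] (hA : Cfsg.HasSchurMultiplier Q A) (p k : ℕ) (hp : p.Prime) (a : A)
    (ha : orderOf a = p ^ k) : (p ^ k) ^ 2 ∣ Nat.card Q := by
  haveI : Fact p.Prime := ⟨hp⟩
  obtain ⟨Γ, _, _, σ, ⟨hσs, hσc, hσd⟩, ⟨e⟩⟩ := hA.1
  obtain ⟨z, hz⟩ : ∃ z : σ.ker, z = e.symm a := ⟨_, rfl⟩
  have hzord : orderOf (z : Γ) = p ^ k := by
    rw [Subgroup.orderOf_coe, hz, MulEquiv.orderOf_eq]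
    exact ha
  obtain ⟨P⟩ : Nonempty (Sylow p Q) := inferInstance
  obtain ⟨Ũ, hŨ⟩ : ∃ Ũ : Subgroup Γ, Ũ = (P : Subgroup Q).comap σ := ⟨_, rfl⟩
  have hidx : Ũ.index = (P : Subgroup Q).index := by
    rw [hŨ]; exact Subgroup.index_comap_of_surjective _ hσs
  have hmemŨ : ∀ x, x ∈ Ũ ↔ σ x ∈ (P : Subgroup Q) := fun x => by
    rw [hŨ]; exact Subgroup.mem_comap
  let π : Ũ →* (P : Subgroup Q) :=
    { toFun := fun x => ⟨σ (x : Γ), (hmemŨ x).mp x.2⟩
      map_one' := Subtype.ext (map_one σ)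
      map_mul' := fun x y => Subtype.ext (map_mul σ (x : Γ) (y : Γ)) }
  have hπ : Function.Surjective π := by
    rintro ⟨u, hu⟩
    obtain ⟨x, hx⟩ := hσs u
    exact ⟨⟨x, (hmemŨ x).mpr (by rw [hx]; exact hu)⟩, Subtype.ext hx⟩
  have hπk : ∀ x : Ũ, x ∈ π.ker ↔ σ (x : Γ) = 1 := by
    intro x
    rw [MonoidHom.mem_ker]
    exact ⟨fun h => congrArg Subtype.val h, fun h => Subtype.ext h⟩
  have hπc : π.ker ≤ Subgroup.center Ũ := by
    intro x hx
    have h1 := hσc ((hπk x).mp hx)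
    rw [Subgroup.mem_center_iff] at h1 ⊢
    intro g
    exact Subtype.ext (h1 g)
  have hzŨ : (z : Γ) ∈ Ũ := (hmemŨ _).mpr (by
    rw [show σ (z : Γ) = 1 from z.2]; exact Subgroup.one_mem _)
  obtain ⟨zU, hzU⟩ : ∃ zU : Ũ, (zU : Γ) = z := ⟨⟨z, hzŨ⟩, rfl⟩
  have hzUord : orderOf zU = p ^ k := by rw [← Subgroup.orderOf_coe, hzU, hzord]
  have hzUk : zU ∈ π.ker := (hπk zU).mpr (by rw [hzU]; exact z.2)
  have hcop : Nat.Coprime Ũ.index (orderOf zU) := by
    rw [hidx, hzUord]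
    exact Nat.Coprime.pow_right _
      (Nat.Coprime.symm ((Nat.Prime.coprime_iff_not_dvd hp).mpr P.not_dvd_index))
  have hpow : zU ^ Ũ.index ∈ commutator Ũ :=
    central_pow_index_mem_commutator Ũ (z : Γ) (hσc z.2) (hσd z.2) _
      (by rw [Subgroup.coe_pow, hzU])
  obtain ⟨t, ht⟩ := exists_pow_eq_self_of_coprime hcop
  have hzUd : zU ∈ commutator Ũ := by rw [← ht]; exact Subgroup.pow_mem _ hpow t
  have h1 := card_mul_prime_pow_sq_le π.ker hπc zU (hπc hzUk) hzUd p k hp hzUord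
  have h2 : Nat.card Ũ = Nat.card π.ker * Nat.card (P : Subgroup Q) := card_eq_card_ker_mul π hπ
  rw [h2] at h1
  have h3 : (p ^ k) ^ 2 ≤ Nat.card (P : Subgroup Q) := Nat.le_of_mul_le_mul_left h1 Nat.card_pos
  obtain ⟨s, hs⟩ := IsPGroup.iff_card.mp P.2
  rw [hs, ← pow_mul] at h3
  have h4 : k * 2 ≤ s := (Nat.pow_le_pow_iff_right hp.one_lt).mp h3
  calc (p ^ k) ^ 2 = p ^ (k * 2) := (pow_mul _ _ _).symm
    _ ∣ p ^ s := pow_dvd_pow p h4
    _ = Nat.card (P : Subgroup Q) := hs.symm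
    _ ∣ Nat.card Q := Subgroup.card_subgroup_dvd_card _

/-- The square of the exponent of the Schur multiplier divides the group order. -/
theorem exponent_sq_dvd_card {Q : Type u} [Group Q] [Finite Q] {A : Type v} [CommGroup A]
    (hA : Cfsg.HasSchurMultiplier Q A) : Monoid.exponent A ^ 2 ∣ Nat.card Q := by
  haveI : Finite A := finite_of_hasSchurMultiplier hA
  have hn0 : Monoid.exponent A ≠ 0 := Monoid.exponent_ne_zero_of_finite
  obtain ⟨a₀, ha₀⟩ := Monoid.exists_orderOf_eq_exponent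
    (Monoid.exponent_ne_zero.mp hn0)
  rw [Nat.dvd_iff_prime_pow_dvd_dvd]
  intro p j hp hj
  obtain ⟨k, hk⟩ : ∃ k, k = (Monoid.exponent A).factorization p := ⟨_, rfl⟩
  have hpk : p ^ k ∣ Monoid.exponent A := by rw [hk]; exact Nat.ordProj_dvd _ _
  have hj2 : j ≤ 2 * k := by
    have h := (hp.pow_dvd_iff_le_factorization (pow_ne_zero 2 hn0)).mp hj
    rw [Nat.factorization_pow] at h
    simpa [hk] using h
  obtain ⟨a, ha⟩ : ∃ a : A, orderOf a = p ^ k := by
    refine ⟨a₀ ^ (Monoid.exponent A / p ^ k), ?_⟩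
    rw [orderOf_pow, ha₀, Nat.gcd_eq_right (Nat.div_dvd_of_dvd hpk)]
    exact Nat.div_div_self hpk hn0
  have h := prime_pow_sq_dvd_card_of_orderOf hA p k hp a ha
  calc p ^ j ∣ p ^ (2 * k) := pow_dvd_pow p hj2
    _ = (p ^ k) ^ 2 := by rw [mul_comm, pow_mul]
    _ ∣ Nat.card Q := h

end Cfsg.Agent.Helper22
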