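import Mathlib
import Cfsg.Prelude
import Cfsg.Agent.Helper22.SchurFacts

set_option autoImplicit false

namespace Cfsg.Agent.Helper22

open scoped commutatorElement

universe u v w

theorem map_commutator_le {G H : Type*} [Group G] [Group H] (f : G →* H) :
    (commutator G).map f ≤ commutator H := by
  rw [commutator_def, Subgroup.map_commutator, commutator_def]
  exact Subgroup.commutator_mono le_top le_top

theorem stem_prodMap {Γ₁ Γ₂ Q₁ Q₂ : Type*} [Group Γ₁] [Group Γ₂] [Group Q₁] [Group Q₂]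
    (σ₁ : Γ₁ →* Q₁) (σ₂ : Γ₂ →* Q₂) (h₁ : Cfsg.IsStemExtension σ₁)
    (h₂ : Cfsg.IsStemExtension σ₂) : Cfsg.IsStemExtension (σ₁.prodMap σ₂) := by
  have hker : ∀ y : Γ₁ × Γ₂, y ∈ (σ₁.prodMap σ₂).ker → σ₁ y.1 = 1 ∧ σ₂ y.2 = 1 := by
    intro y hy
    have h : (σ₁ y.1, σ₂ y.2) = (1, 1) := hy
    exact ⟨congrArg Prod.fst h, congrArg Prod.snd h⟩
  refine ⟨?_, ?_, ?_⟩
  · rintro ⟨q₁, q₂⟩
    obtain ⟨a, ha⟩ := h₁.1 q₁
    obtain ⟨b, hb⟩ := h₂.1 q₂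
    exact ⟨(a, b), Prod.ext ha hb⟩
  · intro y hy
    obtain ⟨hy1, hy2⟩ := hker y hy
    rw [Subgroup.mem_center_iff]
    intro z
    apply Prod.ext
    · exact Subgroup.mem_center_iff.mp (h₁.2.1 hy1) z.1
    · exact Subgroup.mem_center_iff.mp (h₂.2.1 hy2) z.2
  · intro y hy
    obtain ⟨hy1, hy2⟩ := hker y hy
    have e : y = MonoidHom.inl Γ₁ Γ₂ y.1 * MonoidHom.inr Γ₁ Γ₂ y.2 := by
      apply Prod.ext <;> simp
    rw [e]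
    apply Subgroup.mul_mem
    · exact map_commutator_le _ (Subgroup.mem_map_of_mem _ (h₁.2.2 hy1))
    · exact map_commutator_le _ (Subgroup.mem_map_of_mem _ (h₂.2.2 hy2))

/-- The kernel of a product map is the product of the kernels. -/
def kerProdMapEquiv {Γ₁ Γ₂ Q₁ Q₂ : Type*} [Group Γ₁] [Group Γ₂] [Group Q₁] [Group Q₂]
    (σ₁ : Γ₁ →* Q₁) (σ₂ : Γ₂ →* Q₂) : (σ₁.prodMap σ₂).ker ≃* σ₁.ker × σ₂.ker where
  toFun k := (⟨k.1.1, congrArg Prod.fst k.2⟩, ⟨k.1.2, congrArg Prod.snd k.2⟩)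
  invFun k := ⟨(k.1.1, k.2.1), Prod.ext k.1.2 k.2.2⟩
  left_inv _ := rfl
  right_inv _ := rfl
  map_mul' _ _ := rfl

/-- If `π : H → Q` is a surjection from a subgroup `H` of `Δ`, and commutators of `H` with `w`
are central and trivial on `ker π`, then they are killed by `|Q^ab|`. -/
theorem comm_pow_eq_one {Δ Q : Type*} [Group Δ] [Group Q] [Finite (Abelianization Q)]
    (H : Subgroup Δ) (π : H →* Q) (hπ : Function.Surjective π) (w : Δ)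
    (hcent : ∀ h ∈ H, h * w * h⁻¹ * w⁻¹ ∈ Subgroup.center Δ)
    (hker : ∀ h : H, h ∈ π.ker → (h : Δ) * w = w * (h : Δ)) (x : Δ) (hx : x ∈ H) :
    (x * w * x⁻¹ * w⁻¹) ^ Nat.card (Abelianization Q) = 1 := by
  let β : H →* Subgroup.center Δ :=
    { toFun := fun h => ⟨(h : Δ) * w * (h : Δ)⁻¹ * w⁻¹, hcent h h.2⟩
      map_one' := by apply Subtype.ext; simp
      map_mul' := by
        intro a b
        apply Subtype.ext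
        show ((a : Δ) * (b : Δ)) * w * ((a : Δ) * (b : Δ))⁻¹ * w⁻¹ =
          ((a : Δ) * w * (a : Δ)⁻¹ * w⁻¹) * ((b : Δ) * w * (b : Δ)⁻¹ * w⁻¹)
        have hc := Subgroup.mem_center_iff.mp (hcent b b.2) (a : Δ)
        have hc' := Subgroup.mem_center_iff.mp (hcent b b.2) ((a : Δ) * w * (a : Δ)⁻¹ * w⁻¹)
        calc ((a : Δ) * (b : Δ)) * w * ((a : Δ) * (b : Δ))⁻¹ * w⁻¹
            = ((a : Δ) * ((b : Δ) * w * (b : Δ)⁻¹ * w⁻¹)) * (w * (a : Δ)⁻¹ * w⁻¹) := by group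
          _ = (((b : Δ) * w * (b : Δ)⁻¹ * w⁻¹) * (a : Δ)) * (w * (a : Δ)⁻¹ * w⁻¹) := by rw [hc]
          _ = ((b : Δ) * w * (b : Δ)⁻¹ * w⁻¹) * ((a : Δ) * w * (a : Δ)⁻¹ * w⁻¹) := by group
          _ = _ := hc'.symm }
  obtain ⟨m, hm⟩ : ∃ m, m = Nat.card (Abelianization Q) := ⟨_, rfl⟩
  rw [← hm]
  have h1 : (π ⟨x, hx⟩) ^ m ∈ commutator Q := by
    rw [hm]; exact pow_card_abelianization_mem_commutator _
  rw [← map_commutator_of_surjective π hπ] at h1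
  obtain ⟨c, hc, hcπ⟩ := h1
  have hk : c⁻¹ * (⟨x, hx⟩ : H) ^ m ∈ π.ker := by
    rw [MonoidHom.mem_ker, map_mul, map_inv, map_pow, hcπ, inv_mul_cancel]
  have h2 : β c = 1 := commutator_le_ker_of_comm (center_comm Δ) β hc
  have h3 : β (c⁻¹ * (⟨x, hx⟩ : H) ^ m) = 1 := by
    apply Subtype.ext
    show ((c⁻¹ * (⟨x, hx⟩ : H) ^ m : H) : Δ) * w * ((c⁻¹ * (⟨x, hx⟩ : H) ^ m : H) : Δ)⁻¹ * w⁻¹
      = 1
    rw [hker _ hk]
    group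
  have h4 : β ((⟨x, hx⟩ : H) ^ m) = 1 := by
    have e : (⟨x, hx⟩ : H) ^ m = c * (c⁻¹ * (⟨x, hx⟩ : H) ^ m) := by group
    rw [e, map_mul, h2, h3, one_mul]
  rw [map_pow] at h4
  have h5 : ((β ⟨x, hx⟩ ^ m : Subgroup.center Δ) : Δ) = 1 := congrArg Subtype.val h4
  rw [Subgroup.coe_pow] at h5
  exact h5

/-- The Schur multiplier of a direct product of two finite groups whose commutator quotients
have coprime orders. -/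
theorem hasSchurMultiplier_prod_of_coprime {Q₁ : Type u} {Q₂ : Type v} [Group Q₁] [Group Q₂]
    [Finite Q₁] [Finite Q₂] {A B : Type w} [CommGroup A] [CommGroup B]
    (hA : Cfsg.HasSchurMultiplier Q₁ A) (hB : Cfsg.HasSchurMultiplier Q₂ B)
    (hcop : Nat.Coprime (Nat.card (Abelianization Q₁)) (Nat.card (Abelianization Q₂))) :
    Cfsg.HasSchurMultiplier (Q₁ × Q₂) (A × B) := by
  constructor
  · obtain ⟨Γ₁, _, _, σ₁, hσ₁, ⟨e₁⟩⟩ := hA.1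
    obtain ⟨Γ₂, _, _, σ₂, hσ₂, ⟨e₂⟩⟩ := hB.1
    exact ⟨Γ₁ × Γ₂, inferInstance, inferInstance, σ₁.prodMap σ₂, stem_prodMap σ₁ σ₂ hσ₁ hσ₂,
      ⟨(kerProdMapEquiv σ₁ σ₂).trans (MulEquiv.prodCongr e₁ e₂)⟩⟩
  · intro Δ _ _ τ hτ
    obtain ⟨hτs, hτc, hτd⟩ := hτ
    obtain ⟨τ₁, hτ₁⟩ : ∃ τ₁ : Δ →* Q₁, τ₁ = (MonoidHom.fst Q₁ Q₂).comp τ := ⟨_, rfl⟩
    obtain ⟨τ₂, hτ₂⟩ : ∃ τ₂ : Δ →* Q₂, τ₂ = (MonoidHom.snd Q₁ Q₂).comp τ := ⟨_, rfl⟩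
    have hτ12 : ∀ d, τ d = (τ₁ d, τ₂ d) := fun d => by rw [hτ₁, hτ₂]; rfl
    have hkerτ : ∀ d, d ∈ τ.ker ↔ τ₁ d = 1 ∧ τ₂ d = 1 := by
      intro d
      rw [MonoidHom.mem_ker, hτ12]
      exact Prod.mk_eq_one
    obtain ⟨Δ₁, hΔ₁⟩ : ∃ Δ₁ : Subgroup Δ, Δ₁ = τ₂.ker := ⟨_, rfl⟩
    obtain ⟨Δ₂, hΔ₂⟩ : ∃ Δ₂ : Subgroup Δ, Δ₂ = τ₁.ker := ⟨_, rfl⟩
    haveI : Δ₁.Normal := by rw [hΔ₁]; infer_instance
    haveI : Δ₂.Normal := by rw [hΔ₂]; infer_instance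
    have hmem₁ : ∀ d, d ∈ Δ₁ ↔ τ₂ d = 1 := fun d => by rw [hΔ₁]; exact MonoidHom.mem_ker
    have hmem₂ : ∀ d, d ∈ Δ₂ ↔ τ₁ d = 1 := fun d => by rw [hΔ₂]; exact MonoidHom.mem_ker
    let π₁ : Δ₁ →* Q₁ := τ₁.comp Δ₁.subtype
    let π₂ : Δ₂ →* Q₂ := τ₂.comp Δ₂.subtype
    have hπ₁ : Function.Surjective π₁ := by
      intro q
      obtain ⟨d, hd⟩ := hτs (q, 1)
      rw [hτ12] at hd
      exact ⟨⟨d, (hmem₁ d).mpr (congrArg Prod.snd hd)⟩, congrArg Prod.fst hd⟩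
    have hπ₂ : Function.Surjective π₂ := by
      intro q
      obtain ⟨d, hd⟩ := hτs (1, q)
      rw [hτ12] at hd
      exact ⟨⟨d, (hmem₂ d).mpr (congrArg Prod.fst hd)⟩, congrArg Prod.snd hd⟩
    have hπ₁ker : ∀ h : Δ₁, h ∈ π₁.ker → (h : Δ) ∈ τ.ker := fun h hh =>
      (hkerτ _).mpr ⟨hh, (hmem₁ _).mp h.2⟩
    have hπ₂ker : ∀ h : Δ₂, h ∈ π₂.ker → (h : Δ) ∈ τ.ker := fun h hh =>
      (hkerτ _).mpr ⟨(hmem₂ _).mp h.2, hh⟩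
    have hπ₁c : π₁.ker ≤ Subgroup.center Δ₁ := by
      intro h hh
      have h1 := hτc (hπ₁ker h hh)
      rw [Subgroup.mem_center_iff] at h1 ⊢
      intro g
      exact Subtype.ext (h1 g)
    have hπ₂c : π₂.ker ≤ Subgroup.center Δ₂ := by
      intro h hh
      have h1 := hτc (hπ₂ker h hh)
      rw [Subgroup.mem_center_iff] at h1 ⊢
      intro g
      exact Subtype.ext (h1 g)
    obtain ⟨f₁, hf₁⟩ := exists_surjective_of_central_ext hA π₁ hπ₁ hπ₁c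
    obtain ⟨f₂, hf₂⟩ := exists_surjective_of_central_ext hB π₂ hπ₂ hπ₂c
    have hck : ∀ a ∈ Δ₁, ∀ b ∈ Δ₂, a * b * a⁻¹ * b⁻¹ ∈ τ.ker := by
      intro a ha b hb
      rw [hkerτ]
      constructor
      · rw [map_mul, map_mul, map_mul, map_inv, map_inv, (hmem₂ b).mp hb]; simp
      · rw [map_mul, map_mul, map_mul, map_inv, map_inv, (hmem₁ a).mp ha]; simp
    have hcomm12 : ∀ x ∈ Δ₁, ∀ y ∈ Δ₂, x * y = y * x := by
      intro x hx y hy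
      have h1 := comm_pow_eq_one Δ₁ π₁ hπ₁ y (fun h hh => hτc (hck h hh y hy))
        (fun h hh => (Subgroup.mem_center_iff.mp (hτc (hπ₁ker h hh)) y).symm) x hx
      have h2 := comm_pow_eq_one Δ₂ π₂ hπ₂ x (fun h hh => hτc (by
          have h0 := hck x hx h hh
          have e : h * x * h⁻¹ * x⁻¹ = (x * h * x⁻¹ * h⁻¹)⁻¹ := by group
          rw [e]; exact Subgroup.inv_mem _ h0))
        (fun h hh => (Subgroup.mem_center_iff.mp (hτc (hπ₂ker h hh)) x).symm) y hy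
      have h2' : (x * y * x⁻¹ * y⁻¹) ^ Nat.card (Abelianization Q₂) = 1 := by
        have e : x * y * x⁻¹ * y⁻¹ = (y * x * y⁻¹ * x⁻¹)⁻¹ := by group
        rw [e, inv_pow, h2, inv_one]
      have h3 : orderOf (x * y * x⁻¹ * y⁻¹) ∣
          Nat.gcd (Nat.card (Abelianization Q₁)) (Nat.card (Abelianization Q₂)) :=
        Nat.dvd_gcd (orderOf_dvd_of_pow_eq_one h1) (orderOf_dvd_of_pow_eq_one h2')
      rw [hcop.gcd_eq_one, Nat.dvd_one, orderOf_eq_one_iff] at h3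
      calc x * y = (x * y * x⁻¹ * y⁻¹) * (y * x) := by group
        _ = y * x := by rw [h3, one_mul]
    have hdecomp : ∀ d : Δ, ∃ x ∈ Δ₁, ∃ y ∈ Δ₂, d = x * y := by
      intro d
      obtain ⟨x, hx⟩ := hτs (τ₁ d, 1)
      rw [hτ12] at hx
      have hx1 : τ₁ x = τ₁ d := congrArg Prod.fst hx
      have hx2 : τ₂ x = 1 := congrArg Prod.snd hx
      refine ⟨x, (hmem₁ x).mpr hx2, x⁻¹ * d, ?_, by group⟩
      rw [hmem₂, map_mul, map_inv, hx1, inv_mul_cancel]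
    have hcommle : commutator Δ ≤ ⁅Δ₁, Δ₁⁆ ⊔ ⁅Δ₂, Δ₂⁆ := by
      rw [commutator_def, Subgroup.commutator_le]
      intro d _ d' _
      obtain ⟨x, hx, y, hy, rfl⟩ := hdecomp d
      obtain ⟨x', hx', y', hy', rfl⟩ := hdecomp d'
      have e1 : y * x' = x' * y := (hcomm12 x' hx' y hy).symm
      have e2 : (y * y' * y⁻¹) * x⁻¹ = x⁻¹ * (y * y' * y⁻¹) :=
        (hcomm12 x⁻¹ (Δ₁.inv_mem hx) _ (Δ₂.mul_mem (Δ₂.mul_mem hy hy') (Δ₂.inv_mem hy))).symm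
      have e3 : (y * y' * y⁻¹ * y'⁻¹) * x'⁻¹ = x'⁻¹ * (y * y' * y⁻¹ * y'⁻¹) :=
        (hcomm12 x'⁻¹ (Δ₁.inv_mem hx') _ (Δ₂.mul_mem (Δ₂.mul_mem (Δ₂.mul_mem hy hy')
          (Δ₂.inv_mem hy)) (Δ₂.inv_mem hy'))).symm
      have e : ⁅x * y, x' * y'⁆ = ⁅x, x'⁆ * ⁅y, y'⁆ := by
        rw [commutatorElement_def, commutatorElement_def, commutatorElement_def]
        calc x * y * (x' * y') * (x * y)⁻¹ * (x' * y')⁻¹
            = x * (y * x') * y' * y⁻¹ * x⁻¹ * y'⁻¹ * x'⁻¹ := by group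
          _ = x * x' * ((y * y' * y⁻¹) * x⁻¹) * y'⁻¹ * x'⁻¹ := by rw [e1]; group
          _ = x * x' * x⁻¹ * ((y * y' * y⁻¹ * y'⁻¹) * x'⁻¹) := by rw [e2]; group
          _ = x * x' * x⁻¹ * x'⁻¹ * (y * y' * y⁻¹ * y'⁻¹) := by rw [e3]; group
      rw [e]
      exact Subgroup.mul_mem_sup (Subgroup.commutator_mem_commutator hx hx')
        (Subgroup.commutator_mem_commutator hy hy')
    let ι₁ : (π₁.ker ⊓ commutator Δ₁ : Subgroup Δ₁) →* τ.ker :=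
      (Δ₁.subtype.comp (Subgroup.subtype _)).codRestrict τ.ker (fun z => hπ₁ker _ z.2.1)
    let ι₂ : (π₂.ker ⊓ commutator Δ₂ : Subgroup Δ₂) →* τ.ker :=
      (Δ₂.subtype.comp (Subgroup.subtype _)).codRestrict τ.ker (fun z => hπ₂ker _ z.2.1)
    let F : A × B →* τ.ker := (ι₁.comp f₁).noncommCoprod (ι₂.comp f₂) (fun a b => by
      show (ι₁.comp f₁) a * (ι₂.comp f₂) b = (ι₂.comp f₂) b * (ι₁.comp f₁) a
      apply Subtype.ext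
      exact (Subgroup.mem_center_iff.mp (hτc ((ι₁.comp f₁) a).2) _).symm)
    refine ⟨F, ?_⟩
    rintro ⟨k, hk⟩
    have hk' : k ∈ ⁅Δ₁, Δ₁⁆ ⊔ ⁅Δ₂, Δ₂⁆ := hcommle (hτd hk)
    obtain ⟨c₁, hc₁, c₂, hc₂, hkc⟩ := Subgroup.mem_sup_of_normal_left.mp hk'
    have hc₁Δ : c₁ ∈ Δ₁ := (Subgroup.commutator_le.mpr (fun g₁ h₁ g₂ h₂ =>
      Δ₁.mul_mem (Δ₁.mul_mem (Δ₁.mul_mem h₁ h₂) (Δ₁.inv_mem h₁)) (Δ₁.inv_mem h₂))) hc₁
    have hc₂Δ : c₂ ∈ Δ₂ := (Subgroup.commutator_le.mpr (fun g₁ h₁ g₂ h₂ =>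
      Δ₂.mul_mem (Δ₂.mul_mem (Δ₂.mul_mem h₁ h₂) (Δ₂.inv_mem h₁)) (Δ₂.inv_mem h₂))) hc₂
    obtain ⟨hk1, hk2⟩ := (hkerτ k).mp hk
    have hτ₁c₁ : τ₁ c₁ = 1 := by
      rw [← hkc, map_mul, (hmem₂ c₂).mp hc₂Δ, mul_one] at hk1
      exact hk1
    have hτ₂c₂ : τ₂ c₂ = 1 := by
      rw [← hkc, map_mul, (hmem₁ c₁).mp hc₁Δ, one_mul] at hk2
      exact hk2
    rw [← Subgroup.map_subtype_commutator] at hc₁ hc₂
    obtain ⟨c₁', hc₁', hc₁e⟩ := hc₁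
    obtain ⟨c₂', hc₂', hc₂e⟩ := hc₂
    have hc₁k : c₁' ∈ π₁.ker := by
      rw [MonoidHom.mem_ker]
      show τ₁ (c₁' : Δ) = 1
      rw [show (c₁' : Δ) = c₁ from hc₁e]; exact hτ₁c₁
    have hc₂k : c₂' ∈ π₂.ker := by
      rw [MonoidHom.mem_ker]
      show τ₂ (c₂' : Δ) = 1
      rw [show (c₂' : Δ) = c₂ from hc₂e]; exact hτ₂c₂
    obtain ⟨a, ha⟩ := hf₁ ⟨c₁', hc₁k, hc₁'⟩
    obtain ⟨b, hb⟩ := hf₂ ⟨c₂', hc₂k, hc₂'⟩
    refine ⟨(a, b), ?_⟩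
    apply Subtype.ext
    show (((f₁ a : (π₁.ker ⊓ commutator Δ₁ : Subgroup Δ₁)) : Δ₁) : Δ) *
      (((f₂ b : (π₂.ker ⊓ commutator Δ₂ : Subgroup Δ₂)) : Δ₂) : Δ) = k
    rw [ha, hb, ← hkc]
    show (c₁' : Δ) * (c₂' : Δ) = c₁ * c₂
    rw [show (c₁' : Δ) = c₁ from hc₁e, show (c₂' : Δ) = c₂ from hc₂e]

end Cfsg.Agent.Helper22
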