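import Mathlib
import Cfsg.Prelude
import Cfsg.Agent.Helper22.SchurProd

set_option autoImplicit false

namespace Cfsg.Agent.Helper22

open scoped commutatorElement TensorProduct

universe u v w

/-- The tensor product of the commutator quotients, written multiplicatively. -/
abbrev AbTensor (X : Type u) (Y : Type v) [Group X] [Group Y] : Type (max u v) :=
  Multiplicative (TensorProduct ℤ (Additive (Abelianization X)) (Additive (Abelianization Y)))

section Tens

variable {X : Type u} {Y : Type v} [Group X] [Group Y]

/-- The pure tensor of the classes of two elements. -/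
def tens (x : X) (y : Y) : AbTensor X Y :=
  Multiplicative.ofAdd
    (Additive.ofMul (Abelianization.of x) ⊗ₜ[ℤ] Additive.ofMul (Abelianization.of y))

theorem tens_mul_left (x x' : X) (y : Y) : tens (x * x') y = tens x y * tens x' y := by
  unfold tens; rw [map_mul, ofMul_mul, TensorProduct.add_tmul, ofAdd_add]

theorem tens_mul_right (x : X) (y y' : Y) : tens x (y * y') = tens x y * tens x y' := by
  unfold tens; rw [map_mul, ofMul_mul, TensorProduct.tmul_add, ofAdd_add]

theorem tens_one_left (y : Y) : tens (1 : X) y = 1 := by
  unfold tens; rw [map_one, ofMul_one, TensorProduct.zero_tmul, ofAdd_zero]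

theorem tens_one_right (x : X) : tens x (1 : Y) = 1 := by
  unfold tens; rw [map_one, ofMul_one, TensorProduct.tmul_zero, ofAdd_zero]

/-- A subgroup containing all pure tensors is everything. -/
theorem abTensor_eq_top (S : Subgroup (AbTensor X Y)) (h : ∀ x y, tens x y ∈ S) : S = ⊤ := by
  have key : ∀ t' : TensorProduct ℤ (Additive (Abelianization X)) (Additive (Abelianization Y)),
      (Multiplicative.ofAdd t' : AbTensor X Y) ∈ S := by
    intro t'
    induction t' using TensorProduct.induction_on with
    | zero => exact S.one_mem
    | tmul m n =>
      obtain ⟨x, hx⟩ := QuotientGroup.mk_surjective (Additive.toMul m)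
      obtain ⟨y, hy⟩ := QuotientGroup.mk_surjective (Additive.toMul n)
      have e : (Multiplicative.ofAdd (m ⊗ₜ[ℤ] n) : AbTensor X Y) = tens x y := by
        unfold tens
        have h1 : Abelianization.of x = Additive.toMul m := hx
        have h2 : Abelianization.of y = Additive.toMul n := hy
        rw [h1, h2]; rfl
      rw [e]; exact h x y
    | add a b ha hb => exact S.mul_mem ha hb
  rw [eq_top_iff]
  intro t _
  exact key (Multiplicative.toAdd t)

/-- The universal property: a bimultiplicative map into a commutative group factors through the
tensor product of the commutator quotients. -/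
theorem exists_tensor_hom {Z : Type w} [CommGroup Z] (c : X → Y → Z)
    (hl : ∀ x x' y, c (x * x') y = c x y * c x' y)
    (hr : ∀ x y y', c x (y * y') = c x y * c x y') :
    ∃ Θ : AbTensor X Y →* Z, ∀ x y, Θ (tens x y) = c x y := by
  let c₂ : X → (Abelianization Y →* Z) := fun x => Abelianization.lift (MonoidHom.mk' (c x) (hr x))
  have hc₂ : ∀ x y, c₂ x (Abelianization.of y) = c x y := fun x y => by
    show Abelianization.lift (MonoidHom.mk' (c x) (hr x)) (Abelianization.of y) = c x y
    rw [Abelianization.lift_apply_of]; rfl
  have hc₂mul : ∀ x x', c₂ (x * x') = c₂ x * c₂ x' := by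
    intro x x'
    apply Abelianization.hom_ext
    ext y
    show c₂ (x * x') (Abelianization.of y) = c₂ x (Abelianization.of y) * c₂ x' (Abelianization.of y)
    rw [hc₂, hc₂, hc₂, hl]
  let c₄ : Abelianization X →* (Abelianization Y →* Z) := Abelianization.lift (MonoidHom.mk' c₂ hc₂mul)
  have hc₄ : ∀ x y, c₄ (Abelianization.of x) (Abelianization.of y) = c x y := fun x y => by
    show Abelianization.lift (MonoidHom.mk' c₂ hc₂mul) (Abelianization.of x) (Abelianization.of y)
      = c x y
    rw [Abelianization.lift_apply_of]
    exact hc₂ x y
  let B : Additive (Abelianization X) →+ Additive (Abelianization Y) →+ Additive Z :=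
    AddMonoidHom.mk' (fun m => MonoidHom.toAdditive (c₄ (Additive.toMul m))) (by
      intro m m'
      refine DFunLike.ext _ _ (fun n => ?_)
      show Additive.ofMul (c₄ (Additive.toMul m * Additive.toMul m') (Additive.toMul n)) =
        Additive.ofMul (c₄ (Additive.toMul m) (Additive.toMul n)) +
        Additive.ofMul (c₄ (Additive.toMul m') (Additive.toMul n))
      rw [map_mul]; rfl)
  let L : TensorProduct ℤ (Additive (Abelianization X)) (Additive (Abelianization Y)) →+
      Additive Z := TensorProduct.liftAddHom B (by
    intro r m n
    rw [map_zsmul, AddMonoidHom.zsmul_apply, map_zsmul])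
  refine ⟨AddMonoidHom.toMultiplicativeLeft L, ?_⟩
  intro x y
  show Additive.toMul (L (Additive.ofMul (Abelianization.of x) ⊗ₜ[ℤ]
    Additive.ofMul (Abelianization.of y))) = c x y
  rw [TensorProduct.liftAddHom_tmul]
  exact hc₄ x y

instance abTensor_finite [Finite X] [Finite Y] : Finite (AbTensor X Y) := by
  haveI : Finite (Additive (Abelianization X)) := inferInstanceAs (Finite (Abelianization X))
  haveI : Finite (Additive (Abelianization Y)) := inferInstanceAs (Finite (Abelianization Y))
  have htors : Module.IsTorsion ℤ
      (TensorProduct ℤ (Additive (Abelianization X)) (Additive (Abelianization Y))) := by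
    intro t
    have hN : (Nat.card (Additive (Abelianization X)) : ℤ) ≠ 0 := by
      exact_mod_cast Nat.card_pos.ne'
    refine ⟨⟨(Nat.card (Additive (Abelianization X)) : ℤ),
      mem_nonZeroDivisors_of_ne_zero hN⟩, ?_⟩
    show (Nat.card (Additive (Abelianization X)) : ℤ) • t = 0
    induction t using TensorProduct.induction_on with
    | zero => rw [smul_zero]
    | tmul m n =>
      rw [TensorProduct.smul_tmul', natCast_zsmul, card_nsmul_eq_zero', TensorProduct.zero_tmul]
    | add a b ha hb => rw [smul_add, ha, hb, add_zero]
  haveI : Module.Finite ℤ (Additive (Abelianization X)) := Module.Finite.of_finite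
  haveI : Module.Finite ℤ (Additive (Abelianization Y)) := Module.Finite.of_finite
  haveI : Module.Finite ℤ
      (TensorProduct ℤ (Additive (Abelianization X)) (Additive (Abelianization Y))) :=
    Module.Finite.tensorProduct ℤ _ _
  have := Module.finite_of_fg_torsion _ htors
  exact inferInstanceAs
    (Finite (TensorProduct ℤ (Additive (Abelianization X)) (Additive (Abelianization Y))))

end Tens

end Cfsg.Agent.Helper22
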