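import Mathlib
import Cfsg.Prelude
import Cfsg.Agent.Helper22.SchurTensor

set_option autoImplicit false

namespace Cfsg.Agent.Helper22

open scoped commutatorElement TensorProduct

universe u v w

section Shear

variable {G₁ : Type u} {G₂ : Type v} {T : Type w} [Group G₁] [Group G₂] [CommGroup T]

/-- The shear automorphisms of `T × G₂` attached to a bimultiplicative map. -/
def shearAut (θ : G₁ →* G₂ →* T) : G₁ →* MulAut (T × G₂) where
  toFun x :=
    { toFun := fun p => (p.1 * θ x p.2, p.2)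
      invFun := fun p => (p.1 * (θ x p.2)⁻¹, p.2)
      left_inv := fun p => by simp
      right_inv := fun p => by simp
      map_mul' := fun p q => by
        apply Prod.ext
        · show p.1 * q.1 * θ x (p.2 * q.2) = p.1 * θ x p.2 * (q.1 * θ x q.2)
          rw [map_mul]; exact mul_mul_mul_comm _ _ _ _
        · rfl }
  map_one' := by
    apply MulEquiv.ext
    intro p
    apply Prod.ext
    · show p.1 * (θ 1) p.2 = p.1
      rw [map_one]; simp
    · rfl
  map_mul' x y := by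
    apply MulEquiv.ext
    intro p
    apply Prod.ext
    · show p.1 * θ (x * y) p.2 = p.1 * θ y p.2 * θ x p.2
      rw [map_mul, MonoidHom.mul_apply, mul_assoc, mul_comm (θ x p.2)]
    · rfl

theorem shearAut_apply (θ : G₁ →* G₂ →* T) (x : G₁) (p : T × G₂) :
    shearAut θ x p = (p.1 * θ x p.2, p.2) := rfl

end Shear

/-- The twisted product of two stem extensions by a bimultiplicative map is a stem extension
of the product. -/
theorem stem_shear {Q₁ : Type*} {Q₂ : Type*} [Group Q₁] [Group Q₂] {Γ₁ : Type u} {Γ₂ : Type v}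
    {T : Type w} [Group Γ₁] [Group Γ₂] [CommGroup T]
    (σ₁ : Γ₁ →* Q₁) (σ₂ : Γ₂ →* Q₂) (h₁ : Cfsg.IsStemExtension σ₁)
    (h₂ : Cfsg.IsStemExtension σ₂) (θ : Γ₁ →* Γ₂ →* T) (hθ₁ : ∀ z ∈ σ₁.ker, ∀ y, θ z y = 1)
    (hθ₂ : ∀ x, ∀ z ∈ σ₂.ker, θ x z = 1)
    (hgen : ∀ S : Subgroup T, (∀ x y, θ x y ∈ S) → S = ⊤) :
    ∃ σ : (T × Γ₂) ⋊[shearAut θ] Γ₁ →* Q₁ × Q₂, Cfsg.IsStemExtension σ ∧
      Nonempty (σ.ker ≃* σ₁.ker × σ₂.ker × T) := by
  let σ : (T × Γ₂) ⋊[shearAut θ] Γ₁ →* Q₁ × Q₂ :=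
    { toFun := fun z => (σ₁ z.right, σ₂ z.left.2)
      map_one' := by
        apply Prod.ext
        · exact map_one σ₁
        · exact map_one σ₂
      map_mul' := fun a b => by
        apply Prod.ext
        · show σ₁ (a.right * b.right) = σ₁ a.right * σ₁ b.right
          exact map_mul _ _ _
        · show σ₂ ((a.left * shearAut θ a.right b.left).2) = σ₂ a.left.2 * σ₂ b.left.2
          rw [Prod.snd_mul, shearAut_apply, map_mul] }
  have hσ : ∀ z : (T × Γ₂) ⋊[shearAut θ] Γ₁, σ z = (σ₁ z.right, σ₂ z.left.2) := fun _ => rfl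
  have hker : ∀ z : (T × Γ₂) ⋊[shearAut θ] Γ₁, z ∈ σ.ker ↔ σ₁ z.right = 1 ∧ σ₂ z.left.2 = 1 := by
    intro z
    rw [MonoidHom.mem_ker, hσ]
    exact Prod.mk_eq_one
  let j₁ : Γ₁ →* (T × Γ₂) ⋊[shearAut θ] Γ₁ := SemidirectProduct.inr
  let j₂ : Γ₂ →* (T × Γ₂) ⋊[shearAut θ] Γ₁ := SemidirectProduct.inl.comp (MonoidHom.inr T Γ₂)
  let jT : T →* (T × Γ₂) ⋊[shearAut θ] Γ₁ := SemidirectProduct.inl.comp (MonoidHom.inl T Γ₂)
  refine ⟨σ, ⟨?_, ?_, ?_⟩, ?_⟩
  · rintro ⟨q₁, q₂⟩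
    obtain ⟨x₁, hx₁⟩ := h₁.1 q₁
    obtain ⟨x₂, hx₂⟩ := h₂.1 q₂
    exact ⟨⟨(1, x₂), x₁⟩, by rw [hσ, hx₁, hx₂]⟩
  · intro z hz
    obtain ⟨hz1, hz2⟩ := (hker z).mp hz
    rw [Subgroup.mem_center_iff]
    intro g
    apply SemidirectProduct.ext
    · rw [SemidirectProduct.mul_left, SemidirectProduct.mul_left, shearAut_apply, shearAut_apply]
      apply Prod.ext
      · show g.left.1 * (z.left.1 * θ g.right z.left.2) = z.left.1 * (g.left.1 * θ z.right g.left.2)
        rw [hθ₂ _ _ hz2, hθ₁ _ hz1, mul_one, mul_one, mul_comm]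
      · show g.left.2 * z.left.2 = z.left.2 * g.left.2
        exact Subgroup.mem_center_iff.mp (h₂.2.1 hz2) g.left.2
    · exact Subgroup.mem_center_iff.mp (h₁.2.1 hz1) g.right
  · intro z hz
    obtain ⟨hz1, hz2⟩ := (hker z).mp hz
    have hzd : z = jT z.left.1 * j₂ z.left.2 * j₁ z.right := by
      have e1 : jT z.left.1 * j₂ z.left.2 = SemidirectProduct.inl z.left := by
        show SemidirectProduct.inl (MonoidHom.inl T Γ₂ z.left.1) *
          SemidirectProduct.inl (MonoidHom.inr T Γ₂ z.left.2) = SemidirectProduct.inl z.left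
        rw [← map_mul]
        congr 1
        apply Prod.ext <;> simp
      rw [e1]
      exact (SemidirectProduct.inl_left_mul_inr_right z).symm
    rw [hzd]
    refine Subgroup.mul_mem _ (Subgroup.mul_mem _ ?_ ?_) ?_
    · have htop : (commutator ((T × Γ₂) ⋊[shearAut θ] Γ₁)).comap jT = ⊤ := hgen _ (fun x y => by
        rw [Subgroup.mem_comap]
        have h : jT (θ x y) * (j₂ y * j₁ x) = j₁ x * j₂ y := by
          apply SemidirectProduct.ext
          · simp [j₁, j₂, jT, SemidirectProduct.mul_left, shearAut_apply]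
          · simp [j₁, j₂, jT, SemidirectProduct.mul_right]
        have e : jT (θ x y) = ⁅j₁ x, j₂ y⁆ := by
          rw [commutatorElement_def, ← h]; group
        rw [e]
        exact Subgroup.commutator_mem_commutator (Subgroup.mem_top _) (Subgroup.mem_top _))
      have h : z.left.1 ∈ (commutator ((T × Γ₂) ⋊[shearAut θ] Γ₁)).comap jT := by
        rw [htop]; trivial
      exact h
    · exact map_commutator_le j₂ (Subgroup.mem_map_of_mem _ (h₂.2.2 hz2))
    · exact map_commutator_le j₁ (Subgroup.mem_map_of_mem _ (h₁.2.2 hz1))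
  · exact ⟨{ toFun := fun k => (⟨k.1.right, ((hker k.1).mp k.2).1⟩,
               ⟨k.1.left.2, ((hker k.1).mp k.2).2⟩, k.1.left.1)
             invFun := fun w => ⟨⟨(w.2.2, w.2.1.1), w.1.1⟩, (hker _).mpr ⟨w.1.2, w.2.1.2⟩⟩
             left_inv := fun k => rfl
             right_inv := fun w => rfl
             map_mul' := fun k k' => by
               apply Prod.ext
               · rfl
               · apply Prod.ext
                 · rfl
                 · show (k.1 * k'.1).left.1 = k.1.left.1 * k'.1.left.1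
                   rw [SemidirectProduct.mul_left, shearAut_apply]
                   show k.1.left.1 * (k'.1.left.1 * θ k.1.right k'.1.left.2) = _
                   rw [hθ₁ _ ((hker k.1).mp k.2).1, mul_one] }⟩

/-- Existence of a stem extension of `Q₁ × Q₂` with kernel `A × B × (Q₁ᵃᵇ ⊗ Q₂ᵃᵇ)`. -/
theorem exists_stem_tensor {Q₁ : Type u} {Q₂ : Type v} [Group Q₁] [Group Q₂] [Finite Q₁]
    [Finite Q₂] {Γ₁ : Type u} {Γ₂ : Type v} [Group Γ₁] [Group Γ₂] [Finite Γ₁] [Finite Γ₂]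
    (σ₁ : Γ₁ →* Q₁) (σ₂ : Γ₂ →* Q₂) (h₁ : Cfsg.IsStemExtension σ₁)
    (h₂ : Cfsg.IsStemExtension σ₂) :
    ∃ (Γ : Type (max u v)) (_ : Group Γ) (_ : Finite Γ) (σ : Γ →* Q₁ × Q₂),
      Cfsg.IsStemExtension σ ∧ Nonempty (σ.ker ≃* σ₁.ker × σ₂.ker × AbTensor Q₁ Q₂) := by
  let θ : Γ₁ →* Γ₂ →* AbTensor Q₁ Q₂ :=
    MonoidHom.mk' (fun x => MonoidHom.mk' (fun y => tens (σ₁ x) (σ₂ y))
      (by intro y y'; rw [map_mul, tens_mul_right]))
      (by
        intro x x'
        refine DFunLike.ext _ _ (fun y => ?_)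
        show tens (σ₁ (x * x')) (σ₂ y) = tens (σ₁ x) (σ₂ y) * tens (σ₁ x') (σ₂ y)
        rw [map_mul, tens_mul_left])
  have hθ : ∀ x y, θ x y = tens (σ₁ x) (σ₂ y) := fun _ _ => rfl
  obtain ⟨σ, hσ, he⟩ := stem_shear σ₁ σ₂ h₁ h₂ θ
    (fun z hz y => by rw [hθ, show σ₁ z = 1 from hz, tens_one_left])
    (fun x z hz => by rw [hθ, show σ₂ z = 1 from hz, tens_one_right])
    (fun S hS => abTensor_eq_top S (fun q₁ q₂ => by
      obtain ⟨x, rfl⟩ := h₁.1 q₁
      obtain ⟨y, rfl⟩ := h₂.1 q₂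
      exact hS x y))
  exact ⟨(AbTensor Q₁ Q₂ × Γ₂) ⋊[shearAut θ] Γ₁, inferInstance,
    Finite.of_equiv _ SemidirectProduct.equivProd.symm, σ, hσ, he⟩

end Cfsg.Agent.Helper22
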