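import Mathlib
import Cfsg.Prelude
import Cfsg.Agent.Helper22.SchurTensorConstr

set_option autoImplicit false

namespace Cfsg.Agent.Helper22

open scoped commutatorElement TensorProduct

universe u v w w'

/-- The kernel of any finite stem extension of `Q₁ × Q₂` is an image of
`A × B × (Q₁ᵃᵇ ⊗ Q₂ᵃᵇ)`. -/
theorem exists_surjective_prod_tensor {Q₁ : Type u} {Q₂ : Type v} [Group Q₁] [Group Q₂]
    [Finite Q₁] [Finite Q₂] {A B : Type w} [CommGroup A] [CommGroup B]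
    (hA : Cfsg.HasSchurMultiplier Q₁ A) (hB : Cfsg.HasSchurMultiplier Q₂ B)
    {Δ : Type w'} [Group Δ] [Finite Δ] (τ : Δ →* Q₁ × Q₂) (hτ : Cfsg.IsStemExtension τ) :
    ∃ π : A × B × AbTensor Q₁ Q₂ →* τ.ker, Function.Surjective π := by
  obtain ⟨hτs, hτc, hτd⟩ := hτ
  obtain ⟨τ₁, hτ₁⟩ : ∃ τ₁ : Δ →* Q₁, τ₁ = (MonoidHom.fst Q₁ Q₂).comp τ := ⟨_, rfl⟩
  obtain ⟨τ₂, hτ₂⟩ : ∃ τ₂ : Δ →* Q₂, τ₂ = (MonoidHom.snd Q₁ Q₂).comp τ := ⟨_, rfl⟩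
  have hτ12 : ∀ d, τ d = (τ₁ d, τ₂ d) := fun d => by rw [hτ₁, hτ₂]; rfl
  have hkerτ : ∀ d, d ∈ τ.ker ↔ τ₁ d = 1 ∧ τ₂ d = 1 := by
    intro d
    rw [MonoidHom.mem_ker, hτ12]
    exact Prod.mk_eq_one
  obtain ⟨Δ₁, hΔ₁⟩ : ∃ Δ₁ : Subgroup Δ, Δ₁ = τ₂.ker := ⟨_, rfl⟩
  obtain ⟨Δ₂, hΔ₂⟩ : ∃ Δ₂ : Subgroup Δ, Δ₂ = τ₁.ker := ⟨_, rfl⟩
  haveI : Δ₁.Normal := by rw [hΔ₁]; infer_instance
  haveI : Δ₂.Normal := by rw [hΔ₂]; infer_instance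
  have hmem₁ : ∀ d, d ∈ Δ₁ ↔ τ₂ d = 1 := fun d => by rw [hΔ₁]; exact MonoidHom.mem_ker
  have hmem₂ : ∀ d, d ∈ Δ₂ ↔ τ₁ d = 1 := fun d => by rw [hΔ₂]; exact MonoidHom.mem_ker
  let π₁ : Δ₁ →* Q₁ := τ₁.comp Δ₁.subtype
  let π₂ : Δ₂ →* Q₂ := τ₂.comp Δ₂.subtype
  have hπ₁ : Function.Surjective π₁ := by
    intro q
    obtain ⟨d, hd⟩ := hτs (q, 1)
    rw [hτ12] at hd
    exact ⟨⟨d, (hmem₁ d).mpr (congrArg Prod.snd hd)⟩, congrArg Prod.fst hd⟩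
  have hπ₂ : Function.Surjective π₂ := by
    intro q
    obtain ⟨d, hd⟩ := hτs (1, q)
    rw [hτ12] at hd
    exact ⟨⟨d, (hmem₂ d).mpr (congrArg Prod.fst hd)⟩, congrArg Prod.snd hd⟩
  have hπ₁ker : ∀ h : Δ₁, h ∈ π₁.ker → (h : Δ) ∈ τ.ker := fun h hh =>
    (hkerτ _).mpr ⟨hh, (hmem₁ _).mp h.2⟩
  have hπ₂ker : ∀ h : Δ₂, h ∈ π₂.ker → (h : Δ) ∈ τ.ker := fun h hh =>
    (hkerτ _).mpr ⟨(hmem₂ _).mp h.2, hh⟩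
  have hπ₁c : π₁.ker ≤ Subgroup.center Δ₁ := by
    intro h hh
    have h1 := hτc (hπ₁ker h hh)
    rw [Subgroup.mem_center_iff] at h1 ⊢
    intro g
    exact Subtype.ext (h1 g)
  have hπ₂c : π₂.ker ≤ Subgroup.center Δ₂ := by
    intro h hh
    have h1 := hτc (hπ₂ker h hh)
    rw [Subgroup.mem_center_iff] at h1 ⊢
    intro g
    exact Subtype.ext (h1 g)
  obtain ⟨f₁, hf₁⟩ := exists_surjective_of_central_ext hA π₁ hπ₁ hπ₁c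
  obtain ⟨f₂, hf₂⟩ := exists_surjective_of_central_ext hB π₂ hπ₂ hπ₂c
  have hck : ∀ a ∈ Δ₁, ∀ b ∈ Δ₂, a * b * a⁻¹ * b⁻¹ ∈ τ.ker := by
    intro a ha b hb
    rw [hkerτ]
    constructor
    · rw [map_mul, map_mul, map_mul, map_inv, map_inv, (hmem₂ b).mp hb]; simp
    · rw [map_mul, map_mul, map_mul, map_inv, map_inv, (hmem₁ a).mp ha]; simp
  letI : CommGroup τ.ker :=
    { (inferInstance : Group τ.ker) with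
      mul_comm := fun a b => Subtype.ext (Subgroup.mem_center_iff.mp (hτc b.2) a) }
  -- sections
  obtain ⟨s₁, hs₁⟩ : ∃ s₁ : Q₁ → Δ, ∀ q, s₁ q ∈ Δ₁ ∧ τ₁ (s₁ q) = q := by
    choose s hs using hπ₁
    exact ⟨fun q => (s q : Δ), fun q => ⟨(s q).2, hs q⟩⟩
  obtain ⟨s₂, hs₂⟩ : ∃ s₂ : Q₂ → Δ, ∀ q, s₂ q ∈ Δ₂ ∧ τ₂ (s₂ q) = q := by
    choose s hs using hπ₂
    exact ⟨fun q => (s q : Δ), fun q => ⟨(s q).2, hs q⟩⟩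
  obtain ⟨κ, hκ⟩ : ∃ κ : Δ → Δ → Δ, ∀ x y, κ x y = x * y * x⁻¹ * y⁻¹ := ⟨_, fun _ _ => rfl⟩
  have hκ_left : ∀ x ∈ Δ₁, ∀ x' ∈ Δ₁, τ₁ x = τ₁ x' → ∀ y, κ x y = κ x' y := by
    intro x hx x' hx' h y
    obtain ⟨z, hz, rfl⟩ : ∃ z ∈ τ.ker, x' = x * z := by
      refine ⟨x⁻¹ * x', (hkerτ _).mpr ⟨?_, ?_⟩, by group⟩
      · rw [map_mul, map_inv, h, inv_mul_cancel]
      · rw [map_mul, map_inv, (hmem₁ x).mp hx, (hmem₁ x').mp hx', inv_one, one_mul]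
    have h1 : y * z = z * y := Subgroup.mem_center_iff.mp (hτc hz) y
    rw [hκ, hκ]
    calc x * y * x⁻¹ * y⁻¹ = x * (y * z) * z⁻¹ * x⁻¹ * y⁻¹ := by group
      _ = x * (z * y) * z⁻¹ * x⁻¹ * y⁻¹ := by rw [h1]
      _ = x * z * y * (x * z)⁻¹ * y⁻¹ := by group
  have hκ_right : ∀ x, ∀ y ∈ Δ₂, ∀ y' ∈ Δ₂, τ₂ y = τ₂ y' → κ x y = κ x y' := by
    intro x y hy y' hy' h
    obtain ⟨z, hz, rfl⟩ : ∃ z ∈ τ.ker, y' = y * z := by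
      refine ⟨y⁻¹ * y', (hkerτ _).mpr ⟨?_, ?_⟩, by group⟩
      · rw [map_mul, map_inv, (hmem₂ y).mp hy, (hmem₂ y').mp hy', inv_one, one_mul]
      · rw [map_mul, map_inv, h, inv_mul_cancel]
    have h1 : x⁻¹ * z = z * x⁻¹ := Subgroup.mem_center_iff.mp (hτc hz) x⁻¹
    rw [hκ, hκ]
    calc x * y * x⁻¹ * y⁻¹ = x * y * (x⁻¹ * z) * z⁻¹ * y⁻¹ := by group
      _ = x * y * (z * x⁻¹) * z⁻¹ * y⁻¹ := by rw [h1]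
      _ = x * (y * z) * x⁻¹ * (y * z)⁻¹ := by group
  have hκ_mul_left : ∀ x ∈ Δ₁, ∀ x' ∈ Δ₁, ∀ y ∈ Δ₂, κ (x * x') y = κ x y * κ x' y := by
    intro x hx x' hx' y hy
    have hc := Subgroup.mem_center_iff.mp (hτc (hck x' hx' y hy))
    rw [hκ, hκ, hκ]
    calc x * x' * y * (x * x')⁻¹ * y⁻¹
        = x * (x' * y * x'⁻¹ * y⁻¹) * (y * x⁻¹ * y⁻¹) := by group
      _ = (x' * y * x'⁻¹ * y⁻¹) * x * (y * x⁻¹ * y⁻¹) := by rw [hc x]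
      _ = (x' * y * x'⁻¹ * y⁻¹) * (x * y * x⁻¹ * y⁻¹) := by group
      _ = (x * y * x⁻¹ * y⁻¹) * (x' * y * x'⁻¹ * y⁻¹) := (hc _).symm
  have hκ_mul_right : ∀ x ∈ Δ₁, ∀ y ∈ Δ₂, ∀ y' ∈ Δ₂, κ x (y * y') = κ x y * κ x y' := by
    intro x hx y hy y' hy'
    have hc := Subgroup.mem_center_iff.mp (hτc (hck x hx y' hy'))
    rw [hκ, hκ, hκ]
    calc x * (y * y') * x⁻¹ * (y * y')⁻¹
        = (x * y * x⁻¹) * ((x * y' * x⁻¹ * y'⁻¹) * y⁻¹) := by group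
      _ = (x * y * x⁻¹) * (y⁻¹ * (x * y' * x⁻¹ * y'⁻¹)) := by rw [hc y⁻¹]
      _ = (x * y * x⁻¹ * y⁻¹) * (x * y' * x⁻¹ * y'⁻¹) := by group
  obtain ⟨c, hc⟩ : ∃ c : Q₁ → Q₂ → τ.ker, ∀ q r, (c q r : Δ) = κ (s₁ q) (s₂ r) :=
    ⟨fun q r => ⟨κ (s₁ q) (s₂ r), by rw [hκ]; exact hck _ (hs₁ q).1 _ (hs₂ r).1⟩, fun _ _ => rfl⟩
  have hcκ : ∀ x ∈ Δ₁, ∀ y ∈ Δ₂, (c (τ₁ x) (τ₂ y) : Δ) = κ x y := by
    intro x hx y hy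
    rw [hc, hκ_left (s₁ (τ₁ x)) (hs₁ _).1 x hx (hs₁ _).2 _,
      hκ_right x (s₂ (τ₂ y)) (hs₂ _).1 y hy (hs₂ _).2]
  have hl : ∀ q q' r, c (q * q') r = c q r * c q' r := by
    intro q q' r
    apply Subtype.ext
    show (c (q * q') r : Δ) = (c q r : Δ) * (c q' r : Δ)
    rw [hc, hc, hc, ← hκ_mul_left _ (hs₁ q).1 _ (hs₁ q').1 _ (hs₂ r).1]
    exact hκ_left _ (hs₁ _).1 _ (Δ₁.mul_mem (hs₁ q).1 (hs₁ q').1)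
      (by rw [(hs₁ _).2, map_mul, (hs₁ q).2, (hs₁ q').2]) _
  have hr : ∀ q r r', c q (r * r') = c q r * c q r' := by
    intro q r r'
    apply Subtype.ext
    show (c q (r * r') : Δ) = (c q r : Δ) * (c q r' : Δ)
    rw [hc, hc, hc, ← hκ_mul_right _ (hs₁ q).1 _ (hs₂ r).1 _ (hs₂ r').1]
    exact hκ_right _ _ (hs₂ _).1 _ (Δ₂.mul_mem (hs₂ r).1 (hs₂ r').1)
      (by rw [(hs₂ _).2, map_mul, (hs₂ r).2, (hs₂ r').2])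
  obtain ⟨Θ, hΘ⟩ := exists_tensor_hom c hl hr
  have hdecomp : ∀ d : Δ, ∃ x ∈ Δ₁, ∃ y ∈ Δ₂, d = x * y := by
    intro d
    obtain ⟨x, hx⟩ := hτs (τ₁ d, 1)
    rw [hτ12] at hx
    have hx1 : τ₁ x = τ₁ d := congrArg Prod.fst hx
    have hx2 : τ₂ x = 1 := congrArg Prod.snd hx
    refine ⟨x, (hmem₁ x).mpr hx2, x⁻¹ * d, ?_, by group⟩
    rw [hmem₂, map_mul, map_inv, hx1, inv_mul_cancel]
  obtain ⟨H, hH⟩ : ∃ H : Subgroup Δ, H = ⁅Δ₁, Δ₂⁆ ⊔ (⁅Δ₁, Δ₁⁆ ⊔ ⁅Δ₂, Δ₂⁆) := ⟨_, rfl⟩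
  haveI : H.Normal := by rw [hH]; infer_instance
  have hcommle : commutator Δ ≤ H := by
    have hcomm_mk : ∀ a b : Δ, ⁅a, b⁆ ∈ H →
        Commute (QuotientGroup.mk' H a) (QuotientGroup.mk' H b) := by
      intro a b hab
      rw [← commutatorElement_eq_one_iff_commute, ← map_commutatorElement]
      exact (QuotientGroup.eq_one_iff _).mpr hab
    have h12 : ⁅Δ₁, Δ₂⁆ ≤ H := by rw [hH]; exact le_sup_left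
    have h11 : ⁅Δ₁, Δ₁⁆ ≤ H := by rw [hH]; exact le_trans le_sup_left le_sup_right
    have h22 : ⁅Δ₂, Δ₂⁆ ≤ H := by rw [hH]; exact le_trans le_sup_right le_sup_right
    have h21 : ⁅Δ₂, Δ₁⁆ ≤ H := by rw [Subgroup.commutator_comm]; exact h12
    rw [commutator_def, Subgroup.commutator_le]
    intro d _ d' _
    obtain ⟨x, hx, y, hy, rfl⟩ := hdecomp d
    obtain ⟨x', hx', y', hy', rfl⟩ := hdecomp d'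
    have hcm : Commute (QuotientGroup.mk' H (x * y)) (QuotientGroup.mk' H (x' * y')) := by
      rw [map_mul, map_mul]
      exact Commute.mul_left
        (Commute.mul_right (hcomm_mk _ _ (h11 (Subgroup.commutator_mem_commutator hx hx')))
          (hcomm_mk _ _ (h12 (Subgroup.commutator_mem_commutator hx hy'))))
        (Commute.mul_right (hcomm_mk _ _ (h21 (Subgroup.commutator_mem_commutator hy hx')))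
          (hcomm_mk _ _ (h22 (Subgroup.commutator_mem_commutator hy hy'))))
    rw [← commutatorElement_eq_one_iff_commute, ← map_commutatorElement] at hcm
    exact (QuotientGroup.eq_one_iff _).mp hcm
  have h12range : ∀ c₃ ∈ ⁅Δ₁, Δ₂⁆, ∃ t, (Θ t : Δ) = c₃ := by
    have hle : ⁅Δ₁, Δ₂⁆ ≤ (Θ.range).map τ.ker.subtype := by
      rw [Subgroup.commutator_le]
      intro x hx y hy
      refine ⟨Θ (tens (τ₁ x) (τ₂ y)), ⟨_, rfl⟩, ?_⟩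
      show (Θ (tens (τ₁ x) (τ₂ y)) : Δ) = ⁅x, y⁆
      rw [hΘ, hcκ x hx y hy, hκ, commutatorElement_def]
    intro c₃ hc₃
    obtain ⟨_, ⟨t, rfl⟩, ht⟩ := hle hc₃
    exact ⟨t, ht⟩
  let ι₁ : (π₁.ker ⊓ commutator Δ₁ : Subgroup Δ₁) →* τ.ker :=
    (Δ₁.subtype.comp (Subgroup.subtype _)).codRestrict τ.ker (fun z => hπ₁ker _ z.2.1)
  let ι₂ : (π₂.ker ⊓ commutator Δ₂ : Subgroup Δ₂) →* τ.ker :=
    (Δ₂.subtype.comp (Subgroup.subtype _)).codRestrict τ.ker (fun z => hπ₂ker _ z.2.1)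
  let F : A × B × AbTensor Q₁ Q₂ →* τ.ker := (ι₁.comp f₁).coprod ((ι₂.comp f₂).coprod Θ)
  refine ⟨F, ?_⟩
  rintro ⟨k, hk⟩
  have hk' : k ∈ ⁅Δ₁, Δ₂⁆ ⊔ (⁅Δ₁, Δ₁⁆ ⊔ ⁅Δ₂, Δ₂⁆) := by rw [← hH]; exact hcommle (hτd hk)
  obtain ⟨c₃, hc₃, c₁₂, hc₁₂, hkc3⟩ := Subgroup.mem_sup_of_normal_left.mp hk'
  obtain ⟨c₁, hc₁, c₂, hc₂, hkc⟩ := Subgroup.mem_sup_of_normal_left.mp hc₁₂
  obtain ⟨t, ht⟩ := h12range c₃ hc₃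
  have hc₃k : c₃ ∈ τ.ker := by rw [← ht]; exact (Θ t).2
  have hc₁Δ : c₁ ∈ Δ₁ := (Subgroup.commutator_le.mpr (fun g₁ h₁ g₂ h₂ =>
    Δ₁.mul_mem (Δ₁.mul_mem (Δ₁.mul_mem h₁ h₂) (Δ₁.inv_mem h₁)) (Δ₁.inv_mem h₂))) hc₁
  have hc₂Δ : c₂ ∈ Δ₂ := (Subgroup.commutator_le.mpr (fun g₁ h₁ g₂ h₂ =>
    Δ₂.mul_mem (Δ₂.mul_mem (Δ₂.mul_mem h₁ h₂) (Δ₂.inv_mem h₁)) (Δ₂.inv_mem h₂))) hc₂
  obtain ⟨hk1, hk2⟩ := (hkerτ k).mp hk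
  obtain ⟨hc31, hc32⟩ := (hkerτ c₃).mp hc₃k
  have hτ₁c₁ : τ₁ c₁ = 1 := by
    rw [← hkc3, ← hkc, map_mul, map_mul, hc31, (hmem₂ c₂).mp hc₂Δ, mul_one, one_mul] at hk1
    exact hk1
  have hτ₂c₂ : τ₂ c₂ = 1 := by
    rw [← hkc3, ← hkc, map_mul, map_mul, hc32, (hmem₁ c₁).mp hc₁Δ, one_mul, one_mul] at hk2
    exact hk2
  rw [← Subgroup.map_subtype_commutator] at hc₁ hc₂
  obtain ⟨c₁', hc₁', hc₁e⟩ := hc₁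
  obtain ⟨c₂', hc₂', hc₂e⟩ := hc₂
  have hc₁k : c₁' ∈ π₁.ker := by
    rw [MonoidHom.mem_ker]
    show τ₁ (c₁' : Δ) = 1
    rw [show (c₁' : Δ) = c₁ from hc₁e]; exact hτ₁c₁
  have hc₂k : c₂' ∈ π₂.ker := by
    rw [MonoidHom.mem_ker]
    show τ₂ (c₂' : Δ) = 1
    rw [show (c₂' : Δ) = c₂ from hc₂e]; exact hτ₂c₂
  obtain ⟨a, ha⟩ := hf₁ ⟨c₁', hc₁k, hc₁'⟩
  obtain ⟨b, hb⟩ := hf₂ ⟨c₂', hc₂k, hc₂'⟩
  refine ⟨(a, b, t), ?_⟩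
  apply Subtype.ext
  show (((f₁ a : (π₁.ker ⊓ commutator Δ₁ : Subgroup Δ₁)) : Δ₁) : Δ) *
    ((((f₂ b : (π₂.ker ⊓ commutator Δ₂ : Subgroup Δ₂)) : Δ₂) : Δ) * (Θ t : Δ)) = k
  rw [ha, hb, ht, ← hkc3, ← hkc]
  show (c₁' : Δ) * ((c₂' : Δ) * c₃) = c₃ * (c₁ * c₂)
  rw [show (c₁' : Δ) = c₁ from hc₁e, show (c₂' : Δ) = c₂ from hc₂e, ← mul_assoc]
  exact Subgroup.mem_center_iff.mp (hτc hc₃k) (c₁ * c₂)

end Cfsg.Agent.Helper22
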