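import Mathlib
import Cfsg.Prelude
import Cfsg.Agent.Helper22.SchurFacts

set_option autoImplicit false

namespace Cfsg.Agent.Helper22

open scoped commutatorElement

universe u v w

/-- The subgroup of elements whose `m`-th power is a product of commutators. -/
def powCommSubgroup (P : Type*) [Group P] (m : ℕ) : Subgroup P :=
  ((powMonoidHom m : Abelianization P →* Abelianization P).comp Abelianization.of).ker

theorem mem_powCommSubgroup {P : Type*} [Group P] (m : ℕ) (x : P) :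
    x ∈ powCommSubgroup P m ↔ x ^ m ∈ commutator P := by
  unfold powCommSubgroup
  rw [MonoidHom.mem_ker, MonoidHom.comp_apply, powMonoidHom_apply, ← map_pow, ← MonoidHom.mem_ker,
    Abelianization.ker_of]

theorem bijective_restrict_of_coprime {P Γ Q : Type*} [Group P] [Group Γ] [Group Q]
    [Finite (Abelianization Q)]
    (p : P →* Γ) (hp : Function.Surjective p) (σ : Γ →* Q) (hσ : Cfsg.IsStemExtension σ)
    (hqc : (σ.comp p).ker ≤ Subgroup.center P) (N : ℕ) (hN : ∀ k ∈ (σ.comp p).ker, k ^ N = 1)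
    (hbot : p.ker ⊓ commutator P = ⊥)
    (hcop : Nat.Coprime (Nat.card (Abelianization Q)) N) :
    Function.Bijective (p.comp (powCommSubgroup P (Nat.card (Abelianization Q))).subtype) := by
  obtain ⟨m, hm⟩ : ∃ m, m = Nat.card (Abelianization Q) := ⟨_, rfl⟩
  rw [← hm] at hcop ⊢
  constructor
  · rw [injective_iff_map_eq_one]
    rintro ⟨x, hx⟩ hx1
    have hx1' : p x = 1 := hx1
    rw [mem_powCommSubgroup] at hx
    have h0 : x ^ m ∈ p.ker := by rw [MonoidHom.mem_ker, map_pow, hx1', one_pow]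
    have h1 : x ^ m ∈ p.ker ⊓ commutator P := ⟨h0, hx⟩
    rw [hbot, Subgroup.mem_bot] at h1
    have h2 : x ^ N = 1 :=
      hN x (by rw [MonoidHom.mem_ker, MonoidHom.comp_apply, hx1', map_one])
    have h3 : orderOf x ∣ Nat.gcd m N :=
      Nat.dvd_gcd (orderOf_dvd_of_pow_eq_one h1) (orderOf_dvd_of_pow_eq_one h2)
    rw [hcop.gcd_eq_one, Nat.dvd_one, orderOf_eq_one_iff] at h3
    exact Subtype.ext h3
  · intro y
    obtain ⟨x₀, hx₀⟩ := hp y
    have hxm : ∃ c ∈ commutator P, ∃ k ∈ (σ.comp p).ker, x₀ ^ m = c * k := by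
      have h1 : (σ.comp p) x₀ ^ m ∈ commutator Q := by
        rw [hm]; exact pow_card_abelianization_mem_commutator _
      rw [← map_commutator_of_surjective (σ.comp p) (hσ.1.comp hp)] at h1
      obtain ⟨c, hc, hcq⟩ := h1
      refine ⟨c, hc, c⁻¹ * x₀ ^ m, ?_, by group⟩
      rw [MonoidHom.mem_ker, map_mul, map_inv, map_pow, hcq, inv_mul_cancel]
    obtain ⟨c, hc, k, hk, hck⟩ := hxm
    have hxN : x₀ ^ N ∈ powCommSubgroup P m := by
      rw [mem_powCommSubgroup, ← pow_mul, mul_comm, pow_mul, hck]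
      have hkc : Commute c k := Subgroup.mem_center_iff.mp (hqc hk) c
      rw [hkc.mul_pow, hN k hk, mul_one]
      exact Subgroup.pow_mem _ hc N
    have hym : y ^ m ∈ commutator Γ := by
      have h1 : σ y ^ m ∈ commutator Q := by
        rw [hm]; exact pow_card_abelianization_mem_commutator _
      rw [← map_commutator_of_surjective σ hσ.1] at h1
      obtain ⟨d, hd, hdq⟩ := h1
      have h2 : d⁻¹ * y ^ m ∈ σ.ker := by
        rw [MonoidHom.mem_ker, map_mul, map_inv, map_pow, hdq, inv_mul_cancel]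
      have h3 := hσ.2.2 h2
      have e : y ^ m = d * (d⁻¹ * y ^ m) := by group
      rw [e]; exact Subgroup.mul_mem _ hd h3
    have hbez : (N : ℤ) * Nat.gcdA N m + (m : ℤ) * Nat.gcdB N m = 1 := by
      have h := Nat.gcd_eq_gcd_ab N m
      rw [hcop.symm.gcd_eq_one] at h
      exact_mod_cast h.symm
    obtain ⟨a, ha⟩ : ∃ a : ℤ, a = Nat.gcdA N m := ⟨_, rfl⟩
    obtain ⟨b, hb⟩ : ∃ b : ℤ, b = Nat.gcdB N m := ⟨_, rfl⟩
    rw [← ha, ← hb] at hbez
    have hyb : (y ^ m) ^ b ∈ commutator Γ := Subgroup.zpow_mem _ hym b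
    rw [← map_commutator_of_surjective p hp] at hyb
    obtain ⟨c', hc', hc'y⟩ := hyb
    have hc'S : c' ∈ powCommSubgroup P m := by
      rw [mem_powCommSubgroup]; exact Subgroup.pow_mem _ hc' m
    refine ⟨⟨(x₀ ^ N) ^ a * c', Subgroup.mul_mem _ (Subgroup.zpow_mem _ hxN a) hc'S⟩, ?_⟩
    show p ((x₀ ^ N) ^ a * c') = y
    rw [map_mul, map_zpow, map_pow, hx₀, hc'y, ← zpow_natCast y N, ← zpow_natCast y m, ← zpow_mul,
      ← zpow_mul, ← zpow_add, hbez, zpow_one]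

/-- If the commutator quotient of `Q` and its Schur multiplier have coprime orders, any two
Schur covers of `Q` are isomorphic over `Q`. -/
theorem exists_iso_over_of_coprime {Q : Type u} [Group Q] [Finite Q] {A : Type v} [CommGroup A]
    (hA : Cfsg.HasSchurMultiplier Q A)
    (hcop : Nat.Coprime (Nat.card (Abelianization Q)) (Nat.card A))
    {Γ₁ Γ₂ : Type u} [Group Γ₁] [Finite Γ₁] [Group Γ₂] [Finite Γ₂] (σ₁ : Γ₁ →* Q) (σ₂ : Γ₂ →* Q)
    (h₁ : Cfsg.IsStemExtension σ₁) (h₂ : Cfsg.IsStemExtension σ₂) (e₁ : σ₁.ker ≃* A)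
    (e₂ : σ₂.ker ≃* A) : ∃ e : Γ₁ ≃* Γ₂, σ₂.comp e.toMonoidHom = σ₁ := by
  have hc₁ : Nat.card A ≤ Nat.card σ₁.ker := (Nat.card_congr e₁.toEquiv).ge
  have hc₂ : Nat.card A ≤ Nat.card σ₂.ker := (Nat.card_congr e₂.toEquiv).ge
  have hp₁ := fiberFst_surjective σ₁ σ₂ h₂.1
  have hp₂ := fiberSnd_surjective σ₁ σ₂ h₁.1
  have hqc₁ := fiber_ker_central σ₁ σ₂ h₁.2.1 h₂.2.1
  have hkeq : (σ₂.comp (fiberSnd σ₁ σ₂)).ker = (σ₁.comp (fiberFst σ₁ σ₂)).ker := by
    ext y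
    simp only [MonoidHom.mem_ker, MonoidHom.comp_apply]
    rw [fiber_comm_apply]
  have hqc₂ : (σ₂.comp (fiberSnd σ₁ σ₂)).ker ≤ Subgroup.center _ := by rw [hkeq]; exact hqc₁
  have hbot₁ := ker_inf_commutator_eq_bot_of_cover hA σ₁ h₁ hc₁ (fiberFst σ₁ σ₂) hp₁ hqc₁
  have hbot₂ := ker_inf_commutator_eq_bot_of_cover hA σ₂ h₂ hc₂ (fiberSnd σ₁ σ₂) hp₂ hqc₂
  have hN : ∀ k ∈ (σ₁.comp (fiberFst σ₁ σ₂)).ker, k ^ Nat.card A = 1 := by
    intro k hk
    have hk1 : σ₁ (fiberFst σ₁ σ₂ k) = 1 := hk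
    have hk2 : σ₂ (fiberSnd σ₁ σ₂ k) = 1 := by rw [← fiber_comm_apply]; exact hk1
    have h1 : (fiberFst σ₁ σ₂ k) ^ Nat.card A = 1 := by
      have h : (⟨_, hk1⟩ : σ₁.ker) ^ Nat.card σ₁.ker = 1 := pow_card_eq_one'
      rw [Nat.card_congr e₁.toEquiv] at h
      have h' : ((⟨_, hk1⟩ ^ Nat.card A : σ₁.ker) : Γ₁) = 1 := congrArg Subtype.val h
      rw [Subgroup.coe_pow] at h'
      exact h'
    have h2 : (fiberSnd σ₁ σ₂ k) ^ Nat.card A = 1 := by
      have h : (⟨_, hk2⟩ : σ₂.ker) ^ Nat.card σ₂.ker = 1 := pow_card_eq_one'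
      rw [Nat.card_congr e₂.toEquiv] at h
      have h' : ((⟨_, hk2⟩ ^ Nat.card A : σ₂.ker) : Γ₂) = 1 := congrArg Subtype.val h
      rw [Subgroup.coe_pow] at h'
      exact h'
    apply Subtype.ext
    apply Prod.ext
    · exact h1
    · exact h2
  have hN₂ : ∀ k ∈ (σ₂.comp (fiberSnd σ₁ σ₂)).ker, k ^ Nat.card A = 1 := by rw [hkeq]; exact hN
  have hb₁ := bijective_restrict_of_coprime (fiberFst σ₁ σ₂) hp₁ σ₁ h₁ hqc₁ (Nat.card A) hN hbot₁
    hcop
  have hb₂ := bijective_restrict_of_coprime (fiberSnd σ₁ σ₂) hp₂ σ₂ h₂ hqc₂ (Nat.card A) hN₂ hbot₂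
    hcop
  let E₁ := MulEquiv.ofBijective _ hb₁
  let E₂ := MulEquiv.ofBijective _ hb₂
  refine ⟨E₁.symm.trans E₂, ?_⟩
  ext y
  obtain ⟨x, rfl⟩ := E₁.surjective y
  show σ₂ (E₂ (E₁.symm (E₁ x))) = σ₁ (E₁ x)
  rw [MulEquiv.symm_apply_apply]
  exact (fiber_comm_apply σ₁ σ₂ x.1).symm

end Cfsg.Agent.Helper22
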