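import Mathlib
import Cfsg.Prelude
import Cfsg.Agent.Helper22.SchurUnique

set_option autoImplicit false

namespace Cfsg.Agent.Helper22

open scoped commutatorElement

universe u v w

section Carry

variable {Γ : Type u} [Group Γ] {n : ℕ} [NeZero n] (χ : Γ →* Multiplicative (ZMod n))

/-- The residue of `χ x` as a natural number below `n`. -/
def ival (x : Γ) : ℕ := (Multiplicative.toAdd (χ x)).val

theorem ival_lt (x : Γ) : ival χ x < n := ZMod.val_lt _

theorem ival_mul (x y : Γ) : ival χ (x * y) = (ival χ x + ival χ y) % n := by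
  unfold ival; rw [map_mul, toAdd_mul, ZMod.val_add]

theorem ival_eq_zero {x : Γ} (hx : χ x = 1) : ival χ x = 0 := by
  unfold ival; rw [hx, toAdd_one, ZMod.val_zero]

theorem ival_mul_of_right (x : Γ) {z : Γ} (hz : χ z = 1) : ival χ (x * z) = ival χ x := by
  unfold ival; rw [map_mul, hz, mul_one]

/-- The carry of the addition of the residues. -/
def carry (x y : Γ) : ℕ := (ival χ x + ival χ y) / n

theorem carry_comm (x y : Γ) : carry χ x y = carry χ y x := by
  unfold carry; rw [add_comm]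

theorem carry_of_left {x : Γ} (hx : χ x = 1) (y : Γ) : carry χ x y = 0 := by
  unfold carry; rw [ival_eq_zero χ hx, zero_add]; exact Nat.div_eq_of_lt (ival_lt χ y)

theorem carry_of_right (x : Γ) {y : Γ} (hy : χ y = 1) : carry χ x y = 0 := by
  rw [carry_comm]; exact carry_of_left χ hy x

theorem carry_mul_left (x : Γ) {z : Γ} (hz : χ z = 1) (y : Γ) :
    carry χ (x * z) y = carry χ x y := by
  unfold carry; rw [ival_mul_of_right χ x hz]

theorem carry_mul_right (x y : Γ) {z : Γ} (hz : χ z = 1) :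
    carry χ x (y * z) = carry χ x y := by
  unfold carry; rw [ival_mul_of_right χ y hz]

theorem carry_aux (n : ℕ) (hn : 0 < n) (a c : ℕ) : a / n + (a % n + c) / n = (a + c) / n := by
  have h : a + c = n * (a / n) + (a % n + c) := by
    have := Nat.div_add_mod a n
    omega
  rw [h, Nat.mul_add_div hn]

theorem carry_assoc (x y z : Γ) :
    carry χ x y + carry χ (x * y) z = carry χ y z + carry χ x (y * z) := by
  have hn : 0 < n := Nat.pos_of_ne_zero (NeZero.ne n)
  unfold carry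
  rw [ival_mul, ival_mul, carry_aux n hn, add_comm (ival χ x) ((ival χ y + ival χ z) % n),
    carry_aux n hn]
  congr 1
  omega

end Carry

section TwistDef

variable {Γ : Type u} [Group Γ] {n : ℕ} [NeZero n]

/-- The group `Γ` with multiplication twisted by the carry cocycle with values in the powers of
a central element `a` killed by `χ`. -/
structure Twist (χ : Γ →* Multiplicative (ZMod n))
    (a : {a : Γ // a ∈ Subgroup.center Γ ∧ χ a = 1}) : Type u where
  /-- the underlying element -/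
  val : Γ

namespace Twist

variable {χ : Γ →* Multiplicative (ZMod n)} {a : {a : Γ // a ∈ Subgroup.center Γ ∧ χ a = 1}}

theorem ext' {x y : Twist χ a} (h : x.val = y.val) : x = y := by
  cases x; cases y; cases h; rfl

instance : Mul (Twist χ a) := ⟨fun x y => ⟨x.val * y.val * (a : Γ) ^ carry χ x.val y.val⟩⟩
instance : One (Twist χ a) := ⟨⟨1⟩⟩
instance : Inv (Twist χ a) := ⟨fun x => ⟨x.val⁻¹ * ((a : Γ) ^ carry χ x.val⁻¹ x.val)⁻¹⟩⟩

theorem mul_val (x y : Twist χ a) :
    (x * y).val = x.val * y.val * (a : Γ) ^ carry χ x.val y.val := rfl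

theorem one_val : (1 : Twist χ a).val = 1 := rfl

theorem inv_val (x : Twist χ a) :
    (x⁻¹).val = x.val⁻¹ * ((a : Γ) ^ carry χ x.val⁻¹ x.val)⁻¹ := rfl

theorem apow_comm (k : ℕ) (x : Γ) : (a : Γ) ^ k * x = x * (a : Γ) ^ k :=
  (Subgroup.mem_center_iff.mp (Subgroup.pow_mem _ a.2.1 k) x).symm

theorem chi_apow (k : ℕ) : χ ((a : Γ) ^ k) = 1 := by rw [map_pow, a.2.2, one_pow]

instance : Group (Twist χ a) := Group.ofLeftAxioms
  (by
    intro x y z
    apply ext'
    rw [mul_val, mul_val, mul_val, mul_val, carry_mul_left χ _ (chi_apow _),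
      carry_mul_right χ _ _ (chi_apow _)]
    have key := carry_assoc χ x.val y.val z.val
    calc x.val * y.val * (a : Γ) ^ carry χ x.val y.val * z.val *
          (a : Γ) ^ carry χ (x.val * y.val) z.val
        = x.val * y.val * z.val * ((a : Γ) ^ carry χ x.val y.val *
          (a : Γ) ^ carry χ (x.val * y.val) z.val) := by
          rw [mul_assoc (x.val * y.val) _ z.val, apow_comm]; group
      _ = x.val * y.val * z.val * ((a : Γ) ^ carry χ y.val z.val *
          (a : Γ) ^ carry χ x.val (y.val * z.val)) := by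
          rw [← pow_add, key, pow_add]
      _ = x.val * (y.val * z.val * (a : Γ) ^ carry χ y.val z.val) *
          (a : Γ) ^ carry χ x.val (y.val * z.val) := by group)
  (by
    intro x
    apply ext'
    rw [mul_val, one_val, one_mul, carry_of_left χ (map_one χ), pow_zero, mul_one])
  (by
    intro x
    apply ext'
    have h1 : χ (((a : Γ) ^ carry χ x.val⁻¹ x.val)⁻¹) = 1 := by
      rw [map_inv, chi_apow, inv_one]
    rw [mul_val, inv_val, carry_mul_left χ _ h1, one_val]
    have h2 := apow_comm (a := a) (carry χ x.val⁻¹ x.val) x.val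
    calc x.val⁻¹ * ((a : Γ) ^ carry χ x.val⁻¹ x.val)⁻¹ * x.val * (a : Γ) ^ carry χ x.val⁻¹ x.val
        = x.val⁻¹ * ((a : Γ) ^ carry χ x.val⁻¹ x.val)⁻¹ *
          ((a : Γ) ^ carry χ x.val⁻¹ x.val * x.val) := by rw [h2]; group
      _ = 1 := by group)

/-- The projection of the twisted group. -/
def hom {Q : Type*} [Group Q] (σ : Γ →* Q) (hσa : σ (a : Γ) = 1) : Twist χ a →* Q where
  toFun x := σ x.val
  map_one' := map_one σ
  map_mul' x y := by rw [mul_val, map_mul, map_mul, map_pow, hσa, one_pow, mul_one]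

theorem hom_apply {Q : Type*} [Group Q] (σ : Γ →* Q) (hσa : σ (a : Γ) = 1) (x : Twist χ a) :
    hom σ hσa x = σ x.val := rfl

theorem mul_val_of_left (x y : Twist χ a) (hx : χ x.val = 1) :
    (x * y).val = x.val * y.val := by
  rw [mul_val, carry_of_left χ hx, pow_zero, mul_one]

theorem mul_val_of_right (x y : Twist χ a) (hy : χ y.val = 1) :
    (x * y).val = x.val * y.val := by
  rw [mul_val, carry_of_right χ _ hy, pow_zero, mul_one]

end Twist

end TwistDef

theorem mem_commutator_of_map_mem {Γ Q : Type*} [Group Γ] [Group Q] (σ : Γ →* Q)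
    (hσ : Cfsg.IsStemExtension σ) (y : Γ) (hy : σ y ∈ commutator Q) : y ∈ commutator Γ := by
  rw [← map_commutator_of_surjective σ hσ.1] at hy
  obtain ⟨d, hd, hdq⟩ := hy
  have h2 : d⁻¹ * y ∈ σ.ker := by
    rw [MonoidHom.mem_ker, map_mul, map_inv, hdq, inv_mul_cancel]
  have h3 := hσ.2.2 h2
  have e : y = d * (d⁻¹ * y) := by group
  rw [e]; exact Subgroup.mul_mem _ hd h3

/-- Twisting a stem extension by a carry cocycle gives a stem extension with the same kernel
which is not isomorphic to the original one over `Q`. -/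
theorem exists_twisted_cover {Q : Type v} [Group Q] {Γ₁ : Type u} [Group Γ₁] [Finite Γ₁]
    (σ₁ : Γ₁ →* Q) (h₁ : Cfsg.IsStemExtension σ₁) (n : ℕ) (hn : 1 < n)
    (χQ : Q →* Multiplicative (ZMod n)) (g₀ : Q) (hg₀ : χQ g₀ = Multiplicative.ofAdd 1)
    (hg₀n : g₀ ^ n ∈ commutator Q) (a : Γ₁) (ha : a ∈ σ₁.ker) (hane : ∀ z ∈ σ₁.ker, z ^ n ≠ a) :
    ∃ (Γ₂ : Type u) (_ : Group Γ₂) (_ : Finite Γ₂) (σ₂ : Γ₂ →* Q), Cfsg.IsStemExtension σ₂ ∧
      Nonempty (σ₂.ker ≃* σ₁.ker) ∧ ¬ ∃ e : Γ₁ ≃* Γ₂, σ₂.comp e.toMonoidHom = σ₁ := by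
  haveI : NeZero n := ⟨by omega⟩
  have hn0 : 0 < n := by omega
  obtain ⟨χ, hχ⟩ : ∃ χ : Γ₁ →* Multiplicative (ZMod n), χ = χQ.comp σ₁ := ⟨_, rfl⟩
  have hχker : ∀ z, σ₁ z = 1 → χ z = 1 := fun z hz => by
    rw [hχ, MonoidHom.comp_apply, hz, map_one]
  have hχcomm : ∀ c ∈ commutator Γ₁, χ c = 1 := fun c hc =>
    commutator_le_ker_of_comm (fun x y => mul_comm x y) χ hc
  obtain ⟨a', ha'⟩ : ∃ a' : {a : Γ₁ // a ∈ Subgroup.center Γ₁ ∧ χ a = 1}, (a' : Γ₁) = a :=
    ⟨⟨a, h₁.2.1 ha, hχker a ha⟩, rfl⟩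
  have hσa' : σ₁ (a' : Γ₁) = 1 := by rw [ha']; exact ha
  obtain ⟨σ₂, hσ₂⟩ : ∃ σ₂ : Twist χ a' →* Q, ∀ x, σ₂ x = σ₁ x.val :=
    ⟨Twist.hom σ₁ hσa', fun _ => rfl⟩
  haveI : Finite (Twist χ a') :=
    Finite.of_injective (fun x : Twist χ a' => x.val) (fun x y h => Twist.ext' h)
  have hker : ∀ x : Twist χ a', x ∈ σ₂.ker ↔ σ₁ x.val = 1 := fun x => by
    rw [MonoidHom.mem_ker, hσ₂]
  have key : ∀ c ∈ commutator Γ₁, (⟨c⟩ : Twist χ a') ∈ commutator (Twist χ a') := by
    intro c hc
    have hc' := hc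
    rw [commutator_def, Subgroup.commutator_def] at hc'
    induction hc' using Subgroup.closure_induction with
    | mem c hcm =>
      obtain ⟨x, -, y, -, rfl⟩ := hcm
      have e : (⟨⁅x, y⁆⟩ : Twist χ a') = ⁅(⟨x⟩ : Twist χ a'), ⟨y⟩⁆ := by
        have e1 : (⟨⁅x, y⁆⟩ : Twist χ a') * ((⟨y⟩ : Twist χ a') * ⟨x⟩) =
            (⟨x⟩ : Twist χ a') * ⟨y⟩ := by
          apply Twist.ext'
          rw [Twist.mul_val_of_left _ _ (hχcomm _ hc), Twist.mul_val, Twist.mul_val,
            carry_comm χ y x, commutatorElement_def]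
          group
        rw [commutatorElement_def (⟨x⟩ : Twist χ a') ⟨y⟩, ← e1]
        group
      rw [e]
      exact Subgroup.commutator_mem_commutator (Subgroup.mem_top _) (Subgroup.mem_top _)
    | one => exact Subgroup.one_mem _
    | mul c c' hcc hcc' ih ih' =>
      have hc1 : c ∈ commutator Γ₁ := by
        rw [commutator_def, Subgroup.commutator_def]; exact hcc
      have hc2 : c' ∈ commutator Γ₁ := by
        rw [commutator_def, Subgroup.commutator_def]; exact hcc'
      have e : (⟨c * c'⟩ : Twist χ a') = ⟨c⟩ * ⟨c'⟩ :=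
        Twist.ext' (Twist.mul_val_of_left _ _ (hχcomm _ hc1)).symm
      rw [e]; exact Subgroup.mul_mem _ (ih hc1) (ih' hc2)
    | inv c hcc ih =>
      have hc1 : c ∈ commutator Γ₁ := by
        rw [commutator_def, Subgroup.commutator_def]; exact hcc
      have e : (⟨c⁻¹⟩ : Twist χ a') = (⟨c⟩ : Twist χ a')⁻¹ := by
        apply eq_inv_of_mul_eq_one_left
        apply Twist.ext'
        rw [Twist.mul_val_of_right _ _ (hχcomm _ hc1), Twist.one_val, inv_mul_cancel]
      rw [e]; exact Subgroup.inv_mem _ (ih hc1)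
  refine ⟨Twist χ a', inferInstance, inferInstance, σ₂, ⟨?_, ?_, ?_⟩, ?_, ?_⟩
  · intro q
    obtain ⟨x, hx⟩ := h₁.1 q
    exact ⟨⟨x⟩, by rw [hσ₂]; exact hx⟩
  · intro z hz
    rw [hker] at hz
    rw [Subgroup.mem_center_iff]
    intro y
    apply Twist.ext'
    rw [Twist.mul_val_of_right _ _ (hχker _ hz), Twist.mul_val_of_left _ _ (hχker _ hz)]
    exact Subgroup.mem_center_iff.mp (h₁.2.1 hz) y.val
  · intro z hz
    rw [hker] at hz
    exact key z.val (h₁.2.2 hz)
  · exact ⟨{ toFun := fun z => ⟨z.1.val, (hker z.1).mp z.2⟩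
             invFun := fun z => ⟨⟨z.1⟩, (hker _).mpr z.2⟩
             left_inv := fun _ => rfl
             right_inv := fun _ => rfl
             map_mul' := fun z z' => Subtype.ext
               (Twist.mul_val_of_left _ _ (hχker _ ((hker z.1).mp z.2))) }⟩
  · rintro ⟨e, he⟩
    have heσ : ∀ x, σ₁ (e x).val = σ₁ x := fun x => by
      have h := DFunLike.congr_fun he x
      rw [MonoidHom.comp_apply, hσ₂] at h
      exact h
    obtain ⟨ζ, hζ⟩ : ∃ ζ : Γ₁ → Γ₁, ∀ x, ζ x = x⁻¹ * (e x).val := ⟨_, fun _ => rfl⟩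
    have hζk : ∀ x, σ₁ (ζ x) = 1 := by
      intro x; rw [hζ, map_mul, map_inv, heσ, inv_mul_cancel]
    have hζc : ∀ x y, ζ x * y = y * ζ x := fun x y =>
      (Subgroup.mem_center_iff.mp (h₁.2.1 (hζk x)) y).symm
    have hev : ∀ x, (e x).val = x * ζ x := by intro x; rw [hζ, mul_inv_cancel_left]
    have hζmul : ∀ x y, ζ (x * y) = ζ x * ζ y * a ^ carry χ x y := by
      intro x y
      have h1 : (e (x * y)).val = (e x).val * (e y).val * (a' : Γ₁) ^ carry χ (e x).val (e y).val := by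
        rw [map_mul]; rfl
      rw [hev, hev, hev, carry_mul_left χ _ (hχker _ (hζk x)),
        carry_mul_right χ _ _ (hχker _ (hζk y)), ha'] at h1
      have h2 : x * ζ x * (y * ζ y) * a ^ carry χ x y = x * y * (ζ x * ζ y * a ^ carry χ x y) := by
        rw [mul_assoc x (ζ x), ← mul_assoc (ζ x) y, hζc x y]; group
      rw [h2] at h1
      exact mul_left_cancel h1
    have hζ1 : ζ 1 = 1 := by
      have h := hζmul 1 1
      rw [mul_one, carry_of_left χ (map_one χ), pow_zero, mul_one] at h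
      exact (mul_eq_left.mp h.symm)
    have hζcomm : ∀ c ∈ commutator Γ₁, ζ c = 1 := by
      intro c hc
      have hc' := hc
      rw [commutator_def, Subgroup.commutator_def] at hc'
      induction hc' using Subgroup.closure_induction with
      | mem c hcm =>
        obtain ⟨x, -, y, -, rfl⟩ := hcm
        have h1 : x * y = ⁅x, y⁆ * (y * x) := by rw [commutatorElement_def]; group
        have h2 := hζmul ⁅x, y⁆ (y * x)
        rw [← h1, carry_of_left χ (hχcomm _ hc), pow_zero, mul_one, hζmul x y, hζmul y x,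
          carry_comm χ y x, hζc x (ζ y), mul_assoc (ζ y)] at h2
        exact mul_eq_right.mp h2.symm
      | one => exact hζ1
      | mul c c' hcc hcc' ih ih' =>
        have hc1 : c ∈ commutator Γ₁ := by
          rw [commutator_def, Subgroup.commutator_def]; exact hcc
        have hc2 : c' ∈ commutator Γ₁ := by
          rw [commutator_def, Subgroup.commutator_def]; exact hcc'
        rw [hζmul, ih hc1, ih' hc2, carry_of_left χ (hχcomm _ hc1), pow_zero, mul_one, mul_one]
      | inv c hcc ih =>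
        have hc1 : c ∈ commutator Γ₁ := by
          rw [commutator_def, Subgroup.commutator_def]; exact hcc
        have h := hζmul c⁻¹ c
        rw [inv_mul_cancel, hζ1, ih hc1, carry_of_right χ _ (hχcomm _ hc1), pow_zero, mul_one,
          mul_one] at h
        exact h.symm
    obtain ⟨g, hg⟩ := h₁.1 g₀
    have hχg : χ g = Multiplicative.ofAdd 1 := by rw [hχ, MonoidHom.comp_apply, hg, hg₀]
    have hig : ival χ g = 1 := by
      unfold ival
      rw [hχg, toAdd_ofAdd]
      haveI : Fact (1 < n) := ⟨hn⟩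
      exact ZMod.val_one n
    have hgn : g ^ n ∈ commutator Γ₁ :=
      mem_commutator_of_map_mem σ₁ h₁ _ (by rw [map_pow, hg]; exact hg₀n)
    have hpow : ∀ j : ℕ, ival χ (g ^ j) = j % n ∧ ζ (g ^ j) = ζ g ^ j * a ^ (j / n) := by
      intro j
      induction j with
      | zero =>
        refine ⟨?_, ?_⟩
        · rw [pow_zero, ival_eq_zero χ (map_one χ), Nat.zero_mod]
        · rw [pow_zero, pow_zero, Nat.zero_div, pow_zero, mul_one]; exact hζ1
      | succ j ih =>
        refine ⟨?_, ?_⟩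
        · rw [pow_succ, ival_mul, ih.1, hig, Nat.mod_add_mod]
        · have h1 : j / n + (j % n + 1) / n = (j + 1) / n := carry_aux n hn0 j 1
          have h2 : carry χ (g ^ j) g = (j % n + 1) / n := by
            unfold carry; rw [ih.1, hig]
          rw [pow_succ g j, hζmul, ih.2, h2, ← h1, pow_add a, pow_succ (ζ g) j]
          have h3 : a ^ (j / n) * ζ g = ζ g * a ^ (j / n) := (hζc g _).symm
          calc ζ g ^ j * a ^ (j / n) * ζ g * a ^ ((j % n + 1) / n)
              = ζ g ^ j * (a ^ (j / n) * ζ g) * a ^ ((j % n + 1) / n) := by group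
            _ = ζ g ^ j * ζ g * (a ^ (j / n) * a ^ ((j % n + 1) / n)) := by rw [h3]; group
    have h1 := (hpow n).2
    rw [hζcomm _ hgn, Nat.div_self hn0, pow_one] at h1
    apply hane ((ζ g)⁻¹) (by rw [MonoidHom.mem_ker, map_inv, hζk, inv_one])
    rw [inv_pow]
    exact (eq_inv_of_mul_eq_one_right h1.symm).symm

/-- A finite group whose commutator quotient has order divisible by `p` maps onto a cyclic
group `ℤ/n` with `p ∣ n`, with an element `g₀` mapping to the generator and `g₀ ^ n` a product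
of commutators. -/
theorem exists_cyclic_quotient_data {Q : Type*} [Group Q] [Finite Q] (p : ℕ) (hp : p.Prime)
    (hpQ : p ∣ Nat.card (Abelianization Q)) :
    ∃ (n : ℕ) (χ : Q →* Multiplicative (ZMod n)) (g₀ : Q), 1 < n ∧ p ∣ n ∧
      χ g₀ = Multiplicative.ofAdd 1 ∧ g₀ ^ n ∈ commutator Q := by
  classical
  obtain ⟨ι, _, n, hn, ⟨e⟩⟩ := CommGroup.equiv_prod_multiplicative_zmod_of_finite (Abelianization Q)
  have hcard : Nat.card (Abelianization Q) = ∏ i, n i := by
    rw [Nat.card_congr e.toEquiv, Nat.card_pi]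
    apply Finset.prod_congr rfl
    intro i _
    show Nat.card (Multiplicative (ZMod (n i))) = n i
    rw [Nat.card_congr Multiplicative.toAdd, Nat.card_zmod]
  rw [hcard] at hpQ
  obtain ⟨i₀, -, hi₀⟩ := (Prime.dvd_finsetProd_iff hp.prime _).mp hpQ
  obtain ⟨g₀, hg₀⟩ := QuotientGroup.mk_surjective
    (e.symm (Pi.mulSingle i₀ (Multiplicative.ofAdd (1 : ZMod (n i₀)))))
  have hg₀' : Abelianization.of g₀ =
      e.symm (Pi.mulSingle i₀ (Multiplicative.ofAdd (1 : ZMod (n i₀)))) := hg₀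
  refine ⟨n i₀, ((Pi.evalMonoidHom _ i₀).comp e.toMonoidHom).comp Abelianization.of, g₀, hn i₀,
    hi₀, ?_, ?_⟩
  · show (e (Abelianization.of g₀)) i₀ = _
    rw [hg₀', MulEquiv.apply_symm_apply, Pi.mulSingle_eq_same]
  · rw [← Abelianization.ker_of, MonoidHom.mem_ker, map_pow, hg₀', ← map_pow, ← Pi.mulSingle_pow,
      ← ofAdd_nsmul]
    simp

theorem exists_not_pow {Z : Type*} [Group Z] [Finite Z] (p n : ℕ) (hp : p.Prime) (hpn : p ∣ n)
    (hpZ : p ∣ Nat.card Z) : ∃ a : Z, ∀ z : Z, z ^ n ≠ a := by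
  haveI : Fact p.Prime := ⟨hp⟩
  obtain ⟨b, hb⟩ := exists_prime_orderOf_dvd_card' p hpZ
  have hbn : b ^ n = 1 := by
    obtain ⟨k, rfl⟩ := hpn
    rw [pow_mul, ← hb, pow_orderOf_eq_one, one_pow]
  have hb1 : b ≠ 1 := by
    intro h
    rw [h, orderOf_one] at hb
    exact hp.one_lt.ne hb
  have hninj : ¬ Function.Injective (fun z : Z => z ^ n) := by
    intro hinj
    apply hb1
    apply hinj
    show b ^ n = 1 ^ n
    rw [hbn, one_pow]
  have hnsurj : ¬ Function.Surjective (fun z : Z => z ^ n) := fun h =>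
    hninj (Finite.injective_iff_surjective.mpr h)
  unfold Function.Surjective at hnsurj
  push Not at hnsurj
  exact hnsurj

/-- The Schur covers of `Q` are unique up to isomorphism over `Q` exactly when the commutator
quotient and the Schur multiplier have coprime orders. -/
theorem covers_unique_iff_coprime {Q : Type u} [Group Q] [Finite Q] {A : Type v} [CommGroup A]
    (hA : Cfsg.HasSchurMultiplier Q A) :
    (∀ (Γ₁ Γ₂ : Type u) [Group Γ₁] [Finite Γ₁] [Group Γ₂] [Finite Γ₂] (σ₁ : Γ₁ →* Q)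
      (σ₂ : Γ₂ →* Q), Cfsg.IsStemExtension σ₁ → Cfsg.IsStemExtension σ₂ →
      Nonempty (σ₁.ker ≃* A) → Nonempty (σ₂.ker ≃* A) →
      ∃ e : Γ₁ ≃* Γ₂, σ₂.comp e.toMonoidHom = σ₁) ↔
    Nat.Coprime (Nat.card (Abelianization Q)) (Nat.card A) := by
  constructor
  · intro H
    by_contra hncop
    obtain ⟨p, hp, hpQ, hpA⟩ := Nat.Prime.not_coprime_iff_dvd.mp hncop
    obtain ⟨Γ₁, _, _, σ₁, h₁, ⟨e₁⟩⟩ := hA.1
    obtain ⟨n, χQ, g₀, hn, hpn, hg₀, hg₀n⟩ := exists_cyclic_quotient_data p hp hpQ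
    have hpZ : p ∣ Nat.card σ₁.ker := by rw [Nat.card_congr e₁.toEquiv]; exact hpA
    obtain ⟨a, ha⟩ := exists_not_pow p n hp hpn hpZ
    obtain ⟨Γ₂, _, _, σ₂, h₂, ⟨e₂⟩, hne⟩ := exists_twisted_cover σ₁ h₁ n hn χQ g₀ hg₀ hg₀n
      (a : Γ₁) a.2 (fun z hz h => ha ⟨z, hz⟩ (Subtype.ext h))
    exact hne (H Γ₁ Γ₂ σ₁ σ₂ h₁ h₂ ⟨e₁⟩ ⟨e₂.trans e₁⟩)
  · intro hcop Γ₁ Γ₂ _ _ _ _ σ₁ σ₂ h₁ h₂ ⟨e₁⟩ ⟨e₂⟩
    exact exists_iso_over_of_coprime hA hcop σ₁ σ₂ h₁ h₂ e₁ e₂

end Cfsg.Agent.Helper22
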