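import Mathlib

set_option autoImplicit false

namespace Cfsg.Agent.Helper22

open MulAction
open scoped Pointwise

/-- `k`-element subsets of `G` -/
def KSub (G : Type*) (k : ℕ) : Type _ := {X : Finset G // X.card = k}

namespace KSub

variable {G : Type*} [Group G] [DecidableEq G] {k : ℕ}

instance : MulAction G (KSub G k) where
  smul g X := ⟨X.1.image (fun x => x * g⁻¹), by
    rw [Finset.card_image_of_injective _ (mul_left_injective _)]; exact X.2⟩
  one_smul X := by
    apply Subtype.ext
    show X.1.image (fun x => x * (1 : G)⁻¹) = X.1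
    simp
  mul_smul g h X := by
    apply Subtype.ext
    show X.1.image (fun x => x * (g * h)⁻¹) = (X.1.image (fun x => x * h⁻¹)).image (fun x => x * g⁻¹)
    rw [Finset.image_image]
    congr 1
    funext x
    simp [mul_assoc]

theorem mem_smul (g : G) (X : KSub G k) (y : G) : y ∈ (g • X).1 ↔ y * g ∈ X.1 := by
  show y ∈ X.1.image (fun x => x * g⁻¹) ↔ _
  rw [Finset.mem_image]
  constructor
  · rintro ⟨x, hx, rfl⟩
    simpa using hx
  · intro h
    exact ⟨y * g, h, by simp⟩

theorem mem_stabilizer' (g : G) (X : KSub G k) :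
    g ∈ stabilizer G X ↔ ∀ y, y * g ∈ X.1 ↔ y ∈ X.1 := by
  rw [mem_stabilizer_iff]
  constructor
  · intro h y
    rw [← mem_smul, h]
  · intro h
    apply Subtype.ext
    ext y
    rw [mem_smul]
    exact h y

theorem mul_mem_of_mem_stabilizer {X : KSub G k} {g : G} (hg : g ∈ stabilizer G X) {x : G}
    (hx : x ∈ X.1) : x * g ∈ X.1 := by
  have h := (mem_stabilizer' g⁻¹ X).mp (inv_mem hg) (x * g)
  rw [mul_inv_cancel_right] at h
  exact h.mp hx

theorem card_stabilizer_dvd (X : KSub G k) : Nat.card (stabilizer G X) ∣ k := by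
  have h : ((X.1 : Set G) * ((stabilizer G X : Subgroup G) : Set G)) = (X.1 : Set G) := by
    ext y
    constructor
    · rintro ⟨x, hx, g, hg, rfl⟩
      exact Finset.mem_coe.mpr (mul_mem_of_mem_stabilizer hg (Finset.mem_coe.mp hx))
    · intro hy
      exact ⟨y, hy, 1, one_mem _, mul_one y⟩
  have h2 := Subgroup.card_mul_eq_card_subgroup_mul_card_quotient (stabilizer G X) (X.1 : Set G)
  rw [h] at h2
  have hc : Nat.card (X.1 : Set G) = k := by
    rw [Nat.card_coe_set_eq, Set.ncard_coe_finset, X.2]
  rw [hc] at h2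
  exact Dvd.intro _ h2.symm

variable [Finite G]

/-- the left coset `g H` as a `k`-subset -/
noncomputable def coset (H : Subgroup G) (hH : Nat.card H = k) (g : G) : KSub G k :=
  letI : Fintype H := Fintype.ofFinite H
  ⟨Finset.image (fun h : H => g * (h : G)) Finset.univ, by
    rw [Finset.card_image_of_injective, Finset.card_univ, ← Nat.card_eq_fintype_card, hH]
    intro a b hab
    exact Subtype.ext (mul_left_cancel hab)⟩

theorem mem_coset (H : Subgroup G) (hH : Nat.card H = k) (g y : G) :
    y ∈ (coset H hH g).1 ↔ g⁻¹ * y ∈ H := by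
  letI : Fintype H := Fintype.ofFinite H
  show y ∈ Finset.image (fun h : H => g * (h : G)) Finset.univ ↔ _
  rw [Finset.mem_image]
  constructor
  · rintro ⟨h, -, rfl⟩
    simp
  · intro hy
    exact ⟨⟨g⁻¹ * y, hy⟩, Finset.mem_univ _, by simp⟩

theorem stabilizer_coset (H : Subgroup G) (hH : Nat.card H = k) (g : G) :
    stabilizer G (coset H hH g) = H := by
  ext u
  rw [mem_stabilizer']
  constructor
  · intro h
    have h1 := (h g).mpr (by rw [mem_coset]; simp)
    rw [mem_coset] at h1
    simpa [← mul_assoc] using h1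
  · intro hu y
    rw [mem_coset, mem_coset, ← mul_assoc]
    exact H.mul_mem_cancel_right hu

theorem eq_coset (H : Subgroup G) (hH : Nat.card H = k) (X : KSub G k) (hX : stabilizer G X = H)
    (x : G) (hx : x ∈ X.1) : X = coset H hH x := by
  apply Subtype.ext
  symm
  apply Finset.eq_of_subset_of_card_le
  · intro y hy
    rw [mem_coset] at hy
    have := mul_mem_of_mem_stabilizer (X := X) (g := x⁻¹ * y) (by rw [hX]; exact hy) hx
    simpa using this
  · rw [X.2, (coset H hH x).2]

theorem card_fiber (H : Subgroup G) (hH : Nat.card H = k) :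
    Nat.card {X : KSub G k // stabilizer G X = H} * k = Nat.card G := by
  classical
  let F : G → {X : KSub G k // stabilizer G X = H} := fun g => ⟨coset H hH g, stabilizer_coset H hH g⟩
  have hF : ∀ (X : {X : KSub G k // stabilizer G X = H}) (g : G), F g = X ↔ g ∈ X.1.1 := by
    intro X g
    constructor
    · intro h
      have h1 : g ∈ (coset H hH g).1 := by rw [mem_coset]; simp
      have h2 : (coset H hH g) = X.1 := congrArg Subtype.val h
      rw [← h2]; exact h1
    · intro h
      exact Subtype.ext (eq_coset H hH X.1 X.2 g h).symm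
  haveI : Finite (KSub G k) := by unfold KSub; infer_instance
  letI : Fintype {X : KSub G k // stabilizer G X = H} := Fintype.ofFinite _
  rw [← Nat.card_congr (Equiv.sigmaFiberEquiv F), Nat.card_sigma]
  have : ∀ X : {X : KSub G k // stabilizer G X = H}, Nat.card {g : G // F g = X} = k := by
    intro X
    rw [Nat.card_congr (Equiv.subtypeEquivRight (hF X))]
    rw [Nat.card_eq_fintype_card, Fintype.card_coe, X.1.2]
  simp only [this]
  rw [Finset.sum_const, Finset.card_univ, smul_eq_mul, Nat.card_eq_fintype_card]

end KSub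

theorem choose_pred_modEq (p : ℕ) [Fact p.Prime] (β m : ℕ) (hm : 0 < m) :
    (p ^ β * m - 1).choose (p ^ β - 1) ≡ 1 [MOD p] := by
  have hp := (Fact.out : p.Prime)
  induction β with
  | zero => simp [Nat.ModEq]
  | succ β ih =>
    have h1 : 1 ≤ p ^ β * m := Nat.mul_pos (pow_pos hp.pos β) hm
    have h1' : 1 ≤ p ^ β := pow_pos hp.pos β
    have hppos := hp.pos
    have e1 : p ^ (β + 1) * m - 1 = (p - 1) + p * (p ^ β * m - 1) := by
      have h2 : p ^ (β + 1) * m = p * (p ^ β * m) := by ring
      rw [h2, Nat.mul_sub, mul_one]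
      have h3 : p ≤ p * (p ^ β * m) := Nat.le_mul_of_pos_right p h1
      omega
    have e2 : p ^ (β + 1) - 1 = (p - 1) + p * (p ^ β - 1) := by
      have h2 : p ^ (β + 1) = p * p ^ β := by ring
      rw [h2, Nat.mul_sub, mul_one]
      have h3 : p ≤ p * p ^ β := Nat.le_mul_of_pos_right p h1'
      omega
    have hlt : p - 1 < p := Nat.sub_lt hppos one_pos
    have hl := Choose.choose_modEq_choose_mod_mul_choose_div_nat (p := p)
      (n := p ^ (β + 1) * m - 1) (k := p ^ (β + 1) - 1)
    rw [e1, e2, Nat.add_mul_mod_self_left, Nat.add_mul_mod_self_left, Nat.add_mul_div_left _ _ hppos,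
      Nat.add_mul_div_left _ _ hppos, Nat.mod_eq_of_lt hlt, Nat.div_eq_of_lt hlt, Nat.choose_self,
      one_mul, zero_add, zero_add] at hl
    rw [e1, e2]
    exact hl.trans ih

/-- **Frobenius**: the number of subgroups of order `p ^ β` is `≡ 1 mod p`. -/
theorem card_subgroups_modEq_one {G : Type*} [Group G] [Finite G] (p β : ℕ) (hp : p.Prime)
    (hdiv : p ^ β ∣ Nat.card G) :
    Nat.card {H : Subgroup G // Nat.card H = p ^ β} ≡ 1 [MOD p] := by
  classical
  haveI : Fact p.Prime := ⟨hp⟩
  letI : Fintype G := Fintype.ofFinite G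
  obtain ⟨m, hm⟩ := hdiv
  have hm0 : 0 < m := by
    rcases Nat.eq_zero_or_pos m with h | h
    · rw [h, mul_zero] at hm
      exact absurd hm Nat.card_pos.ne'
    · exact h
  set k := p ^ β with hk
  have hk0 : 0 < k := pow_pos hp.pos β
  haveI : Finite (KSub G k) := by unfold KSub; infer_instance
  -- total count
  have hA : Nat.card (KSub G k) = (k * m).choose k := by
    have : Nat.card (KSub G k) = Nat.card {X : Finset G // X.card = k} := rfl
    rw [this, Nat.card_eq_fintype_card, Fintype.card_finset_len, ← Nat.card_eq_fintype_card, hm]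
  -- good / bad split
  let P : KSub G k → Prop := fun X => Nat.card (stabilizer G X) = k
  have hB : Nat.card (KSub G k) = Nat.card {X // P X} + Nat.card {X // ¬ P X} := by
    rw [← Nat.card_sum, Nat.card_congr (Equiv.sumCompl P)]
  -- good count
  have hC : Nat.card {X // P X} = Nat.card {H : Subgroup G // Nat.card H = k} * m := by
    let f : {X // P X} → {H : Subgroup G // Nat.card H = k} := fun X => ⟨stabilizer G X.1, X.2⟩
    letI : Fintype {H : Subgroup G // Nat.card H = k} := Fintype.ofFinite _
    rw [← Nat.card_congr (Equiv.sigmaFiberEquiv f), Nat.card_sigma]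
    have : ∀ H : {H : Subgroup G // Nat.card H = k}, Nat.card {X : {X // P X} // f X = H} = m := by
      intro H
      let e : {X : {X // P X} // f X = H} ≃ {X : KSub G k // stabilizer G X = H.1} :=
        { toFun := fun X => ⟨X.1.1, congrArg Subtype.val X.2⟩
          invFun := fun X => ⟨⟨X.1, by show Nat.card (stabilizer G X.1) = k; rw [X.2]; exact H.2⟩,
            Subtype.ext X.2⟩
          left_inv := fun X => rfl
          right_inv := fun X => rfl }
      rw [Nat.card_congr e]
      have h1 := KSub.card_fiber H.1 H.2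
      rw [hm, mul_comm] at h1
      exact Nat.eq_of_mul_eq_mul_left hk0 h1
    simp only [this]
    rw [Finset.sum_const, Finset.card_univ, smul_eq_mul, Nat.card_eq_fintype_card]
  -- bad count
  have hD : p * m ∣ Nat.card {X // ¬ P X} := by
    let S : SubMulAction G (KSub G k) :=
      { carrier := {X | ¬ P X}
        smul_mem' := by
          intro g X hX
          show ¬ (Nat.card (stabilizer G (g • X)) = k)
          rw [← Nat.card_congr (stabilizerEquivStabilizer (g := g) (a := X) rfl).toEquiv]
          exact hX }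
    have e1 : Nat.card {X // ¬ P X} = Nat.card S := rfl
    rw [e1]
    letI : Fintype S := Fintype.ofFinite _
    letI : Fintype (Quotient (orbitRel G S)) := Fintype.ofFinite _
    letI : ∀ b : S, Fintype (stabilizer G b) := fun b => Fintype.ofFinite _
    rw [Nat.card_eq_fintype_card, MulAction.card_eq_sum_card_group_div_card_stabilizer G S]
    apply Finset.dvd_sum
    intro ω _
    set b : S := ω.out with hb
    have hs1 : stabilizer G b = stabilizer G (b : KSub G k) := SubMulAction.stabilizer_of_subMul b
    have hs2 : Nat.card (stabilizer G (b : KSub G k)) ∣ k := KSub.card_stabilizer_dvd _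
    have hs3 : Nat.card (stabilizer G (b : KSub G k)) ≠ k := b.2
    obtain ⟨j, hj, hj2⟩ := (Nat.dvd_prime_pow hp).mp hs2
    have hjlt : j < β := by
      rcases Nat.lt_or_ge j β with h | h
      · exact h
      · exfalso
        apply hs3
        rw [hj2, le_antisymm hj h]
    obtain ⟨d, hd⟩ : ∃ d, β = j + d + 1 := ⟨β - j - 1, by omega⟩
    have hcardG : Fintype.card G = p ^ j * (p * m * p ^ d) := by
      rw [← Nat.card_eq_fintype_card, hm, hk, hd]; ring
    have hcards : Fintype.card (stabilizer G b) = p ^ j := by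
      rw [← Nat.card_eq_fintype_card, hs1, hj2]
    rw [hcardG, hcards, Nat.mul_div_cancel_left _ (pow_pos hp.pos j)]
    exact Dvd.intro _ rfl
  -- combine
  obtain ⟨t, ht⟩ := hD
  have hchoose : (k * m).choose k = m * (k * m - 1).choose (k - 1) := by
    have h := Nat.add_one_mul_choose_eq (k * m - 1) (k - 1)
    have e1 : k * m - 1 + 1 = k * m := Nat.sub_add_cancel (Nat.mul_pos hk0 hm0)
    have e2 : k - 1 + 1 = k := Nat.sub_add_cancel hk0
    rw [e1, e2] at h
    have h' : k * (m * (k * m - 1).choose (k - 1)) = k * (k * m).choose k := by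
      rw [← mul_assoc, h, mul_comm]
    exact (Nat.eq_of_mul_eq_mul_left hk0 h').symm
  have hL : (k * m - 1).choose (k - 1) ≡ 1 [MOD p] := choose_pred_modEq p β m hm0
  set c := (k * m - 1).choose (k - 1) with hc
  set N := Nat.card {H : Subgroup G // Nat.card H = k} with hN
  have hfin : m * c = m * (N + p * t) := by
    rw [← hchoose, ← hA, hB, hC, ht]; ring
  have hc2 : c = N + p * t := Nat.eq_of_mul_eq_mul_left hm0 hfin
  have h3 : N + p * t ≡ N [MOD p] := by
    simp [Nat.ModEq, Nat.add_mul_mod_self_left]
  rw [hc2] at hL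
  exact h3.symm.trans hL

end Cfsg.Agent.Helper22
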