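import Mathlib
import Cfsg.Prelude
import Cfsg.Agent.S0003
import Cfsg.Agent.S0048
import Cfsg.Agent.S3745

set_option autoImplicit false

namespace Cfsg.Agent.Helper22

/-- Coset norm argument: if `M ⊴ K` and every element of the coset `M y` has `r`-th power `1`
and acts fixed-point-freely on the abelian group `V`, as does `M`, then `V` has exponent
dividing `|M|`. -/
theorem fpf_coset_norm {V : Type*} [CommGroup V] {K : Type*} [Group K] [Finite K]
    (ρ : K →* MulAut V) (M : Subgroup K) [hMn : M.Normal] (y : K) (r : ℕ) (hr : r.Prime)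
    (hyr : ∀ m ∈ M, (m * y) ^ r = 1)
    (hM : ∀ v : V, (∀ m ∈ M, ρ m v = v) → v = 1)
    (hy : ∀ m ∈ M, ∀ v : V, ρ (m * y) v = v → v = 1) :
    ∀ v : V, v ^ Nat.card M = 1 := by
  classical
  haveI := Fintype.ofFinite M
  intro v
  have hW : ∀ m : M, ∏ j ∈ Finset.range r, ρ (((m : K) * y) ^ j) v = 1 := by
    intro m
    apply hy m m.2
    rw [map_prod]
    have h1 : ∀ j, ρ ((m : K) * y) (ρ (((m : K) * y) ^ j) v) = ρ (((m : K) * y) ^ (j + 1)) v := by
      intro j
      rw [← MulAut.mul_apply, ← map_mul, ← pow_succ']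
    simp_rw [h1]
    have h2 := Finset.prod_range_succ (fun j => ρ (((m : K) * y) ^ j) v) r
    have h3 := Finset.prod_range_succ' (fun j => ρ (((m : K) * y) ^ j) v) r
    rw [h2] at h3
    rw [hyr m m.2, pow_zero] at h3
    exact (mul_right_cancel h3).symm
  have hσmem : ∀ (j : ℕ) (m : K), m ∈ M → (m * y) ^ j * (y ^ j)⁻¹ ∈ M := by
    intro j m hm
    rw [← QuotientGroup.eq_one_iff (N := M)]
    rw [QuotientGroup.mk_mul, QuotientGroup.mk_inv, QuotientGroup.mk_pow, QuotientGroup.mk_pow,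
      QuotientGroup.mk_mul, (QuotientGroup.eq_one_iff m).mpr hm, one_mul, mul_inv_cancel]
  have hσinj : ∀ j, 0 < j → j < r → Function.Injective
      (fun m : M => (⟨((m : K) * y) ^ j * (y ^ j)⁻¹, hσmem j m m.2⟩ : M)) := by
    intro j hj0 hjr m m' h
    have h1 : ((m : K) * y) ^ j = ((m' : K) * y) ^ j := by
      have := congrArg Subtype.val h
      exact mul_right_cancel this
    have hcop : Nat.Coprime j r :=
      ((Nat.Prime.coprime_iff_not_dvd hr).mpr (Nat.not_dvd_of_pos_of_lt hj0 hjr)).symm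
    obtain ⟨a, b, hab⟩ := Nat.isCoprime_iff_coprime.mpr hcop
    have key : ∀ g : K, g ^ r = 1 → g = (g ^ j) ^ a := by
      intro g hg
      have h2 : g = g ^ (a * (j : ℤ) + b * (r : ℤ)) := by rw [hab, zpow_one]
      rw [zpow_add, mul_comm a, mul_comm b, zpow_mul, zpow_mul, zpow_natCast, zpow_natCast, hg,
        one_zpow, mul_one] at h2
      exact h2
    have h2 : (m : K) * y = (m' : K) * y := by
      rw [key _ (hyr m m.2), key _ (hyr m' m'.2), h1]
    exact Subtype.ext (mul_right_cancel h2)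
  have hNm : ∀ (u : V) (m₀ : K), m₀ ∈ M →
      ρ m₀ (∏ m : M, ρ (m : K) u) = ∏ m : M, ρ (m : K) u := by
    intro u m₀ hm₀
    rw [map_prod]
    have h1 : ∀ m : M, ρ m₀ (ρ (m : K) u) = ρ (((⟨m₀, hm₀⟩ : M) * m : M) : K) u := fun m => by
      rw [Subgroup.coe_mul, map_mul]; rfl
    simp_rw [h1]
    exact Equiv.prod_comp (Equiv.mulLeft (⟨m₀, hm₀⟩ : M)) (fun m : M => ρ (m : K) u)
  have hfix : ∀ u : V, ∏ m : M, ρ (m : K) u = 1 :=
    fun u => hM _ (fun m₀ hm₀ => hNm u m₀ hm₀)
  have h1 : ∏ m : M, ∏ j ∈ Finset.range r, ρ (((m : K) * y) ^ j) v = 1 :=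
    Finset.prod_eq_one (fun m _ => hW m)
  rw [Finset.prod_comm] at h1
  obtain ⟨n, rfl⟩ : ∃ n, r = n + 1 := ⟨r - 1, by have := hr.pos; omega⟩
  rw [Finset.prod_range_succ'] at h1
  have h2 : ∏ m : M, ρ (((m : K) * y) ^ 0) v = v ^ Nat.card M := by
    simp only [pow_zero, map_one, MulAut.one_apply]
    rw [Finset.prod_const, Finset.card_univ, Nat.card_eq_fintype_card]
  have h3 : ∀ j ∈ Finset.range n, ∏ m : M, ρ (((m : K) * y) ^ (j + 1)) v = 1 := by
    intro j hj
    have hj' := Finset.mem_range.mp hj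
    have e : ∀ m : M, ρ (((m : K) * y) ^ (j + 1)) v =
        ρ (((⟨((m : K) * y) ^ (j + 1) * (y ^ (j + 1))⁻¹, hσmem (j + 1) m m.2⟩ : M) : K))
          (ρ (y ^ (j + 1)) v) := by
      intro m
      rw [← MulAut.mul_apply, ← map_mul, inv_mul_cancel_right]
    have hinj := hσinj (j + 1) (by omega) (by omega)
    exact (Finset.prod_congr rfl (fun m _ => e m)).trans
      ((Equiv.prod_comp (Equiv.ofBijective _ ⟨hinj, Finite.surjective_of_injective hinj⟩)
        (fun m : M => ρ (m : K) (ρ (y ^ (j + 1)) v))).trans (hfix _))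
  rw [h2, Finset.prod_eq_one h3, one_mul] at h1
  exact h1

/-- Core of the three primes lemma. -/
theorem three_primes_core {G K : Type*} [Group G] [Finite G] [Group K] [Finite K] (f : K →* G)
    (hf : Function.Injective f) (p q r : ℕ) (hp : p.Prime) (hq : q.Prime) (hr : r.Prime)
    (hpq : p ≠ q) (hpr : p ≠ r) (hqr : q ≠ r)
    (N : Subgroup G) [hNn : N.Normal] (hNab : ∀ a ∈ N, ∀ b ∈ N, a * b = b * a)
    (hNexp : ∀ a ∈ N, a ^ p = 1) (hN1 : N ≠ ⊥)
    (M : Subgroup K) [hMn : M.Normal] (hMexp : ∀ a ∈ M, a ^ q = 1) (hM1 : M ≠ ⊥)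
    (y : K) (hy : orderOf y = r)
    (h1 : ∀ g : G, orderOf g ≠ p * q) (h2 : ∀ g : G, orderOf g ≠ p * r)
    (h3 : ∀ g : G, orderOf g ≠ q * r) : False := by
  classical
  haveI : Fact p.Prime := ⟨hp⟩
  haveI : Fact q.Prime := ⟨hq⟩
  haveI : Fact r.Prime := ⟨hr⟩
  letI : CommGroup N :=
    { (inferInstance : Group N) with mul_comm := fun a b => Subtype.ext (hNab a a.2 b b.2) }
  obtain ⟨ρ, hρdef⟩ : ∃ ρ : K →* MulAut N, ρ = (MulAut.conjNormal : G →* MulAut N).comp f :=
    ⟨_, rfl⟩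
  have hρ : ∀ (k : K) (v : N), ((ρ k v : N) : G) = f k * v * (f k)⁻¹ := fun k v => by
    rw [hρdef, MonoidHom.comp_apply, MulAut.conjNormal_apply]
  have hordN : ∀ v : N, v ≠ 1 → orderOf (v : G) = p := by
    intro v hv
    apply orderOf_eq_prime (hNexp v v.2)
    intro h; exact hv (Subtype.ext h)
  have hcomm : ∀ (ℓ : ℕ) (g : K) (v : N), orderOf g = ℓ → Nat.Coprime ℓ p → ρ g v = v → v ≠ 1 →
      orderOf (f g * (v : G)) = ℓ * p := by
    intro ℓ g v hg hcop hfix hv
    have h4 : f g * (v : G) * (f g)⁻¹ = v := by rw [← hρ, hfix]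
    have h5 : Commute (f g) (v : G) := by
      show f g * v = v * f g
      calc f g * v = (f g * v * (f g)⁻¹) * f g := by group
        _ = v * f g := by rw [h4]
    have h6 : orderOf (f g) = ℓ := by rw [orderOf_injective f hf, hg]
    rw [h5.orderOf_mul_eq_mul_orderOf_of_coprime (by rw [h6, hordN v hv]; exact hcop), h6,
      hordN v hv]
  have hyM : y ∉ M := by
    intro hyM
    have h4 := hMexp y hyM
    have h5 : r ∣ q := by rw [← hy]; exact orderOf_dvd_of_pow_eq_one h4
    exact hqr ((Nat.prime_dvd_prime_iff_eq hr hq).mp h5).symm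
  have hyr : ∀ m ∈ M, (m * y) ^ r = 1 := by
    intro m hm
    by_contra hne
    have hmem : (m * y) ^ r ∈ M := by
      rw [← QuotientGroup.eq_one_iff (N := M), QuotientGroup.mk_pow, QuotientGroup.mk_mul,
        (QuotientGroup.eq_one_iff m).mpr hm, one_mul, ← QuotientGroup.mk_pow, ← hy,
        pow_orderOf_eq_one]
      rfl
    have hq' : orderOf ((m * y) ^ r) = q := orderOf_eq_prime (hMexp _ hmem) hne
    have hqd : q ∣ orderOf (m * y) := by rw [← hq']; exact orderOf_pow_dvd r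
    have hrd : r ∣ orderOf (m * y) := by
      have h4 : orderOf ((QuotientGroup.mk (m * y) : K ⧸ M)) = r := by
        apply orderOf_eq_prime
        · rw [← QuotientGroup.mk_pow]; exact (QuotientGroup.eq_one_iff _).mpr hmem
        · intro h5
          have h6 := (QuotientGroup.eq_one_iff _).mp h5
          apply hyM
          have h7 := M.mul_mem (M.inv_mem hm) h6
          rwa [inv_mul_cancel_left] at h7
      rw [← h4]
      exact orderOf_map_dvd (QuotientGroup.mk' M) (m * y)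
    have hqrd : q * r ∣ orderOf (m * y) :=
      Nat.Coprime.mul_dvd_of_dvd_of_dvd ((Nat.coprime_primes hq hr).mpr hqr) hqd hrd
    have hpos : 0 < orderOf (m * y) := orderOf_pos _
    obtain ⟨c, hc⟩ := hqrd
    have hc0 : c ≠ 0 := by
      rintro rfl
      rw [mul_zero] at hc
      omega
    have h7 : orderOf ((m * y) ^ c) = q * r := by
      rw [orderOf_pow_of_dvd hc0 ⟨q * r, by rw [hc, mul_comm]⟩, hc]
      exact Nat.mul_div_cancel _ (Nat.pos_of_ne_zero hc0)
    have h8 : orderOf (f ((m * y) ^ c)) = q * r := by rw [orderOf_injective f hf, h7]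
    exact h3 _ h8
  have hM' : ∀ v : N, (∀ m ∈ M, ρ m v = v) → v = 1 := by
    intro v hv
    by_contra hne
    obtain ⟨x, hxM, hx1⟩ : ∃ x ∈ M, x ≠ 1 := by
      by_contra hcon
      push Not at hcon
      exact hM1 ((Subgroup.eq_bot_iff_forall M).mpr hcon)
    have hxo : orderOf x = q := orderOf_eq_prime (hMexp x hxM) hx1
    have h4 := hcomm q x v hxo ((Nat.coprime_primes hq hp).mpr (Ne.symm hpq)) (hv x hxM) hne
    exact h1 _ (by rw [h4, mul_comm])
  have hy' : ∀ m ∈ M, ∀ v : N, ρ (m * y) v = v → v = 1 := by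
    intro m hm v hv
    by_contra hne
    have hgo : orderOf (m * y) = r := orderOf_eq_prime (hyr m hm) (by
      intro h
      apply hyM
      have h4 : y = m⁻¹ := eq_inv_of_mul_eq_one_right h
      rw [h4]
      exact M.inv_mem hm)
    have h4 := hcomm r (m * y) v hgo ((Nat.coprime_primes hr hp).mpr (Ne.symm hpr)) hv hne
    exact h2 _ (by rw [h4, mul_comm])
  have key := fpf_coset_norm ρ M y r hr hyr hM' hy'
  obtain ⟨v, hv⟩ : ∃ v : N, v ≠ 1 := by
    by_contra hcon
    push Not at hcon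
    apply hN1
    rw [Subgroup.eq_bot_iff_forall]
    intro x hx
    exact congrArg Subtype.val (hcon ⟨x, hx⟩)
  have h4 : orderOf (v : G) = p := hordN v hv
  have h5 : p ∣ Nat.card M := by
    rw [← h4]
    apply orderOf_dvd_of_pow_eq_one
    have h6 := congrArg Subtype.val (key v)
    rw [Subgroup.coe_pow] at h6
    exact h6
  have hMq : IsPGroup q M := fun x => ⟨1, by rw [pow_one]; exact Subtype.ext (hMexp x x.2)⟩
  obtain ⟨k, hk⟩ := IsPGroup.iff_card.mp hMq
  rw [hk] at h5
  exact hpq ((Nat.prime_dvd_prime_iff_eq hp hq).mp (hp.dvd_of_dvd_pow h5))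

/-- The three primes lemma: a finite solvable group whose order is divisible by three distinct
primes has an element whose order is the product of two of them. -/
theorem three_primes {G : Type*} [Group G] [Finite G] (hG : Group.IsSolvable G) (S : Finset ℕ)
    (hS : ∀ a ∈ S, a.Prime) (hcard : 3 ≤ S.card) (hdvd : ∀ a ∈ S, a ∣ Nat.card G) :
    ∃ a ∈ S, ∃ b ∈ S, a ≠ b ∧ ∃ g : G, orderOf g = a * b := by
  classical
  by_contra hcon
  have hno : ∀ a ∈ S, ∀ b ∈ S, a ≠ b → ∀ g : G, orderOf g ≠ a * b := by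
    intro a ha b hb hab g hg
    exact hcon ⟨a, ha, b, hb, hab, g, hg⟩
  obtain ⟨m, n, hmn, hm, hn⟩ := S3745.exists_pi_split (↑S : Set ℕ) (Nat.card G) Nat.card_pos
  obtain ⟨H, hH⟩ := S0003.result (G := G) m n hmn.symm (S3745.coprime_of_pi hm hn)
  have hdvdH : ∀ a ∈ S, a ∣ Nat.card H := by
    intro a ha
    rw [hH]
    have h1 : a ∣ m * n := hmn ▸ hdvd a ha
    exact ((hS a ha).dvd_mul.mp h1).resolve_right (hn a (hS a ha) (Finset.mem_coe.mpr ha))
  have hHpi : ∀ ℓ : ℕ, ℓ.Prime → ℓ ∣ Nat.card H → ℓ ∈ S := by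
    intro ℓ hℓ hd
    rw [hH] at hd
    exact Finset.mem_coe.mp (hm ℓ hℓ hd)
  haveI : Nontrivial H := by
    obtain ⟨a, ha⟩ : S.Nonempty := Finset.card_pos.mp (by omega)
    have h1 := hdvdH a ha
    have h2 : 1 < Nat.card H := lt_of_lt_of_le (hS a ha).one_lt (Nat.le_of_dvd Nat.card_pos h1)
    exact Finite.one_lt_card_iff_nontrivial.mp h2
  haveI : Group.IsSolvable H := inferInstance
  obtain ⟨N, hNn, hNne, hNmin⟩ := S0048.exists_minimal_normal (G := H)
  obtain ⟨hNab, ℓ, hℓ, hNexp⟩ := S0043.min_normal_solvable N hNne hNmin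
  haveI : Fact ℓ.Prime := ⟨hℓ⟩
  have hℓS : ℓ ∈ S := by
    apply hHpi ℓ hℓ
    obtain ⟨v, hvN, hv1⟩ : ∃ x ∈ N, x ≠ 1 := by
      by_contra hcon
      push Not at hcon
      exact hNne ((Subgroup.eq_bot_iff_forall N).mpr hcon)
    have h1 : orderOf v = ℓ := orderOf_eq_prime (hNexp v hvN) hv1
    rw [← h1]
    exact orderOf_dvd_natCard v
  obtain ⟨m', n', hmn', hm', hn'⟩ :=
    S3745.exists_pi_split (↑(S.erase ℓ) : Set ℕ) (Nat.card H) Nat.card_pos
  obtain ⟨K, hK⟩ := S0003.result (G := H) m' n' hmn'.symm (S3745.coprime_of_pi hm' hn')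
  have hdvdK : ∀ a ∈ S.erase ℓ, a ∣ Nat.card K := by
    intro a ha
    have haS := (Finset.mem_erase.mp ha).2
    rw [hK]
    have h1 : a ∣ m' * n' := hmn' ▸ hdvdH a haS
    exact ((hS a haS).dvd_mul.mp h1).resolve_right (hn' a (hS a haS) (Finset.mem_coe.mpr ha))
  have hKpi : ∀ t : ℕ, t.Prime → t ∣ Nat.card K → t ∈ S.erase ℓ := by
    intro t ht hd
    rw [hK] at hd
    exact Finset.mem_coe.mp (hm' t ht hd)
  have hcardE : 2 ≤ (S.erase ℓ).card := by
    rw [Finset.card_erase_of_mem hℓS]; omega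
  haveI : Nontrivial K := by
    obtain ⟨a, ha⟩ : (S.erase ℓ).Nonempty := Finset.card_pos.mp (by omega)
    have h1 := hdvdK a ha
    have haS := (Finset.mem_erase.mp ha).2
    have h2 : 1 < Nat.card K :=
      lt_of_lt_of_le (hS a haS).one_lt (Nat.le_of_dvd Nat.card_pos h1)
    exact Finite.one_lt_card_iff_nontrivial.mp h2
  haveI : Group.IsSolvable K := inferInstance
  obtain ⟨M, hMn, hMne, hMmin⟩ := S0048.exists_minimal_normal (G := K)
  obtain ⟨hMab, q, hq, hMexp⟩ := S0043.min_normal_solvable M hMne hMmin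
  haveI : Fact q.Prime := ⟨hq⟩
  have hqS : q ∈ S.erase ℓ := by
    apply hKpi q hq
    obtain ⟨v, hvM, hv1⟩ : ∃ x ∈ M, x ≠ 1 := by
      by_contra hcon
      push Not at hcon
      exact hMne ((Subgroup.eq_bot_iff_forall M).mpr hcon)
    have h1 : orderOf v = q := orderOf_eq_prime (hMexp v hvM) hv1
    rw [← h1]
    exact orderOf_dvd_natCard v
  obtain ⟨r, hr⟩ : ((S.erase ℓ).erase q).Nonempty :=
    Finset.card_pos.mp (by rw [Finset.card_erase_of_mem hqS]; omega)
  have hrq : r ≠ q := (Finset.mem_erase.mp hr).1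
  have hrSe : r ∈ S.erase ℓ := (Finset.mem_erase.mp hr).2
  have hrℓ : r ≠ ℓ := (Finset.mem_erase.mp hrSe).1
  have hrS := (Finset.mem_erase.mp hrSe).2
  have hqℓ : q ≠ ℓ := (Finset.mem_erase.mp hqS).1
  have hqS' := (Finset.mem_erase.mp hqS).2
  haveI : Fact r.Prime := ⟨hS r hrS⟩
  obtain ⟨y, hy⟩ := exists_prime_orderOf_dvd_card' r (hdvdK r hrSe)
  have hnoH : ∀ a ∈ S, ∀ b ∈ S, a ≠ b → ∀ g : H, orderOf g ≠ a * b := by
    intro a ha b hb hab g hg
    exact hno a ha b hb hab (g : G) (by rw [Subgroup.orderOf_coe]; exact hg)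
  exact three_primes_core K.subtype K.subtype_injective ℓ q r hℓ hq (hS r hrS) hqℓ.symm hrℓ.symm
    hrq.symm N hNab hNexp hNne M hMexp hMne y hy (hnoH ℓ hℓS q hqS' hqℓ.symm)
    (hnoH ℓ hℓS r hrS hrℓ.symm) (hnoH q hqS' r hrS hrq.symm)

/-- For `n ≥ 7` there are three primes up to `n` whose pairwise products exceed `n`. -/
theorem exists_three_primes (n : ℕ) (hn : 7 ≤ n) : ∃ S : Finset ℕ, (∀ a ∈ S, a.Prime) ∧
    3 ≤ S.card ∧ (∀ a ∈ S, a ≤ n) ∧ (∀ a ∈ S, ∀ b ∈ S, a ≠ b → n < a * b) := by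
  by_cases h14 : n ≤ 14
  · refine ⟨{3, 5, 7}, ?_, by decide, ?_, ?_⟩
    · intro a ha
      simp only [Finset.mem_insert, Finset.mem_singleton] at ha
      rcases ha with rfl | rfl | rfl <;> norm_num
    · intro a ha
      simp only [Finset.mem_insert, Finset.mem_singleton] at ha
      rcases ha with rfl | rfl | rfl <;> omega
    · intro a ha b hb hab
      simp only [Finset.mem_insert, Finset.mem_singleton] at ha hb
      rcases ha with rfl | rfl | rfl <;> rcases hb with rfl | rfl | rfl <;> omega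
  by_cases h31 : n ≤ 31
  · refine ⟨{5, 7, 11}, ?_, by decide, ?_, ?_⟩
    · intro a ha
      simp only [Finset.mem_insert, Finset.mem_singleton] at ha
      rcases ha with rfl | rfl | rfl <;> norm_num
    · intro a ha
      simp only [Finset.mem_insert, Finset.mem_singleton] at ha
      rcases ha with rfl | rfl | rfl <;> omega
    · intro a ha b hb hab
      simp only [Finset.mem_insert, Finset.mem_singleton] at ha hb
      rcases ha with rfl | rfl | rfl <;> rcases hb with rfl | rfl | rfl <;> omega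
  obtain ⟨k, hk⟩ : ∃ k, k = n / 8 := ⟨_, rfl⟩
  have hk4 : 4 ≤ k := by omega
  have hk1 : 8 * k ≤ n := by omega
  have hk2 : n < 8 * k + 8 := by omega
  obtain ⟨p, hp, hp1, hp2⟩ := Nat.exists_prime_lt_and_le_two_mul k (by omega)
  obtain ⟨q, hq, hq1, hq2⟩ := Nat.exists_prime_lt_and_le_two_mul (2 * k) (by omega)
  obtain ⟨r, hr, hr1, hr2⟩ := Nat.exists_prime_lt_and_le_two_mul (4 * k) (by omega)
  have hbase : 8 * k + 8 ≤ (k + 1) * (2 * k + 1) := by nlinarith
  have hprod : ∀ a b : ℕ, k + 1 ≤ a → 2 * k + 1 ≤ b → n < a * b := by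
    intro a b ha hb
    calc n < 8 * k + 8 := hk2
      _ ≤ (k + 1) * (2 * k + 1) := hbase
      _ ≤ a * b := Nat.mul_le_mul ha hb
  refine ⟨{p, q, r}, ?_, ?_, ?_, ?_⟩
  · intro a ha
    simp only [Finset.mem_insert, Finset.mem_singleton] at ha
    rcases ha with rfl | rfl | rfl <;> assumption
  · have : ({p, q, r} : Finset ℕ).card = 3 :=
      Finset.card_eq_three.mpr ⟨p, q, r, by omega, by omega, by omega, rfl⟩
    omega
  · intro a ha
    simp only [Finset.mem_insert, Finset.mem_singleton] at ha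
    rcases ha with rfl | rfl | rfl <;> omega
  · intro a ha b hb hab
    simp only [Finset.mem_insert, Finset.mem_singleton] at ha hb
    rcases ha with rfl | rfl | rfl <;> rcases hb with rfl | rfl | rfl
    · exact absurd rfl hab
    · exact hprod _ _ (by omega) (by omega)
    · exact hprod _ _ (by omega) (by omega)
    · rw [mul_comm]; exact hprod _ _ (by omega) (by omega)
    · exact absurd rfl hab
    · exact hprod _ _ (by omega) (by omega)
    · rw [mul_comm]; exact hprod _ _ (by omega) (by omega)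
    · rw [mul_comm]; exact hprod _ _ (by omega) (by omega)
    · exact absurd rfl hab

end Cfsg.Agent.Helper22
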